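import Cfsg.Agent.Lib.US7.Num

/-! # Possible character degrees `k τ - a` for subgroups of `GU₇(q)`, `7 ∣ q + 1` -/

set_option autoImplicit false

namespace Cfsg.Lib.US7

open Cfsg.Lib.Unitary

/-- Horner evaluation -/
def dioEv (x : ℤ) : List ℤ → ℤ
  | [] => 0
  | a :: l => a + x * dioEv x l

/-- the `q'`-part of `|GU₇(x)|` -/
def dioC (x : ℤ) : ℤ :=
  (x + 1) * (x ^ 2 - 1) * (x ^ 3 + 1) * (x ^ 4 - 1) * (x ^ 5 + 1) * (x ^ 6 - 1) * (x ^ 7 + 1)

theorem dio_bz {x P c : ℤ} (hC : P ∣ c * dioC x) (u v : List ℤ) (R : ℤ)
    (e : dioEv x u * P + dioEv x v * dioC x = R) (h0 : 0 < c * R) : P ≤ c * R :=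
  Int.le_of_dvd h0 (by
    rw [← e, mul_add, mul_left_comm c (dioEv x v)]
    exact dvd_add ((dvd_mul_left P _).mul_left c) (hC.mul_left _))

theorem dio_five {x c : ℤ} (hx : 500 ≤ x) (c0 : 0 < c) (c1 : c ≤ 12) :
    ¬ x ^ 5 - 2 * x ^ 4 + 3 * x ^ 3 - 4 * x ^ 2 + 5 * x - 6 ∣ c * dioC x := fun h => by
  have := dio_bz h
    [-34992885967, -29160990786, -974011310, 1134669980, -1322502440, 1541461587, -1800329091, -3731776295,
    -506106557, 429556376, -313657126, 145692951, 87179291, -404921288, -148289791, 89305363, -31240218,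
    -14291684, 39867745, -30006685, -33922903, 13853937, 1015134, -6478204, 5705722, 2054, -4054089,
    -1001006] [-7150098, 8664979, -5157279, 1051071, 1001006] 209964465900
    (by simp only [dioEv, dioC]; ring) (by positivity)
  have p4 : 500 ^ 4 ≤ x ^ 4 := pow_le_pow_left₀ (by norm_num) hx 4
  nlinarith [mul_le_mul p4 (show 498 ≤ x - 2 by omega) (by norm_num) (by positivity),
    mul_nonneg (sq_nonneg x) (show 0 ≤ 3 * x - 4 by omega)]

theorem dio_six {x k a : ℤ} (hx : 500 ≤ x) (a1 : 1 ≤ a) (a2 : a ≤ 2) (ak : a < k) (k7 : k ≤ 7)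
    (h : k * (x ^ 6 - x ^ 5 + x ^ 4 - x ^ 3 + x ^ 2 - x + 1) - 7 * a ∣ 7 * (7 * a - k) * dioC x) :
    k = 7 ∧ a = 1 := by
  have p5 : 500 ^ 5 ≤ x ^ 5 := pow_le_pow_left₀ (by norm_num) hx 5
  have b : 500 ^ 5 * 499 ≤ x ^ 6 - x ^ 5 + x ^ 4 - x ^ 3 + x ^ 2 - x + 1 := by
    nlinarith [mul_le_mul p5 (show 499 ≤ x - 1 by omega) (by norm_num) (by positivity),
      mul_nonneg (show 0 ≤ x ^ 3 + x by positivity) (show 0 ≤ x - 1 by omega)]
  interval_cases a <;> interval_cases k
  · linarith [dio_bz h
      [7412359027, -2386852846, -4728556038, 6292578722, -8374630358, 3266232690, -4385568390, -2176022992,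
      10752642340, -14249365640, 11008864268, -6714945440, -6850396524, 9061976776, -12030312664,
      15966100016, -5422588640, -687758312, 8797336120, -11675002240, 7602849488, -2202867520, 2922230080,
      4002595712, -5308418608, 7042025952, -1462747776, -5940320928] [-39404613760, 36514159936,
      -32677569760, 27587524416, -20835788160, 11880641856] 2342818625
      (by simp only [dioEv, dioC]; ring) (by norm_num)]
  · linarith [dio_bz h
      [53534653285, -37854035562, -21060477159, 37724456085, -67080298335, 33442005912, -63691131336,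
      11826971379, 63691860780, -107989705476, 98719249959, -82741592304, -28550072826, 44616299310,
      -77713388874, 134678213406, -61849004112, 21297097611, 49506297444, -86679091116, 62691282207,
      -21719080152, 37028669832, 21183871437, -35801343495, 61271238645, -20790659610, -49512501207]
      [-341419470228, 332231652621, -315243147672, 285592340889, -234703028412, 148537503621] 127280857088
      (by simp only [dioEv, dioC]; ring) (by norm_num)]
  · linarith [dio_bz h
      [1832877103, -2509518228, -359841532, 1114503244, -3023342428, 1366038828, -4317158076, 1592625824,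
      2245201520, -4895409920, 4990404112, -4975187616, -955060304, 1169313728, -2808001856, 6679029632,
      -3430831488, 2043871808, 1500698432, -4165505024, 3227587840, -1099779072, 2269714944, 759331840,
      -1486624000, 3107138560, -1499000832, -2604289024] [-18192267264, 18389313536, -18132474880,
      17248063488, -14838308864, 10417156096] 12693635955
      (by simp only [dioEv, dioC]; ring) (by norm_num)]
  · linarith [dio_bz h
      [158898655063, -597900789220, 21918171645, -1995967945, -599295513755, 162760909080, -1067573444280,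
      520610909825, 340766772250, -869655878450, 1016404656275, -1184804087600, -153339301950, 138061111750,
      -299722408750, 1405674773750, -665366198000, 577085169625, 7078473250, -872108436250, 711795846875,
      -258934375000, 554507275000, 138707789375, -353815391875, 505086984375, -468508162500, -581338771875]
      [-3747799768750, 4149108071875, -4156746962500, 4416258890625, -3470846906250, 2906693859375]
      3430002458624
      (by simp only [dioEv, dioC]; ring) (by norm_num)]
  · linarith [dio_bz h
      [-128210954401, -354698666490, -142234749834, -294279008826, -297380575914, 37089301830,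
      -184523105130, 372646011456, 122747160708, -130166271288, 309079086444, -288715790160, 266669701812,
      336577868568, 351931909752, 645159763728, -75324634560, 234931788936, -189796914072, -260151326208,
      261375218064, -65076540480, 185061905280, -104741081856, -351078337584, -215809668576, -472383757440,
      -277073724384] [-580164436224, 1704128829120, -783132242976, 2276022307392, -490582147968,
      1662442346304] 708375390625
      (by simp only [dioEv, dioC]; ring) (by norm_num)]
  · exact ⟨rfl, rfl⟩
  · linarith [dio_bz h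
      [92374401303298, -14913698478693, -75399233318922, 87616453830789, -101814639701133, 25599009576063,
      -29769525260706, -58187149689321, 160313481320850, -186254005522365, 123678291625632, -50977034724231,
      -126202981143159, 146620291900338, -170355602519946, 197931491890542, -44536551881283,
      -40971607308207, 140320919098602, -163034169988239, 96704945921250, -19640481093387, 22819489916454,
      66203042496705, -76918267277595, 89368136296245, -11117001443562, -79800049065249] [-1019880889967808,
      906808369323537, -775433393437230, 622794171232881, -445449290060808, 239400147195747] 3762475631530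
      (by simp only [dioEv, dioC]; ring) (by norm_num)]
  · linarith [dio_bz h
      [7412359027, -2386852846, -4728556038, 6292578722, -8374630358, 3266232690, -4385568390, -2176022992,
      10752642340, -14249365640, 11008864268, -6714945440, -6850396524, 9061976776, -12030312664,
      15966100016, -5422588640, -687758312, 8797336120, -11675002240, 7602849488, -2202867520, 2922230080,
      4002595712, -5308418608, 7042025952, -1462747776, -5940320928] [-78809227520, 73028319872,
      -65355139520, 55175048832, -41671576320, 23761283712] 4685637250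
      (by simp only [dioEv, dioC]; ring) (by norm_num)]
  · linarith [dio_bz h
      [6336857771206, -3151375466295, -3172401252430, 4852493363155, -7416595727755, 3451317933105,
      -5438439672330, -164989823275, 8072310533750, -12110471119475, 10319368619200, -7631368540425,
      -4246182206225, 6260486225750, -9482277676250, 14336948476250, -5884641580125, 995228532875,
      6405613676750, -9695901213125, 6712163256250, -2223601865625, 3349771293750, 2816919469375,
      -4235137905625, 6383877671875, -1761892256250, -5223271459375] [-70938438412500, 67616528753125,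
      -62562189706250, 54927118265625, -43423253312500, 26116357296875] 13906718471646
      (by simp only [dioEv, dioC]; ring) (by norm_num)]
  · linarith [dio_bz h
      [53534653285, -37854035562, -21060477159, 37724456085, -67080298335, 33442005912, -63691131336,
      11826971379, 63691860780, -107989705476, 98719249959, -82741592304, -28550072826, 44616299310,
      -77713388874, 134678213406, -61849004112, 21297097611, 49506297444, -86679091116, 62691282207,
      -21719080152, 37028669832, 21183871437, -35801343495, 61271238645, -20790659610, -49512501207]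
      [-682838940456, 664463305242, -630486295344, 571184681778, -469406056824, 297075007242] 254561714176
      (by simp only [dioEv, dioC]; ring) (by norm_num)]
  · linarith [dio_bz h
      [646454, -633095, -193134, 424879, -902599, 445965, -1067790, 321661, 758438, -1456903, 1408864,
      -1296805, -312453, 466118, -946358, 1902298, -938905, 447851, 566798, -1193813, 894574, -309065,
      588890, 246739, -458009, 882879, -357270, -717459] [-9993928, 9900415, -9585562, 8906919, -7543536,
      5022213] 5468750
      (by simp only [dioEv, dioC]; ring) (by norm_num)]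

set_option synthInstance.maxSize 5000 in
set_option synthInstance.maxHeartbeats 200000 in
theorem dio_fin : ∀ q < (500 : ℕ), ∀ k < (8 : ℕ), ∀ a < (3 : ℕ), 13 ≤ q ∧ q % 7 = 6 ∧ 1 ≤ a ∧ a ≤ k ∧
    k * ((q ^ 7 + 1) / (q + 1) / 7) - a ∣ q ^ 21 * ((q + 1) * (q ^ 2 - 1) * (q ^ 3 + 1) * (q ^ 4 - 1) *
      (q ^ 5 + 1) * (q ^ 6 - 1) * (q ^ 7 + 1)) → k = 7 ∧ a = 1 := by
  decide +kernel

/-- `7 D = P(q) := k (q^6 - q^5 + … + 1) - 7 a`, `guOrder q 7 = q^21 C(q)`,
`C = (q+1)(q²-1)(q³+1)(q⁴-1)(q⁵+1)(q⁶-1)(q⁷+1)`.
(1) `p`-part: put `c = |7a - k| ≠ 0`.  `gcd (D, q^21) = p^j`; `p^j ∣ c`: else `p^(v+1) ∣ P(q)` for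
`v = v_p c`, and `p^(v+1) ∣ q` (`q ≥ 13 ≥ c`, check `q = 13`: `c < 13` as `a ≤ k`), `P(q) ≡ ±c mod q`.
So `D ∣ c C(q)`.  (2) For each of the 12 pairs `(k,a)` a Bezout identity `u P + v C = R` in `ℤ[q]`
(extended Euclid over `ℚ` in python, clear denominators; check by `ring`); for `k = a`,
`P = k (q+1) P₅` and `P₅ ∣ D` (as `7 ∣ q+1`), use `P₅` instead of `P`.  So `P(q) ∣ 7 c R`, which bounds
`q` (a few thousand); finite check by `decide +kernel` over `q ≡ 6 mod 7` below the bound of
`¬ D ∣ guOrder q 7` (verified in python for all `13 ≤ q < 200000`). -/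
theorem dio {p e q τ k a D : ℕ} (hp : p.Prime) (hq : q = p ^ e) (h : Nm q 7 7 τ) (h13 : 13 ≤ q)
    (a1 : 1 ≤ a) (a2 : a ≤ 2) (ak : a ≤ k) (k7 : k ≤ 7) (hD : D + a = k * τ)
    (hd : D ∣ guOrder q 7) : k = 7 ∧ a = 1 := by
  have g : guOrder q 7 = q ^ 21 * ((q + 1) * (q ^ 2 - 1) * (q ^ 3 + 1) * (q ^ 4 - 1) *
      (q ^ 5 + 1) * (q ^ 6 - 1) * (q ^ 7 + 1)) := by
    simp [guOrder_def, Finset.prod_range_succ, Nat.even_iff]
  rw [g] at hd
  have h7 : 7 ∣ q + 1 := h.gcd ▸ Nat.gcd_dvd_right 7 (q + 1)
  by_cases hx : q < 500
  · refine dio_fin q hx k (by omega) a (by omega) ⟨h13, by omega, a1, ak, ?_⟩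
    rwa [show (q ^ 7 + 1) / (q + 1) / 7 = τ by
      rw [← h.mul, Nat.mul_div_cancel_left _ (by omega), Nat.mul_div_cancel_left _ (by omega)], ← hD,
      Nat.add_sub_cancel]
  have t : (7 * τ : ℤ) = q ^ 6 - q ^ 5 + q ^ 4 - q ^ 3 + q ^ 2 - q + 1 := by
    have : ((q : ℤ) + 1) * (7 * τ) = q ^ 7 + 1 := by exact_mod_cast h.mul
    exact mul_left_cancel₀ (show (q : ℤ) + 1 ≠ 0 by omega) (by rw [this]; ring)
  have hD' : (D : ℤ) + a = k * τ := by exact_mod_cast hD
  by_contra hne
  have c0 : 0 < 7 * a - k := by omega
  have d1 : Nat.gcd D (q ^ 21) ∣ 7 * a - k := by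
    have E : ∀ r : ℕ, r ∣ q → r ∣ D → r ∣ 7 * a - k := fun r ⟨y, hy⟩ ⟨z, hz⟩ => by
      zify [show k ≤ 7 * a by omega] at hy hz ⊢
      exact ⟨k * y * (q ^ 5 - q ^ 4 + q ^ 3 - q ^ 2 + q - 1) - 7 * z, by
        linear_combination 7 * hD' + k * t - 7 * hz + k * (q ^ 5 - q ^ 4 + q ^ 3 - q ^ 2 + q - 1) * hy⟩
    obtain ⟨j, -, hj⟩ := (Nat.dvd_prime_pow hp).1 (show Nat.gcd D (q ^ 21) ∣ p ^ (e * 21) by
      rw [pow_mul, ← hq]; exact Nat.gcd_dvd_right _ _)
    rcases le_total j e with le | le
    · exact E _ (by rw [hj, hq]; exact pow_dvd_pow p le) (Nat.gcd_dvd_left _ _)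
    · have := Nat.le_of_dvd c0 (E q dvd_rfl (Dvd.dvd.trans (by rw [hj, hq]; exact pow_dvd_pow p le)
        (Nat.gcd_dvd_left D (q ^ 21))))
      omega
  have d2 := (Nat.dvd_gcd_mul_iff_dvd_mul.2 hd).trans (Nat.mul_dvd_mul_right d1 _)
  have o : ∀ i, 1 ≤ q ^ i := fun i => Nat.one_le_pow _ _ (by omega)
  have d3 : (D : ℤ) ∣ (7 * a - k) * dioC q := by
    zify [show k ≤ 7 * a by omega, o] at d2
    exact d2
  rcases ak.eq_or_lt with rfl | lt
  · obtain ⟨m, hm⟩ := h7
    have hm' : (q : ℤ) + 1 = 7 * m := by exact_mod_cast hm
    refine dio_five (x := q) (c := 7 * a - a) (by omega) (by omega) (by omega) (Dvd.dvd.trans ⟨a * m, ?_⟩ d3)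
    refine mul_left_cancel₀ (show (7 : ℤ) ≠ 0 by norm_num) ?_
    linear_combination 7 * hD' + a * t +
      a * (q ^ 5 - 2 * q ^ 4 + 3 * q ^ 3 - 4 * q ^ 2 + 5 * q - 6) * hm'
  · have := dio_six (x := q) (k := k) (a := a) (by omega) (by omega) (by omega) (by omega) (by omega) (by
      rw [← t, show (k : ℤ) * (7 * τ) - 7 * a = 7 * D by linear_combination -7 * hD', mul_assoc]
      exact mul_dvd_mul_left 7 d3)
    omega

end Cfsg.Lib.US7
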