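import Mathlib

/-! # Matrix lemmas for `US7/SS`: eigenvalues of unitary matrices of prime order -/

set_option autoImplicit false

namespace Cfsg.Lib.US7

open Module Polynomial Matrix

variable {L : Type*} [Field L] {n : ℕ}

theorem ss_root {Y : Matrix (Fin n) (Fin n) L} {a : L} :
    Y.charpoly.IsRoot a ↔ ∃ v, v ≠ 0 ∧ Y *ᵥ v = a • v := by
  rw [IsRoot.def, Matrix.eval_charpoly, ← Matrix.exists_mulVec_eq_zero_iff]
  refine exists_congr fun v => and_congr_right fun _ => ?_
  have : Matrix.scalar (Fin n) a *ᵥ v = a • v := by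
    ext i
    simp [Matrix.scalar_apply, Matrix.mulVec_diagonal]
  rw [Matrix.sub_mulVec, this, sub_eq_zero, eq_comm]

theorem ss_pow {Y : Matrix (Fin n) (Fin n) L} {a : L} {v : Fin n → L} (h : Y *ᵥ v = a • v) (j : ℕ) :
    (Y ^ j) *ᵥ v = a ^ j • v := by
  induction j with
  | zero => simp
  | succ j ih => rw [pow_succ, ← Matrix.mulVec_mulVec, h, Matrix.mulVec_smul, ih, smul_smul, ← pow_succ']

/-- an eigenbasis; all eigenspaces are lines -/
theorem ss_basis {Y : Matrix (Fin n) (Fin n) L} (s : Finset L) (hs : s.card = n)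
    (hr : ∀ a ∈ s, Y.charpoly.IsRoot a) : ∃ b : Basis s L (Fin n → L), (∀ a, Y *ᵥ b a = a.1 • b a) ∧
      ∀ (a : s) w, Y *ᵥ w = a.1 • w → ∃ c : L, w = c • b a := by
  classical
  choose v v0 hv using fun a : s => ss_root.1 (hr a.1 a.2)
  have li : LinearIndependent L v :=
    Module.End.eigenvectors_linearIndependent' (Matrix.toLin' Y) (fun a : s => a.1) Subtype.val_injective v
      fun a => ⟨Module.End.mem_eigenspace_iff.2 (by rw [Matrix.toLin'_apply, hv]), v0 a⟩
  let b : Basis s L (Fin n → L) := basisOfLinearIndependentOfCardEqFinrank' v li (by simp [hs])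
  have hb : ∀ a, b a = v a := fun a => by simp [b]
  have hY : ∀ a, Y *ᵥ b a = a.1 • b a := fun a => by rw [hb, hv]
  refine ⟨b, hY, fun a w hw => ⟨b.repr w a, ?_⟩⟩
  have key : ∀ (c : s) (u : Fin n → L), b.repr (Y *ᵥ u) c = c.1 * b.repr u c := by
    intro c u
    have : (b.coord c).comp (Matrix.toLin' Y) = c.1 • b.coord c := by
      refine b.ext fun d => ?_
      simp only [LinearMap.comp_apply, Matrix.toLin'_apply, hY, map_smul, LinearMap.smul_apply,
        Basis.coord_apply, Basis.repr_self, smul_eq_mul]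
      by_cases h : d = c
      · rw [h]
      · simp [h]
    simpa using LinearMap.congr_fun this u
  refine b.repr.injective (Finsupp.ext fun c => ?_)
  by_cases h : a = c
  · subst h
    simp
  · have k := key c w
    rw [hw, map_smul, Finsupp.smul_apply, smul_eq_mul] at k
    have : b.repr w c = 0 := by
      by_contra h0
      exact h (Subtype.ext (mul_right_cancel₀ h0 k))
    simp [this, h]

/-- two eigenvectors for the same eigenvalue are proportional -/
theorem ss_line {Y : Matrix (Fin n) (Fin n) L} (s : Finset L) (hs : s.card = n)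
    (hr : ∀ a ∈ s, Y.charpoly.IsRoot a) {a : L} (ha : a ∈ s) {v w : Fin n → L} (v0 : v ≠ 0)
    (hv : Y *ᵥ v = a • v) (hw : Y *ᵥ w = a • w) : ∃ c : L, w = c • v := by
  obtain ⟨b, -, hb⟩ := ss_basis s hs hr
  obtain ⟨c, hc⟩ := hb ⟨a, ha⟩ v hv
  obtain ⟨d, hd⟩ := hb ⟨a, ha⟩ w hw
  have c0 : c ≠ 0 := fun h => v0 (by rw [hc, h, zero_smul])
  exact ⟨d * c⁻¹, by rw [hd, hc, smul_smul, inv_mul_cancel_right₀ c0]⟩

theorem ss_comm {Y X X' : Matrix (Fin n) (Fin n) L}
    (s : Finset L) (hs : s.card = n) (hr : ∀ a ∈ s, Y.charpoly.IsRoot a) (h : X * Y = Y * X)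
    (h' : X' * Y = Y * X') : X * X' = X' * X := by
  obtain ⟨b, hY, hb⟩ := ss_basis s hs hr
  have key : ∀ T : Matrix (Fin n) (Fin n) L, T * Y = Y * T → ∀ a, ∃ c : L, T *ᵥ b a = c • b a := by
    intro T hT a
    refine hb a _ ?_
    rw [Matrix.mulVec_mulVec, ← hT, ← Matrix.mulVec_mulVec, hY, Matrix.mulVec_smul]
  apply Matrix.toLin'.injective
  refine b.ext fun a => ?_
  obtain ⟨c, hc⟩ := key X h a
  obtain ⟨d, hd⟩ := key X' h' a
  simp only [Matrix.toLin'_apply, ← Matrix.mulVec_mulVec, hc, hd, Matrix.mulVec_smul, smul_smul, mul_comm]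

theorem ss_ne_one [IsAlgClosed L] {Z : Matrix (Fin n) (Fin n) L} {s : ℕ} (s0 : (s : L) ≠ 0)
    (Z1 : Z ≠ 1) (Zs : Z ^ s = 1) : ∃ a, a ≠ 1 ∧ Z.charpoly.IsRoot a := by
  by_contra hc
  push Not at hc
  have hm := Z.charpoly_monic
  have hroots : ∀ a ∈ Z.charpoly.roots, a = 1 := fun a ha => by
    by_contra h
    exact hc a h ((mem_roots hm.ne_zero).1 ha)
  have hP : Z.charpoly = (X - C 1) ^ Z.charpoly.roots.card := by
    conv_lhs => rw [(IsAlgClosed.splits Z.charpoly).eq_prod_roots_of_monic hm,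
      Multiset.eq_replicate_card.2 hroots]
    simp
  have h1 : minpoly L Z ∣ (X - C 1) ^ Z.charpoly.roots.card := hP ▸ Z.minpoly_dvd_charpoly
  have h2 : minpoly L Z ∣ X ^ s - C 1 := minpoly.dvd _ _ (by simp [Zs])
  have sq : Squarefree (minpoly L Z) :=
    (separable_X_pow_sub_C 1 s0 one_ne_zero).squarefree.squarefree_of_dvd h2
  obtain ⟨r, hr⟩ : minpoly L Z ∣ X - C 1 := sq.isRadical _ _ h1
  have : aeval Z (X - C 1 : L[X]) = 0 := by rw [hr, map_mul, minpoly.aeval, zero_mul]
  simp only [map_sub, aeval_X, map_one] at this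
  exact Z1 (sub_eq_zero.1 this)

theorem ss_bar {Z : Matrix (Fin n) (Fin n) L} (φ : L →+* L) (hu : (Z.map φ)ᵀ * Z = 1) {a : L}
    (ha : Z.charpoly.IsRoot a) : Z.charpoly.IsRoot (φ a)⁻¹ := by
  have h1 : (Z.map φ)ᵀ.charpoly.IsRoot (φ a) := by
    rw [Matrix.charpoly_transpose, Matrix.charpoly_map]
    exact ha.map
  obtain ⟨v, v0, hv⟩ := ss_root.1 h1
  have hu' : Z * (Z.map φ)ᵀ = 1 := mul_eq_one_comm.1 hu
  have k : φ a • Z *ᵥ v = v := by
    rw [← Matrix.mulVec_smul, ← hv, Matrix.mulVec_mulVec, hu', Matrix.one_mulVec]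
  have a0 : φ a ≠ 0 := fun h => v0 (by rw [← k, h, zero_smul])
  exact ss_root.2 ⟨v, v0, by rw [eq_inv_smul_iff₀ a0, k]⟩

/-- powers of an element of prime order only depend on the exponent mod `s` -/
theorem ss_exp {M : Type*} [Monoid M] {a : M} {s : ℕ} (ha : a ^ s = 1) {i j : ℕ}
    (h : (i : ZMod s) = j) : a ^ i = a ^ j := by
  have := (ZMod.natCast_eq_natCast_iff' i j s).1 h
  rw [pow_eq_pow_mod i ha, pow_eq_pow_mod j ha, this]

theorem ss_exp' {M : Type*} [Monoid M] {a : M} {s : ℕ} (hs : s.Prime) (ha : orderOf a = s) {i j : ℕ}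
    (h : a ^ i = a ^ j) : (i : ZMod s) = j := by
  have fo : IsOfFinOrder a := orderOf_pos_iff.1 (ha ▸ hs.pos)
  rwa [fo.pow_eq_pow_iff_modEq, ha, ← ZMod.natCast_eq_natCast_iff] at h

theorem ss_cast {q s : ℕ} (hs : s.Prime) : ((((s - 1) * q : ℕ)) : ZMod s) = -(q : ZMod s) := by
  rw [Nat.cast_mul, Nat.cast_pred hs.pos, ZMod.natCast_self]
  ring

theorem ss_roots [IsAlgClosed L] [DecidableEq L] {q s : ℕ} (h5 : 5 ≤ n) (hs : s.Prime)
    (ho : orderOf (-(q : ZMod s)) = n - 1) (s0 : (s : L) ≠ 0) (φ : L →+* L) (hφ : ∀ a, φ a = a ^ q)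
    {Z : Matrix (Fin n) (Fin n) L} (hu : (Z.map φ)ᵀ * Z = 1) (Z1 : Z ≠ 1) (Zs : Z ^ s = 1) :
    ∃ a : L, orderOf a = s ∧ Z.charpoly.roots =
      (insert 1 ((Finset.range (n - 1)).image fun i => a ^ ((s - 1) * q) ^ i)).val := by
  have := Fact.mk hs
  obtain ⟨a, a1, ha⟩ := ss_ne_one s0 Z1 Zs
  have rs : ∀ b, Z.charpoly.IsRoot b → b ^ s = 1 := by
    intro b hb
    obtain ⟨v, v0, hv⟩ := ss_root.1 hb
    have := ss_pow hv s
    rw [Zs, Matrix.one_mulVec] at this
    by_contra h
    exact v0 (smul_right_injective _ (sub_ne_zero.2 h) (by simp [sub_smul, ← this]))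
  have oa : orderOf a = s := orderOf_eq_prime (rs a ha) a1
  set e := (s - 1) * q with he
  have ce : (e : ZMod s) = -(q : ZMod s) := ss_cast hs
  have fix : ∀ b : L, b ^ s = 1 → b ^ e = b → b = 1 := by
    intro b hb h
    by_contra b1
    have ob : orderOf b = s := orderOf_eq_prime hb b1
    have h' := ss_exp' hs ob (i := e) (j := 1) (by rw [h, pow_one])
    rw [ce, Nat.cast_one] at h'
    rw [h', orderOf_one] at ho
    omega
  have inv : ∀ b : L, b ^ s = 1 → (φ b)⁻¹ = b ^ e := by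
    intro b hb
    refine inv_eq_of_mul_eq_one_left ?_
    rw [hφ, ← pow_add, he, ← Nat.succ_mul, Nat.succ_eq_add_one, Nat.sub_add_cancel hs.pos, pow_mul, hb,
      one_pow]
  have hr : ∀ i, Z.charpoly.IsRoot (a ^ e ^ i) := by
    intro i
    induction i with
    | zero => simpa using ha
    | succ i ih =>
      have := ss_bar φ hu ih
      rwa [inv _ (rs _ ih), ← pow_mul, ← pow_succ] at this
  have inj : Set.InjOn (fun i => a ^ e ^ i) (Finset.range (n - 1) : Set ℕ) := by
    intro i hi j hj h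
    replace h := ss_exp' hs oa h
    rw [Nat.cast_pow, Nat.cast_pow, ce] at h
    rw [Finset.coe_range, ← ho] at hi hj
    exact pow_injOn_Iio_orderOf hi hj h
  set O := (Finset.range (n - 1)).image fun i => a ^ e ^ i with hO
  have cO : O.card = n - 1 := by rw [hO, Finset.card_image_of_injOn inj, Finset.card_range]
  have hm := Z.charpoly_monic
  have le : O.val ≤ Z.charpoly.roots := by
    rw [Finset.val_le_iff_val_subset]
    intro b hb
    obtain ⟨i, -, rfl⟩ := Finset.mem_image.1 (Finset.mem_def.2 hb)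
    exact (mem_roots hm.ne_zero).2 (hr i)
  obtain ⟨t, ht⟩ := Multiset.le_iff_exists_add.1 le
  have ct : t.card = 1 := by
    have := congrArg Multiset.card ht
    rw [IsAlgClosed.card_roots_eq_natDegree, Matrix.charpoly_natDegree_eq_dim, Fintype.card_fin,
      Multiset.card_add, Finset.card_val, cO] at this
    omega
  obtain ⟨b, rfl⟩ := Multiset.card_eq_one.1 ct
  have dZ : Z.det = 1 := by
    have ds : Z.det ^ s = 1 := by rw [← Matrix.det_pow, Zs, Matrix.det_one]
    refine fix _ ds ?_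
    rw [← inv _ ds]
    have := congrArg Matrix.det hu
    rw [Matrix.det_mul, Matrix.det_transpose, Matrix.det_one] at this
    refine inv_eq_of_mul_eq_one_right ?_
    rw [RingHom.map_det]
    exact this
  have pO : O.val.prod = 1 := by
    have : O.val.prod = ∏ i ∈ Finset.range (n - 1), a ^ e ^ i := by
      rw [← Finset.prod_image (f := fun x => x) inj]
      exact Finset.prod_val O
    rw [this, Finset.prod_pow_eq_pow_sum, ← pow_zero a]
    refine ss_exp (rs a ha) ?_
    have e1 : (-(q : ZMod s)) - 1 ≠ 0 := by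
      intro h
      rw [sub_eq_zero.1 h, orderOf_one] at ho
      omega
    apply mul_right_cancel₀ e1
    push_cast
    rw [ce, geom_sum_mul, ← ho, pow_orderOf_eq_one]
    simp
  have b1 : b = 1 := by
    have := Z.det_eq_prod_roots_charpoly
    rw [dZ, ht, Multiset.prod_add, pO] at this
    simpa using this.symm
  have n1 : (1 : L) ∉ O := by
    intro h
    obtain ⟨i, -, h⟩ := Finset.mem_image.1 h
    have h' := orderOf_dvd_of_pow_eq_one h
    rw [oa, ← ZMod.natCast_eq_zero_iff, Nat.cast_pow, ce] at h'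
    rw [pow_eq_zero_iff'] at h'
    rw [h'.1, orderOf_zero] at ho
    omega
  refine ⟨a, oa, ?_⟩
  rw [ht, b1, Finset.insert_val_of_notMem n1, add_comm, Multiset.singleton_add]

end Cfsg.Lib.US7
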