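import Cfsg.Agent.Lib.US7.Var
import Cfsg.Agent.Lib.US7.SS_a

/-! # Sylow subgroups for primitive prime divisors of `(-q)^(n-1) - 1` in subgroups of `GU_n(q)` -/

set_option autoImplicit false

namespace Cfsg.Lib.US7

open Module Polynomial Cfsg.Lib.Unitary

/-- Eigenvectors for distinct eigenvalues form a basis of `L^n`; a matrix commuting with `Y` is
diagonal in it. -/
theorem comm_of_roots {L : Type*} [Field L] {n : ℕ} {Y X X' : Matrix (Fin n) (Fin n) L}
    (s : Finset L) (hs : s.card = n) (hr : ∀ a ∈ s, Y.charpoly.IsRoot a) (h : X * Y = Y * X)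
    (h' : X' * Y = Y * X') : X * X' = X' * X :=
  ss_comm s hs hr h h'

section mat

open Matrix

variable {F V : Type*} [Field F] [AddCommGroup V] [Module F V] {n : ℕ} (L : Type*) [Field L]
  [Algebra F L] (b : Basis (Fin n) F V)

/-- matrices over an extension field -/
noncomputable def ssM : (V ≃ₗ[F] V) →* Matrix (Fin n) (Fin n) L where
  toFun x := (LinearMap.toMatrix b b (x : V →ₗ[F] V)).map (algebraMap F L)
  map_one' := by
    rw [LinearEquiv.coe_toLinearMap_one, LinearMap.toMatrix_id]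
    exact Matrix.map_one _ (map_zero _) (map_one _)
  map_mul' x y := by
    rw [LinearEquiv.coe_toLinearMap_mul, LinearMap.toMatrix_mul, Matrix.map_mul]

/-- coordinates in an extension field -/
noncomputable def ssV (v : V) : Fin n → L := fun i => algebraMap F L (b.repr v i)

theorem ssM_apply (x : V ≃ₗ[F] V) :
    ssM L b x = (LinearMap.toMatrix b b (x : V →ₗ[F] V)).map (algebraMap F L) := rfl

theorem ssM_inj : Function.Injective (ssM L b) := fun x y h => by
  rw [ssM_apply, ssM_apply] at h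
  exact LinearEquiv.toLinearMap_injective ((LinearMap.toMatrix b b).injective
    (Matrix.map_injective (algebraMap F L).injective h))

theorem ssM_charpoly [Module.Finite F V] (x : V ≃ₗ[F] V) :
    (ssM L b x).charpoly = (x : V →ₗ[F] V).charpoly.map (algebraMap F L) := by
  rw [ssM_apply, Matrix.charpoly_map, LinearMap.charpoly_toMatrix]

theorem ssM_mulVec (x : V ≃ₗ[F] V) (v : V) : ssM L b x *ᵥ ssV L b v = ssV L b (x v) := by
  ext i
  have := congrFun (LinearMap.toMatrix_mulVec_repr b b (x : V →ₗ[F] V) v) i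
  simp only [ssV, ssM_apply, Matrix.mulVec, dotProduct, Matrix.map_apply, LinearEquiv.coe_coe] at this ⊢
  rw [← this, map_sum]
  simp only [map_mul]

theorem ssV_ne {v : V} (hv : v ≠ 0) : ssV L b v ≠ 0 := fun h => hv <| by
  refine b.repr.injective (Finsupp.ext fun i => ?_)
  have := congrFun h i
  simpa [ssV] using this

theorem ssM_unit {σ : F →+* F} {B : V →ₛₗ[σ] V →ₗ[F] F}
    (hb : ∀ i j, B (b i) (b j) = if i = j then 1 else 0) (φ : L →+* L)
    (hφ : ∀ a, φ (algebraMap F L a) = algebraMap F L (σ a)) {x : V ≃ₗ[F] V} (hx : x ∈ UG B) :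
    ((ssM L b x).map φ)ᵀ * ssM L b x = 1 := by
  ext i j
  have h := hx (b i) (b j)
  rw [← b.sum_repr (x (b i)), ← b.sum_repr (x (b j))] at h
  simp only [map_sum, LinearMap.map_smulₛₗ, LinearMap.sum_apply, LinearMap.smul_apply, map_smul, hb,
    smul_eq_mul, mul_ite, mul_one, mul_zero, Finset.sum_ite_eq', Finset.mem_univ, if_true] at h
  simp only [Matrix.mul_apply, Matrix.transpose_apply, Matrix.map_apply, ssM_apply,
    LinearMap.toMatrix_apply, LinearEquiv.coe_coe, hφ, ← map_mul, ← map_sum, Matrix.one_apply]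
  rw [show ∑ k, σ (b.repr (x (b i)) k) * b.repr (x (b j)) k = if i = j then 1 else 0 from by
    rw [← h]; exact Finset.sum_congr rfl fun k _ => mul_comm _ _]
  split_ifs <;> simp

end mat

variable {F V : Type*} [Field F] [Fintype F] [AddCommGroup V] [Module F V] [Fintype V] {σ : F →+* F}
  {B : V →ₛₗ[σ] V →ₗ[F] F} {q n s : ℕ} (hσ : IsBar q σ) (hB : IsHerm σ B) (hn : finrank F V = n)
  (h5 : 5 ≤ n) (hs : s.Prime) (ho : orderOf (-(q : ZMod s)) = n - 1)
include hσ hB hn h5 hs ho

open Classical in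
theorem ss_main : ∃ b : Basis (Fin n) F V, ∀ y ∈ UG B, y ≠ 1 → y ^ s = 1 →
    ∃ a : AlgebraicClosure F, orderOf a = s ∧ (ssM (AlgebraicClosure F) b y).charpoly.roots =
      (insert 1 ((Finset.range (n - 1)).image fun i => a ^ ((s - 1) * q) ^ i)).val := by
  have := Fact.mk hs
  obtain ⟨b, hb⟩ := hB.exists_orthonormal_basis hn
  refine ⟨b, fun y hy y1 ys => ?_⟩
  obtain ⟨p, f, hp, hc, f1, rfl⟩ := exists_prime_pow_of_card (F := F) (q := q)
    (by rw [← Nat.card_eq_fintype_card, hσ.card])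
  have := Fact.mk hp
  have : ExpChar (AlgebraicClosure F) p := ExpChar.prime hp
  refine ss_roots h5 hs ho ?_ (iterateFrobenius _ p f) (fun a => iterateFrobenius_def p f a)
    (ssM_unit _ b hb _ (fun a => ?_) hy) (fun h => y1 (ssM_inj _ b (h.trans (map_one _).symm))) ?_
  · intro h
    rw [CharP.cast_eq_zero_iff _ p, Nat.prime_dvd_prime_iff_eq hp hs] at h
    subst h
    rw [Nat.cast_pow, ZMod.natCast_self, zero_pow (by omega), neg_zero, orderOf_zero] at ho
    omega
  · rw [iterateFrobenius_def, hσ.eq, map_pow]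
  · rw [← map_pow, ys, map_one]

/-- the form used below: `n` distinct roots -/
theorem ss_set : ∃ b : Basis (Fin n) F V, ∀ y ∈ UG B, y ≠ 1 → y ^ s = 1 →
    ∃ (a : AlgebraicClosure F) (O : Finset (AlgebraicClosure F)), orderOf a = s ∧ a ∈ O ∧ 1 ∈ O ∧
      O.card = n ∧ ∀ c, (ssM (AlgebraicClosure F) b y).charpoly.IsRoot c ↔ c ∈ O := by
  classical
  obtain ⟨b, hb⟩ := ss_main hσ hB hn h5 hs ho
  refine ⟨b, fun y hy y1 ys => ?_⟩
  obtain ⟨a, oa, h⟩ := hb y hy y1 ys
  refine ⟨a, _, oa, ?_, ?_, ?_, fun c => by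
    rw [← mem_roots (Matrix.charpoly_monic _).ne_zero, h, ← Finset.mem_def]⟩
  · exact Finset.mem_insert_of_mem (Finset.mem_image.2 ⟨0, Finset.mem_range.2 (by omega), by simp⟩)
  · exact Finset.mem_insert_self _ _
  · rw [← Finset.card_val, ← h, IsAlgClosed.card_roots_eq_natDegree, Matrix.charpoly_natDegree_eq_dim,
      Fintype.card_fin]

/-- `L` algebraic closure, `P` the characteristic polynomial of `y` over `L`.  With an orthonormal
basis `Y⁻¹ = (Y.map σ)ᵀ`, so the multiset of roots of `P` is invariant under `a ↦ a⁻¹ ^ q`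
(the roots of `charpoly (Y.map σ)` are the `q`-th powers).  Roots satisfy `a ^ s = 1`; some root `a ≠ 1`
(else `y` is unipotent of order `s ≠ p`: `(Y-1)^n = 0` and `Y^s = 1`, `gcd = X - 1`).  Its orbit
`a ^ ((-q)^i)` has `n - 1` elements; the remaining root is fixed, `b^(q+1) = 1 = b^s`, `b = 1`. -/
theorem roots_eq {y : V ≃ₗ[F] V} (hy : y ∈ UG B) (y1 : y ≠ 1) (ys : y ^ s = 1) :
    ∃ a : AlgebraicClosure F, orderOf a = s ∧ ∀ b, (aeval b (y : V →ₗ[F] V).charpoly = 0 ↔
      b = 1 ∨ ∃ i < n - 1, b = a ^ ((s - 1) * q) ^ i) ∧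
      rootMultiplicity b ((y : V →ₗ[F] V).charpoly.map (algebraMap F (AlgebraicClosure F))) ≤ 1 := by
  classical
  obtain ⟨b, hb⟩ := ss_main hσ hB hn h5 hs ho
  obtain ⟨a, oa, h⟩ := hb y hy y1 ys
  rw [ssM_charpoly] at h
  refine ⟨a, oa, fun c => ⟨?_, ?_⟩⟩
  · have hm := ((y : V →ₗ[F] V).charpoly_monic.map (algebraMap F (AlgebraicClosure F))).ne_zero
    rw [← eval_map_algebraMap, ← IsRoot.def, ← mem_roots hm, h, ← Finset.mem_def]
    simp only [Finset.mem_insert, Finset.mem_image, Finset.mem_range, eq_comm]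
  · rw [← count_roots, h]
    exact Multiset.nodup_iff_count_le_one.1 (Finset.nodup _) c

theorem cent_comm {y x x' : V ≃ₗ[F] V} (hy : y ∈ UG B) (y1 : y ≠ 1) (ys : y ^ s = 1)
    (h : x * y = y * x) (h' : x' * y = y * x') : x * x' = x' * x := by
  obtain ⟨b, hb⟩ := ss_set hσ hB hn h5 hs ho
  obtain ⟨a, O, -, -, -, cO, hO⟩ := hb y hy y1 ys
  apply ssM_inj (AlgebraicClosure F) b
  rw [map_mul, map_mul]
  exact ss_comm O cO (fun c hc => (hO c).2 hc) (by rw [← map_mul, h, map_mul])
    (by rw [← map_mul, h', map_mul])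

/-- Let `v₀ ∈ L^n` be an eigenvector of `y` for `a`; `S` commutes with `y`, acts on the line `L v₀`
by a character `S → Lˣ`.  Injective: if `c ≠ 1` is in the kernel, wlog of order `s`; its fixed space
over `L` is a line, defined over `F` (`det (c - 1) = 0` gives `u ∈ V`), so `v₀ ∈ L u`, `y u = a u`,
`a ∈ F`, `s ∣ q² - 1`, the order of `-q` is at most `2`.  Finite subgroups of `Lˣ` are cyclic. -/
theorem cyclic {y : V ≃ₗ[F] V} (hy : y ∈ UG B) (y1 : y ≠ 1) (ys : y ^ s = 1)
    {S : Subgroup (V ≃ₗ[F] V)} (hS : S ≤ UG B) (hp : IsPGroup s S) (hc : ∀ x ∈ S, x * y = y * x) :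
    IsCyclic S := by
  have := Fact.mk hs
  have : Finite (V ≃ₗ[F] V) := Finite.of_injective (fun x : V ≃ₗ[F] V => (x : V → V)) DFunLike.coe_injective
  obtain ⟨b, hb⟩ := ss_set hσ hB hn h5 hs ho
  obtain ⟨a, O, oa, aO, -, cO, hO⟩ := hb y hy y1 ys
  set M := ssM (AlgebraicClosure F) b with hM
  obtain ⟨v, v0, hv⟩ := ss_root.1 ((hO a).2 aO)
  have ex : ∀ x : S, ∃ c : AlgebraicClosure F, (M x).mulVec v = c • v := by
    intro x
    refine ss_line O cO (fun c hc => (hO c).2 hc) aO v0 hv ?_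
    rw [Matrix.mulVec_mulVec, ← map_mul, ← hc x x.2, map_mul, ← Matrix.mulVec_mulVec, hv,
      Matrix.mulVec_smul]
  choose χ hχ using ex
  let f : S →* AlgebraicClosure F :=
    { toFun := χ
      map_one' := smul_left_injective _ v0 (by simp [← hχ])
      map_mul' := fun x z => smul_left_injective _ v0 (by
        simp only [← hχ, Subgroup.coe_mul, map_mul, ← Matrix.mulVec_mulVec]
        rw [hχ z, Matrix.mulVec_smul, hχ x, smul_smul, mul_comm]) }
  refine isCyclic_of_injective_ringHom f ((injective_iff_map_eq_one f).2 fun x hx => ?_)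
  by_contra x1
  obtain ⟨k, hk⟩ := (IsPGroup.iff_orderOf.1 hp) x
  have k0 : k ≠ 0 := by
    rintro rfl
    exact x1 (orderOf_eq_one_iff.1 (by simpa using hk))
  have sd : s ∣ orderOf x := hk ▸ dvd_pow_self s k0
  have oc : orderOf (x ^ (orderOf x / s)) = s := orderOf_pow_orderOf_div (orderOf_pos x).ne' sd
  set c := x ^ (orderOf x / s) with hcx
  have fc : f c = 1 := by rw [hcx, map_pow, hx, one_pow]
  have c1 : (c : V ≃ₗ[F] V) ≠ 1 := fun h => by
    rw [OneMemClass.coe_eq_one.1 h, orderOf_one] at oc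
    exact hs.one_lt.ne oc
  have cs : (c : V ≃ₗ[F] V) ^ s = 1 := by
    rw [← Subgroup.coe_pow, ← oc, pow_orderOf_eq_one, OneMemClass.coe_one]
  obtain ⟨-, O', -, -, one, cO', hO'⟩ := hb c (hS c.2) c1 cs
  have r1 : ((c : V ≃ₗ[F] V) : V →ₗ[F] V).charpoly.IsRoot 1 := by
    have := (hO' 1).2 one
    rw [hM, ssM_charpoly, ← map_one (algebraMap F (AlgebraicClosure F))] at this
    exact (isRoot_map_iff (algebraMap F _).injective).1 this
  obtain ⟨u, hu⟩ := ((Module.End.hasEigenvalue_iff_isRoot_charpoly _ _).2 r1).exists_hasEigenvector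
  have cu : (c : V ≃ₗ[F] V) u = u := by simpa using hu.apply_eq_smul
  have u0 := ssV_ne (AlgebraicClosure F) b hu.2
  obtain ⟨d, hd⟩ := ss_line O' cO' (fun e he => (hO' e).2 he) one u0
    (by rw [hM, ssM_mulVec, cu, one_smul]) (w := v) (by rw [hχ c]; exact congrArg (· • v) fc)
  have d0 : d ≠ 0 := fun h => v0 (by rw [hd, h, zero_smul])
  rw [hd, Matrix.mulVec_smul, smul_comm, hM, ssM_mulVec] at hv
  replace hv := smul_right_injective _ d0 hv
  obtain ⟨i, hi⟩ := Function.ne_iff.1 u0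
  have e := congrFun hv i
  simp only [ssV, Pi.smul_apply, smul_eq_mul, Pi.zero_apply] at e hi
  have ea : a = algebraMap F _ (b.repr (y u) i / b.repr u i) := by
    rw [map_div₀, e, mul_div_cancel_right₀ _ hi]
  have a2 : a ^ q ^ 2 = a ^ 1 := by
    rw [ea, ← map_pow, ← hσ.card, Nat.card_eq_fintype_card, FiniteField.pow_card, pow_one]
  have h2 := ss_exp' hs oa a2
  have : orderOf (-(q : ZMod s)) ∣ 2 := orderOf_dvd_of_pow_eq_one (by
    rw [neg_sq, ← Nat.cast_pow, h2, Nat.cast_one])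
  have := Nat.le_of_dvd two_pos this
  omega

/-- if `g y g⁻¹ = y ^ j` then `a ^ j` is a root of the characteristic polynomial, `≠ 1` -/
theorem card_pow {y : V ≃ₗ[F] V} (hy : y ∈ UG B) (y1 : y ≠ 1) (ys : y ^ s = 1) :
    Nat.card {x : V ≃ₗ[F] V // x ∈ Subgroup.zpowers y ∧ IsConj y x} ≤ n - 1 := by
  classical
  have := Fact.mk hs
  have : Finite (V ≃ₗ[F] V) := Finite.of_injective (fun x : V ≃ₗ[F] V => (x : V → V)) DFunLike.coe_injective
  obtain ⟨b, hb⟩ := ss_set hσ hB hn h5 hs ho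
  obtain ⟨a, O, oa, aO, one, cO, hO⟩ := hb y hy y1 ys
  set M := ssM (AlgebraicClosure F) b with hM
  obtain ⟨v, v0, hv⟩ := ss_root.1 ((hO a).2 aO)
  choose j hj using fun x : {x : V ≃ₗ[F] V // x ∈ Subgroup.zpowers y ∧ IsConj y x} =>
    (Submonoid.mem_powers_iff _ _).1 (mem_powers_iff_mem_zpowers.2 x.2.1)
  have mem : ∀ x, a ^ j x ∈ O.erase 1 := by
    intro x
    obtain ⟨g, hg⟩ := isConj_iff.1 x.2.2
    refine Finset.mem_erase.2 ⟨fun h => ?_, (hO _).1 ?_⟩
    · have h' := ss_exp ys (ss_exp' hs oa (h.trans (pow_zero a).symm))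
      rw [hj, pow_zero, ← hg] at h'
      exact y1 (by simpa using h')
    · have : (M y).charpoly = (M y ^ j x).charpoly := by
        rw [← map_pow, hj, ← hg, map_mul, map_mul, Matrix.charpoly_mul_comm, ← mul_assoc, ← map_mul,
          inv_mul_cancel, map_one, one_mul]
      rw [this]
      exact ss_root.2 ⟨v, v0, ss_pow hv _⟩
  have := Nat.card_le_card_of_injective (β := O.erase 1) (fun x => ⟨_, mem x⟩) fun x z h => by
    apply Subtype.ext
    rw [← hj x, ← hj z]
    exact ss_exp ys (ss_exp' hs oa (congrArg Subtype.val h))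
  rwa [Nat.card_eq_finsetCard, Finset.card_erase_of_mem one, cO] at this

/-- `y ∈ G` of order `s` in a Sylow subgroup's centre, `C = C_G(y)` abelian (`cent_comm`), `S` its Sylow
`s`-subgroup (Sylow in `G`, so `m ∣ |S|`), `R` the `s'`-part, `N = N_G(C)`.  For `x ∈ S - 1` a power
`x'` of order `s` has `C_G(x') = C`; if `g (b x) g⁻¹ ∈ C` then a power `g x' g⁻¹ ∈ C` has order `s`,
so `g C g⁻¹ = C`.  `S` is cyclic, `N` normalises `⟨y⟩`, `|N : C| ≤ n - 1` (`card_pow`); `deg_cong`. -/
theorem deg_mod {G : Subgroup (V ≃ₗ[F] V)} [Fintype G] (hG : G ≤ UG B) {a : ℕ}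
    (hm : s ^ a ∣ Nat.card G) (big : n ^ 2 < s ^ a) (χ : IrrCharacter G) :
    ∃ D m : ℤ, |D| ≤ (n - 1 : ℕ) ∧ χ.1 1 = (m * (s ^ a : ℕ) + D : ℤ) := by
  classical
  have := Fact.mk hs
  obtain ⟨P⟩ : Nonempty (Sylow s G) := inferInstance
  have dP : s ^ a ∣ Nat.card P := P.pow_dvd_card_of_pow_dvd_card hm
  have bigP : n ^ 2 < Nat.card P := big.trans_le (Nat.le_of_dvd Nat.card_pos dP)
  have : Nontrivial P := Finite.one_lt_card_iff_nontrivial.1 (by nlinarith)
  have := P.isPGroup'.center_nontrivial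
  obtain ⟨z, oz⟩ : ∃ z : Subgroup.center P, orderOf z = s := by
    obtain ⟨k, k0, hk⟩ := (P.isPGroup'.to_subgroup (Subgroup.center P)).nontrivial_iff_card.1 this
    exact exists_prime_orderOf_dvd_card' s (hk ▸ dvd_pow_self s k0.ne')
  set y : G := z.1.1 with hy
  have oy : orderOf y = s := by rw [hy, Subgroup.orderOf_coe, Subgroup.orderOf_coe, oz]
  have yP : y ∈ (P : Subgroup G) := z.1.2
  have ne1 : ∀ x : G, orderOf x = s → (x : V ≃ₗ[F] V) ≠ 1 ∧ (x : V ≃ₗ[F] V) ^ s = 1 := fun x ox =>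
    ⟨fun h => hs.one_lt.ne (by rw [← ox, OneMemClass.coe_eq_one.1 h, orderOf_one]), by
      rw [← Subgroup.coe_pow, ← ox, pow_orderOf_eq_one, OneMemClass.coe_one]⟩
  have cc : ∀ x u v : G, orderOf x = s → u * x = x * u → v * x = x * v → u * v = v * u :=
    fun x u v ox h h' => Subtype.ext (cent_comm hσ hB hn h5 hs ho (hG x.2) (ne1 x ox).1 (ne1 x ox).2
      (congrArg Subtype.val h) (congrArg Subtype.val h'))
  set C := Subgroup.centralizer ({y} : Set G) with hCd
  have mC : ∀ x, x ∈ C ↔ x * y = y * x := fun x => Subgroup.mem_centralizer_singleton_iff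
  have hC : ∀ u ∈ C, ∀ v ∈ C, u * v = v * u := fun u hu v hv => cc y u v oy ((mC u).1 hu) ((mC v).1 hv)
  have PC : (P : Subgroup G) ≤ C := fun x hx =>
    (mC x).2 (congrArg Subtype.val (Subgroup.mem_center_iff.1 z.2 ⟨x, hx⟩))
  have CC : ∀ x ∈ C, orderOf x = s → ∀ u, u ∈ C ↔ u * x = x * u := fun x hx ox u =>
    ⟨fun hu => hC u hu x hx, fun hu => (mC u).2 (cc x u y ox hu ((mC x).1 hx).symm)⟩
  have nP : ((P : Subgroup G).subgroupOf C).Normal := ⟨fun x hx g => by
    have : g * x * g⁻¹ = x := by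
      rw [show g * x = x * g from Subtype.ext (hC _ g.2 _ x.2), mul_inv_cancel_right]
    rwa [this]⟩
  have cP : Nat.card ((P : Subgroup G).subgroupOf C) = Nat.card P :=
    Nat.card_congr (Subgroup.subgroupOfEquivOfLe PC).toEquiv
  have iP : ¬ s ∣ ((P : Subgroup G).subgroupOf C).index := fun h =>
    P.not_dvd_index (h.trans (Subgroup.relIndex_dvd_index_of_le PC))
  obtain ⟨k, hk⟩ := P.isPGroup'.exists_card_eq
  obtain ⟨H, hH⟩ := Subgroup.exists_right_complement'_of_coprime (N := (P : Subgroup G).subgroupOf C)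
    (by rw [cP, hk]; exact (hs.coprime_iff_not_dvd.2 iP).pow_left k)
  set R := H.map C.subtype with hR
  have cR : Nat.card R = Nat.card H := Subgroup.card_map_of_injective C.subtype_injective
  have sR : ¬ s ∣ Nat.card R := by rwa [cR, ← hH.symm.index_eq_card]
  have hd : (P : Subgroup G) ⊓ R = ⊥ := disjoint_iff.1 <| Subgroup.disjoint_of_coprime_natCard
    (by rw [hk]; exact (hs.coprime_iff_not_dvd.2 sR).pow_left k)
  have RC : R ≤ C := Subgroup.map_subtype_le H
  set N := Subgroup.normalizer (C : Set G) with hN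
  have ti : ∀ g, ∀ x ∈ (P : Subgroup G), ∀ b ∈ R, x ≠ 1 → g * (b * x) * g⁻¹ ∈ C → g ∈ N := by
    intro g x hx b hb x1 hg
    have sd : s ∣ orderOf (b * x) := by
      by_contra h
      have cm : Commute b x := hC _ (RC hb) _ (PC hx)
      have e : x ^ (orderOf (b * x) * Nat.card R) = 1 := by
        have e1 : (b * x) ^ (orderOf (b * x) * Nat.card R) = 1 := by
          rw [pow_mul, pow_orderOf_eq_one, one_pow]
        have e2 : b ^ Nat.card R = 1 :=
          orderOf_dvd_iff_pow_eq_one.1 (Subgroup.orderOf_dvd_natCard R hb)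
        rwa [cm.mul_pow, mul_comm (orderOf _), pow_mul b, e2, one_pow, one_mul, mul_comm] at e1
      have e3 : orderOf x ∣ s ^ k := hk ▸ Subgroup.orderOf_dvd_natCard _ hx
      have co : (s ^ k).Coprime (orderOf (b * x) * Nat.card R) :=
        (Nat.Coprime.mul_right (hs.coprime_iff_not_dvd.2 h) (hs.coprime_iff_not_dvd.2 sR)).pow_left k
      exact x1 (orderOf_eq_one_iff.1 (Nat.eq_one_of_dvd_coprimes co e3 (orderOf_dvd_of_pow_eq_one e)))
    have ow := orderOf_pow_orderOf_div (orderOf_pos (b * x)).ne' sd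
    have wC : (b * x) ^ (orderOf (b * x) / s) ∈ C := C.pow_mem (C.mul_mem (RC hb) (PC hx)) _
    have gC : g * (b * x) ^ (orderOf (b * x) / s) * g⁻¹ ∈ C := by
      rw [← conj_pow]
      exact C.pow_mem hg _
    generalize (b * x) ^ (orderOf (b * x) / s) = w at ow wC gC
    have og : orderOf (g * w * g⁻¹) = s := by
      rw [← ow]
      exact (MulAut.conj g).orderOf_eq w
    refine Subgroup.mem_normalizer_iff.2 fun u => ?_
    rw [CC w wC ow, CC _ gC og]
    constructor
    · intro h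
      calc g * u * g⁻¹ * (g * w * g⁻¹) = g * (u * w) * g⁻¹ := by group
        _ = _ := by rw [h]; group
    · intro h
      calc u * w = g⁻¹ * (g * u * g⁻¹ * (g * w * g⁻¹)) * g := by group
        _ = _ := by rw [h]; group
  have cyc : IsCyclic P := by
    have h1 : IsCyclic ((P : Subgroup G).map G.subtype) :=
      cyclic hσ hB hn h5 hs ho (hG y.2) (ne1 y oy).1 (ne1 y oy).2
        ((Subgroup.map_subtype_le _).trans hG) (P.isPGroup'.map _) (by
          rintro _ ⟨x, hx, rfl⟩
          exact congrArg Subtype.val ((mC x).1 (PC hx)))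
    exact isCyclic_of_injective ((P : Subgroup G).equivMapOfInjective _ G.subtype_injective).toMonoidHom
      (MulEquiv.injective _)
  have zp : ∀ x ∈ C, orderOf x = s → x ∈ Subgroup.zpowers y := by
    intro x hx ox
    have xP : x ∈ (P : Subgroup G) := by
      have h1 : IsPGroup s (Subgroup.zpowers x) := IsPGroup.of_card (n := 1)
        (by rw [Nat.card_zpowers, ox, pow_one])
      have h2 : x ∈ Subgroup.normalizer ((P : Subgroup G) : Set G) :=
        Subgroup.mem_normalizer_iff.2 fun u => ⟨fun hu => by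
          rwa [hC x hx u (PC hu), mul_inv_cancel_right], fun hu => by
          have := hC x hx _ (PC hu)
          rwa [show u = x * u * x⁻¹ from by
            calc u = x⁻¹ * (x * u * x⁻¹ * x) := by group
              _ = _ := by rw [← this]; group]⟩
      exact (h1.inf_normalizer_sylow P).le ⟨Subgroup.mem_zpowers x, h2⟩ |>.2
    have := Fintype.ofFinite P
    have h1 := IsCyclic.card_pow_eq_one_le (α := P) hs.pos
    have oy' : orderOf (⟨y, yP⟩ : P) = s := (Subgroup.orderOf_coe _).symm.trans oy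
    have h2 : (Subgroup.zpowers (⟨y, yP⟩ : P) : Set P).toFinset =
        Finset.univ.filter fun a : P => a ^ s = 1 := by
      refine Finset.eq_of_subset_of_card_le (fun u hu => ?_) (h1.trans ?_)
      · obtain ⟨m, rfl⟩ := Subgroup.mem_zpowers_iff.1 (Set.mem_toFinset.1 hu)
        refine Finset.mem_filter.2 ⟨Finset.mem_univ _, ?_⟩
        rw [← zpow_natCast, ← zpow_mul, mul_comm, zpow_mul, zpow_natCast,
          orderOf_dvd_iff_pow_eq_one.1 oy'.dvd, one_zpow]
      · rw [Set.toFinset_card, ← Nat.card_eq_fintype_card]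
        exact (Nat.card_zpowers _).trans oy' |>.ge
    have h3 : (⟨x, xP⟩ : P) ∈ (Subgroup.zpowers (⟨y, yP⟩ : P) : Set P).toFinset := by
      rw [h2]
      exact Finset.mem_filter.2 ⟨Finset.mem_univ _, Subtype.ext
        (orderOf_dvd_iff_pow_eq_one.1 ox.dvd : x ^ s = 1)⟩
    obtain ⟨m, hm⟩ := Subgroup.mem_zpowers_iff.1 (Set.mem_toFinset.1 h3)
    exact ⟨m, congrArg Subtype.val hm⟩
  have hNc : Nat.card N ≤ (n - 1) * Nat.card C := by
    have h1 := card_pow hσ hB hn h5 hs ho (hG y.2) (ne1 y oy).1 (ne1 y oy).2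
    set T := Finset.univ.filter fun x : G => x ∈ Subgroup.zpowers y ∧ IsConj y x with hT
    have fin : Finite (V ≃ₗ[F] V) :=
      Finite.of_injective (fun x : V ≃ₗ[F] V => (x : V → V)) DFunLike.coe_injective
    have h2 : T.card ≤ n - 1 := by
      refine le_trans ?_ h1
      rw [← Nat.card_eq_finsetCard]
      refine Nat.card_le_card_of_injective (fun x => ⟨x.1.1, ?_, ?_⟩) fun x x' h =>
        Subtype.ext (Subtype.ext (Subtype.mk.inj h))
      · obtain ⟨m, hm⟩ := (Finset.mem_filter.1 x.2).2.1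
        exact ⟨m, congrArg Subtype.val hm⟩
      · exact G.subtype.map_isConj (Finset.mem_filter.1 x.2).2.2
    have h3 := Finset.card_le_mul_card_image_of_maps_to (f := fun g : G => g * y * g⁻¹)
      (s := (N : Set G).toFinset) (t := T) (fun g hg => Finset.mem_filter.2 ⟨Finset.mem_univ _,
        zp _ ((Subgroup.mem_normalizer_iff.1 (Set.mem_toFinset.1 hg) y).1 (PC yP))
          (oy ▸ (MulAut.conj g).orderOf_eq y), isConj_iff.2 ⟨g, rfl⟩⟩) (Nat.card C) (fun t ht => by
        obtain ⟨g, hg⟩ := isConj_iff.1 (Finset.mem_filter.1 ht).2.2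
        rw [← Nat.card_eq_finsetCard]
        refine Nat.card_le_card_of_injective (fun u => ⟨g⁻¹ * u.1, (mC _).2 ?_⟩) fun u u' h =>
          Subtype.ext (mul_left_cancel (congrArg Subtype.val h))
        have e := ((Finset.mem_filter.1 u.2).2).trans hg.symm
        calc g⁻¹ * u.1 * y = g⁻¹ * (u.1 * y * u.1⁻¹) * u.1 := by group
          _ = _ := by rw [e]; group)
    rw [Set.toFinset_card, ← Nat.card_eq_fintype_card] at h3
    exact h3.trans (by rw [mul_comm]; exact Nat.mul_le_mul_right _ h2)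
  obtain ⟨D, m, hD, e⟩ := deg_cong hC PC RC hd (by rw [cR, ← cP, hH.card_mul_card]) ti hNc
    (by rwa [Nat.sub_add_cancel (by omega)]) χ
  obtain ⟨t, ht⟩ := dP
  exact ⟨D, m * t, hD, by rw [e, ht]; push_cast; ring⟩

end Cfsg.Lib.US7
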