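import Cfsg.Agent.Lib.US7.Var

/-! # Constituents of a character which is almost a multiple of the regular character on `A × Z` -/

set_option autoImplicit false

namespace Cfsg.Lib.US7

open Finset Cfsg.Lib.CKS Cfsg.Lib.Char ComplexConjugate

variable {G C : Type*} [Group G] [Fintype G] [CommGroup C] [Fintype C]

/-- the hypotheses on `θ` -/
structure TW (ι : C →* G) (A : Subgroup G) (θ : G → ℂ) (ω₀ : IrrCharacter C) (r d : ℕ) : Prop where
  inj : Function.Injective ι
  char : IsCharacter G θ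
  one : θ 1 + 1 = d * Nat.card A * Nat.card C
  val : ∀ x ∈ A, ∀ c, ι c * x ≠ 1 → θ (ι c * x) = -ω₀.1 c
  pos : 0 < d
  le : d ≤ r
  num : r * d * Nat.card A < (Nat.card A - 1) * (Nat.card A - r)

namespace TW

variable {ι : C →* G} {A N : Subgroup G} {φ : G} {τ : A ≃* A} {r d : ℕ} {θ : G → ℂ}
  {ω₀ : IrrCharacter C} [Fintype A] (h : TS A ι.range N φ τ r) (T : TW ι A θ ω₀ r d)
include h T

open Classical in
/-- direct computation: `(|A| |C|)⁻¹ ∑_(x,c) conj (l x) conj (ω c) θ (ι c x)`, where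
`θ (ι c x) = d |A| |C| [c = 1, x = 1] - ω₀ c` (`TS.disj`) -/
theorem inner_cp (ω : IrrCharacter C) (l : IrrCharacter A) :
    classInner (fun x : A => cp ι θ ω.1 x) l.1 =
      d - if ω = ω₀ ∧ l = irrOne A then 1 else 0 := by
  have hC : IsMulCommutative C := ⟨⟨mul_comm⟩⟩
  have o1 : ∀ ω : IrrCharacter C, ω.1 1 = 1 := fun ω => ω.2.apply_one_of_comm
  have a1 : ∀ (x : A) (c : C), θ (ι c * x) =
      (if x = 1 ∧ c = 1 then ((d : ℂ) * Nat.card A * Nat.card C) else 0) - ω₀.1 c := fun x c => by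
    split_ifs with e
    · rw [e.1, e.2, map_one, OneMemClass.coe_one, mul_one, o1, ← T.one, add_sub_cancel_right]
    · rw [zero_sub]
      refine T.val x x.2 c fun e' => e ?_
      have e1 : (x : G) = 1 :=
        h.disj x x.2 (eq_inv_of_mul_eq_one_right e' ▸ ι.range.inv_mem ⟨c, rfl⟩)
      rw [e1, mul_one] at e'
      exact ⟨Subtype.ext e1, T.inj (e'.trans (map_one ι).symm)⟩
  have a2 : ∑ c, ω₀.1 c * conj (ω.1 c) = Nat.card C * if ω = ω₀ then 1 else 0 := by
    rw [← card_mul_classInner, irr_inner_eq_ite]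
    simp only [eq_comm]
  have a3 : ∑ x : A, conj (l.1 x) = Nat.card A * if l = irrOne A then 1 else 0 := by
    have := card_mul_classInner (irrOne A).1 l.1
    rw [irr_inner_eq_ite] at this
    simpa only [eq_comm, irrOne_apply, one_mul] using this.symm
  have a4 : ∀ x : A, cp ι θ ω.1 x =
      (if x = 1 then ((d : ℂ) * Nat.card A) else 0) - if ω = ω₀ then 1 else 0 := fun x => by
    have hc := card_ne_zero_complex C
    simp only [cp, a1, mul_sub, sum_sub_distrib, mul_comm (conj (ω.1 _)) (ω₀.1 _), a2]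
    congr 1
    · by_cases e : x = 1
      · simp only [e, true_and, mul_ite, mul_zero, sum_ite_eq', mem_univ, if_true, o1, map_one]
        field_simp
      · simp [e]
    · field_simp
  refine mul_left_cancel₀ (card_ne_zero_complex A) ?_
  simp only [card_mul_classInner, a4, sub_mul, sum_sub_distrib, ite_mul, zero_mul, sum_ite_eq',
    mem_univ, if_true, h.lin, map_one, one_mul]
  by_cases e : ω = ω₀ <;> simp [e, a3, mul_sub, mul_comm]

open Classical in
/-- the multiplicities in the `ω`-component -/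
theorem ex_m (ω : IrrCharacter C) : ∃ m : IrrCharacter G → ℕ,
    (∀ g, cp ι θ ω.1 g = ∑ χ, (m χ : ℂ) * χ.1 g) ∧
    (∀ χ, (m χ : ℂ) = if ∀ c, χ.1 (ι c) = ω.1 c * χ.1 1 then classInner θ χ.1 else 0) ∧
    ∀ l, ∑ χ, (m χ : ℤ) * cn A χ l = d - if ω = ω₀ ∧ l = irrOne A then 1 else 0 := by
  choose n hn using fun χ : IrrCharacter G => T.char.exists_inner_eq_nat χ.2.isCharacter
  obtain ⟨m, a1⟩ : ∃ m : IrrCharacter G → ℕ, ∀ χ,
      (m χ : ℂ) = if ∀ c, χ.1 (ι c) = ω.1 c * χ.1 1 then classInner θ χ.1 else 0 :=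
    ⟨fun χ => if ∀ c, χ.1 (ι c) = ω.1 c * χ.1 1 then n χ else 0, fun χ => by
      beta_reduce
      split_ifs <;> simp [hn]⟩
  have a2 : ∀ g, cp ι θ ω.1 g = ∑ χ, (m χ : ℂ) * χ.1 g := fun g => by
    rw [cp_eq (fun c => h.cen ⟨c, rfl⟩) T.char.isClassFunction]
    simp only [a1, ite_mul, zero_mul]
  refine ⟨m, a2, a1, fun l => ?_⟩
  have a3 := T.inner_cp h ω l
  have a4 : (fun x : A => cp ι θ ω.1 x) = ∑ χ, (m χ : ℂ) • fun x : A => χ.1 x := by
    ext x; simp [a2]
  rw [a4, classInner_sum_left] at a3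
  simp only [classInner_smul_left, cn_eq] at a3
  refine Int.cast_injective (α := ℂ) ?_
  push_cast
  exact a3

/-- No exceptional constituent (adapt `TS.no_exc` of `CK/SF`).  Over the central character `ω` of `χ`,
`F m = ∑_η m_η cn η m = d` for all `m ≠ 1` (`cp_eq`, `inner_cp`).  Each exceptional constituent has
degree `≥ |A| - r` (`exc_deg`), total degree `≤ d |A|`, so by `num` their orbits do not cover all
`m' ≠ 1`; for `m ∈ orb l` only `χ` is exceptional at `m` (`exc_uniq`); `F m - F m' = m_χ e ≠ 0`. -/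
theorem no_exc {χ : IrrCharacter G} {l : IrrCharacter A} {k : ℕ} {e : ℤ} (he : Exc τ χ l k e) :
    classInner θ χ.1 = 0 := by
  classical
  have : Fintype ι.range := Fintype.ofFinite _
  let ω : IrrCharacter C := ⟨fun c => χ.1 (ι c) / χ.1 1, isIrrCharacter_of_map_mul
    (by rw [map_one]; exact div_self χ.2.apply_one_ne_zero)
    fun a b => by rw [map_mul, irr_central χ (h.cen ⟨a, rfl⟩), mul_div_assoc]⟩
  obtain ⟨mm, -, m2, key⟩ := T.ex_m h ω
  by_contra hm0
  have hm : mm χ ≠ 0 := fun e => hm0 <| by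
    have := m2 χ
    rw [if_pos fun c => (div_mul_cancel₀ _ χ.2.apply_one_ne_zero).symm, e] at this
    simpa using this.symm
  set E : Finset (IrrCharacter G) := {η | mm η ≠ 0 ∧ ∃ l k e, Exc τ η l k e} with hE
  let U : IrrCharacter G → Finset (IrrCharacter A) := fun η => {m | cn A η m ≠ cn A η (irrOne A)}
  have hU : ∀ {η l k e}, Exc τ η l k e → U η = orb τ l := fun {η l k e} hx => by
    ext m
    have a1 := hx.2.2 m
    have a2 := hx.2.2 (irrOne A)
    have a3 : e ≠ 0 := fun h0 => by simpa [h0] using hx.2.1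
    rw [if_neg (h.one_notMem_orb hx.1)] at a2
    simp only [U, mem_filter, mem_univ, true_and]
    split_ifs at a1 with hm <;> simp only [hm, iff_true, iff_false] <;> omega
  have hl : l ∈ orb τ l := mem_orb.2 ⟨0, rfl⟩
  have cov : univ.erase (irrOne A) ⊆ E.biUnion U := fun m hm1 => by
    by_contra hc
    simp only [mem_biUnion, not_exists, not_and, hE, mem_filter, mem_univ, true_and] at hc
    have a1 : ∑ η, (mm η : ℤ) * (cn A η l - cn A η m) = 0 := by
      simp only [mul_sub, sum_sub_distrib, key, he.1, (mem_erase.1 hm1).1, and_false, sub_self]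
    rw [Finset.sum_eq_single χ] at a1
    · have := hc χ ⟨hm, _, _, _, he⟩
      rw [hU he] at this
      rw [he.2.2, he.2.2, if_pos hl, if_neg this] at a1
      have a3 : e ≠ 0 := fun h0 => by simpa [h0] using he.2.1
      simp [hm, a3] at a1
    · intro η _ hne
      rcases eq_or_ne (mm η) 0 with h0 | h0
      · simp [h0]
      obtain ⟨k', hn | ⟨l', e', hx⟩⟩ := h.cls η
      · simp [hn l he.1, hn m (mem_erase.1 hm1).1]
      have := hc η ⟨h0, _, _, _, hx⟩
      rw [hU hx] at this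
      rw [hx.2.2, hx.2.2, if_neg this, if_neg, sub_self, mul_zero]
      refine fun hl' => hne (h.exc_uniq hx he hl' hl ?_)
      rintro _ ⟨c, rfl⟩
      have b := m2 η
      split_ifs at b with hb
      · rw [hb, mul_div_cancel_right₀ _ η.2.apply_one_ne_zero]
      · exact absurd (by exact_mod_cast b) h0
    · simp
  have c1 : Nat.card A - 1 ≤ #E * r := by
    have := (card_le_card cov).trans (card_biUnion_le_card_mul E U r fun η hη => by
      obtain ⟨-, l, k, e, hx⟩ := (mem_filter.1 hη).2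
      rw [hU hx, h.card_orb hx.1])
    rwa [card_erase_of_mem (mem_univ _), card_univ, h.card_irr] at this
  have c2 : #E * (Nat.card A - r) ≤ d * Nat.card A := by
    calc _ ≤ ∑ η ∈ E, mm η * ∑ l, cn A η l := by
          rw [← smul_eq_mul]
          refine card_nsmul_le_sum _ _ _ fun η hη => ?_
          obtain ⟨h0, l, k, e, hx⟩ := (mem_filter.1 hη).2
          have := h.exc_deg hx
          exact le_trans (by omega) (Nat.le_mul_of_pos_left _ (Nat.pos_of_ne_zero h0))
      _ ≤ ∑ η, mm η * ∑ l, cn A η l := sum_le_sum_of_subset (subset_univ _)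
      _ ≤ ∑ _l : IrrCharacter A, d := by
          simp only [Finset.mul_sum]
          rw [Finset.sum_comm]
          refine sum_le_sum fun l _ => ?_
          have := key l
          zify
          split_ifs at this <;> omega
      _ = _ := by
          simp only [sum_const, card_univ, h.card_irr, smul_eq_mul]
          exact mul_comm _ _
  have := T.num
  nlinarith [Nat.mul_le_mul_right (Nat.card A - r) c1, Nat.mul_le_mul_left r c2]

/-- `cls` and `no_exc`; `var (cn χ) = (|A| - 1) δ² ≤ r |A|` (`var_le`, `big`) gives `δ² ≤ r`;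
if `k = 0` then `A ≤ ker χ` (`nor_ker`), `alpha` for `charCenter χ` makes `χ` linear. -/
theorem nor {χ : IrrCharacter G} (hχ : classInner θ χ.1 ≠ 0) : ∃ (k : ℕ) (δ : ℤ), Nor A χ k ∧
    (cn A χ (irrOne A) : ℤ) = k + δ ∧ δ ^ 2 ≤ r ∧ χ.1 1 = (k * Nat.card A + δ : ℤ) ∧
    (k = 0 → ∃ l : G →* ℂˣ, A ≤ l.ker ∧ ∀ g, χ.1 g = l g) := by
  classical
  have : Fintype ι.range := Fintype.ofFinite _
  obtain ⟨k, hk | ⟨l, e, he⟩⟩ := h.cls χ
  swap
  · exact absurd (T.no_exc h he) hχ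
  have hc : ∀ m, (cn A χ m : ℤ) - k =
      if m ∈ ({irrOne A} : Finset _) then (cn A χ (irrOne A) : ℤ) - k else 0 := fun m => by
    split_ifs with hm
    · rw [mem_singleton.1 hm]
    · rw [hk m (by simpa using hm), sub_self]
  refine ⟨k, cn A χ (irrOne A) - k, hk, by ring, ?_, ?_, ?_⟩
  · have hv : var (fun l => (cn A χ l : ℤ)) ≤ r * Fintype.card (IrrCharacter A) * (1 : ℕ) :=
      h.var_le χ.2.isClassFunction (fun l => by simp [cn_eq]) (fun z hz g => by
        rw [irr_central χ (h.cen hz), norm_mul, norm_div, irr_central_norm χ (h.cen hz),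
          div_self (norm_ne_zero_iff.2 χ.2.apply_one_ne_zero), one_mul]) (by simp [χ.2.inner_self])
    rw [← var_sub _ k, funext hc, var_indicator, card_singleton, h.card_irr] at hv
    have b : ((r : ℤ) + 1) ^ 2 < Nat.card A := by exact_mod_cast h.big
    generalize (Nat.card A : ℤ) = a at *
    generalize ((cn A χ (irrOne A) : ℤ) - k) ^ 2 = e at *
    push_cast at hv
    by_contra hn
    have r0 : (0 : ℤ) ≤ r := Nat.cast_nonneg _
    have : (a - 1) * (r + 1) ≤ (a - 1) * e := mul_le_mul_of_nonneg_left (by omega) (by nlinarith)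
    nlinarith
  · rw [h.apply_eq χ.2.isClassFunction (c := fun l => cn A χ l) fun l => by simp [cn_eq]]
    congr 1
    have := sum_congr rfl fun m (_ : m ∈ univ) => hc m
    simp only [sum_sub_distrib, sum_const, card_univ, h.card_irr, mem_singleton, sum_ite_eq',
      mem_univ, if_true, nsmul_eq_mul] at this
    linear_combination this
  · rintro rfl
    have a1 := h.alpha _ χ.2.isClassFunction.charCenter_normal
      ((h.nor_ker hk).trans charKer_le_charCenter) (h.cen.trans χ.2.center_le_charCenter)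
    have a2 := χ.2.sum_norm_sq
    have a3 : ∀ g, ‖χ.1 g‖ = charDegree χ.1 := fun g => by
      rw [← χ.2.isCharacter.norm_apply_one, ← χ.2.isCharacter.mem_charCenter_iff, a1]; trivial
    simp only [a3, sum_const, card_univ, nsmul_eq_mul, Nat.card_eq_fintype_card] at a2
    have a4 : charDegree χ.1 ^ 2 = 1 := by
      exact_mod_cast mul_left_cancel₀ (Nat.cast_pos.2 Fintype.card_pos).ne'
        (a2.trans (mul_one _).symm)
    have a5 := χ.2.isCharacter.charDegree_eq_one_iff.1 (by simpa using a4)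
    obtain ⟨μ, e⟩ := χ.2.isCharacter.exists_hom_of_apply_one a5
    refine ⟨μ, fun x hx => Units.ext ?_, fun g => by rw [e]⟩
    have := χ.2.isCharacter.mem_charKer_iff.1 (h.nor_ker hk hx)
    simpa [e] using this

/-- Over `ω` the constituents satisfy `∑ m k = d` and `∑ m δ = -[ω = ω₀]` (`inner_cp` at `l ≠ 1` and
`l = 1`), total degree `d |A| - [ω = ω₀]`.  A constituent with `δ < 0` has `a = -δ ≤ k ≤ d`, so
`(k, δ) = (d, -1)` by `dio`.  For `ω₀` there is one and its degree is the total degree.  For `ω ≠ ω₀`: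
either there is one, `m = 1`, the rest has degree one and `k = 0`; or all `δ = 0`, `k ≥ 1`, and
`hS` gives `k = d`, the total degree. -/
theorem split
    (dio : ∀ (χ : IrrCharacter G) (k a : ℕ), 1 ≤ a → a ^ 2 ≤ r → a ≤ k → k ≤ d →
      χ.1 1 + a = k * Nat.card A → k = d ∧ a = 1)
    (hS : IsIrrCharacter G (cp ι θ ω₀.1) → ∀ (χ : IrrCharacter G) (k : ℕ), 1 ≤ k → k ≤ d →
      χ.1 1 = k * Nat.card A → k = d) :
    IsIrrCharacter G (cp ι θ ω₀.1) ∧
      ∀ ω, ω ≠ ω₀ → IsIrrCharacter G (cp ι θ ω.1) ∨ Spl A (cp ι θ ω.1) := by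
  classical
  have one : ∀ (s : Finset (IrrCharacter G)) (m : IrrCharacter G → ℕ), ∑ χ ∈ s, m χ = 1 →
      ∃ χ ∈ s, m χ = 1 ∧ ∀ η ∈ s, η ≠ χ → m η = 0 := fun s m hs => by
    obtain ⟨χ, hχ, h0⟩ := exists_ne_zero_of_sum_ne_zero (hs ▸ one_ne_zero)
    rw [← add_sum_erase _ _ hχ] at hs
    have : ∑ η ∈ s.erase χ, m η = 0 := by omega
    exact ⟨χ, hχ, by omega, fun η hη hne => sum_eq_zero_iff.1 this η (mem_erase.2 ⟨hne, hη⟩)⟩
  choose! k δ hN hcn hδ hdeg hlin using
    fun (χ : IrrCharacter G) (hχ : classInner θ χ.1 ≠ 0) => T.nor h hχ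
  have big : 2 < Nat.card A := by nlinarith [h.big, h.prime.pos]
  have d0 := T.pos
  obtain ⟨l₁, hl₁⟩ : ∃ l : IrrCharacter A, l ≠ irrOne A :=
    Fintype.exists_ne_of_one_lt_card (by rw [h.card_irr]; omega) _
  have main : ∀ ω : IrrCharacter C, ∃ m : IrrCharacter G → ℕ,
      (∀ g, cp ι θ ω.1 g = ∑ χ, (m χ : ℂ) * χ.1 g) ∧ (∀ χ, m χ ≠ 0 → classInner θ χ.1 ≠ 0) ∧
      ∑ χ, m χ * k χ = d ∧ ∑ χ, (m χ : ℤ) * δ χ = -(if ω = ω₀ then 1 else 0) := fun ω => by
    obtain ⟨m, m1, m2, key⟩ := T.ex_m h ω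
    have m3 : ∀ χ, m χ ≠ 0 → classInner θ χ.1 ≠ 0 := fun χ h0 e => h0 <| by
      have := m2 χ
      rw [e, ite_self] at this
      exact_mod_cast this
    have b1 : ∑ χ, (m χ : ℤ) * k χ = d := by
      have := key l₁
      rw [if_neg fun e => hl₁ e.2, sub_zero] at this
      rw [← this]
      refine sum_congr rfl fun χ _ => ?_
      rcases eq_or_ne (m χ) 0 with h0 | h0
      · simp [h0]
      · rw [hN χ (m3 χ h0) l₁ hl₁]
    refine ⟨m, m1, m3, by exact_mod_cast b1, ?_⟩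
    have b2 : ∑ χ, (m χ : ℤ) * cn A χ (irrOne A) =
        ∑ χ, (m χ : ℤ) * k χ + ∑ χ, (m χ : ℤ) * δ χ := by
      rw [← sum_add_distrib]
      refine sum_congr rfl fun χ _ => ?_
      rcases eq_or_ne (m χ) 0 with h0 | h0
      · simp [h0]
      · rw [hcn χ (m3 χ h0), mul_add]
    rw [key, b1] at b2
    simp only [and_true] at b2
    linear_combination -b2
  have hle : ∀ (m : IrrCharacter G → ℕ) χ, ∑ χ, m χ * k χ = d → m χ ≠ 0 → k χ ≤ d :=
    fun m χ hk h0 => (Nat.le_mul_of_pos_left _ (Nat.pos_of_ne_zero h0)).trans (hk ▸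
      single_le_sum (f := fun χ => m χ * k χ) (fun _ _ => Nat.zero_le _) (mem_univ χ))
  have neg : ∀ m : IrrCharacter G → ℕ, (∀ χ, m χ ≠ 0 → classInner θ χ.1 ≠ 0) →
      ∑ χ, m χ * k χ = d → ∀ χ, m χ ≠ 0 → δ χ < 0 → m χ = 1 ∧ χ.1 1 ≠ 1 ∧
      (∀ η, η ≠ χ → m η ≠ 0 → k η = 0) ∧
      ∑ η, (m η : ℤ) * δ η = (∑ η ∈ univ.erase χ, m η : ℕ) - 1 := fun m hm hk χ h0 hn => by
    obtain ⟨a, ha⟩ : ∃ a : ℕ, δ χ = -a := ⟨(-δ χ).toNat, by omega⟩
    have c1 := hcn χ (hm χ h0)
    have c2 := hδ χ (hm χ h0)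
    have c3 := hdeg χ (hm χ h0)
    rw [ha] at c1 c2 c3
    obtain ⟨e1, rfl⟩ := dio χ (k χ) a (by omega) (by rw [neg_sq] at c2; exact_mod_cast c2)
      (by omega) (hle m χ hk h0) (by rw [c3]; push_cast; ring)
    rw [← add_sum_erase _ _ (mem_univ χ), e1] at hk
    have c4 : d ≤ m χ * d := Nat.le_mul_of_pos_left _ (Nat.pos_of_ne_zero h0)
    have c5 : ∑ η ∈ univ.erase χ, m η * k η = 0 := by omega
    have c6 : m χ = 1 := Nat.eq_of_mul_eq_mul_right d0 (by omega)
    have c7 : ∀ η, η ≠ χ → m η ≠ 0 → k η = 0 := fun η hη h1 =>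
      (mul_eq_zero.1 (sum_eq_zero_iff.1 c5 η (mem_erase.2 ⟨hη, mem_univ _⟩))).resolve_left h1
    refine ⟨c6, fun e => ?_, c7, ?_⟩
    · rw [e, e1] at c3
      have : (1 : ℤ) = d * Nat.card A + -(1 : ℕ) := by exact_mod_cast c3
      have : Nat.card A ≤ d * Nat.card A := Nat.le_mul_of_pos_left _ d0
      omega
    · rw [← add_sum_erase _ _ (mem_univ χ), c6, ha, Nat.cast_sum, sub_eq_neg_add, Nat.cast_one,
        one_mul]
      congr 1
      refine sum_congr rfl fun η hη => ?_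
      rcases eq_or_ne (m η) 0 with h1 | h1
      · simp [h1]
      have k0 := c7 η (mem_erase.1 hη).1 h1
      obtain ⟨l, -, hl⟩ := hlin η (hm η h1) k0
      have := hdeg η (hm η h1)
      rw [hl, k0, map_one, Units.val_one, Nat.cast_zero, zero_mul, zero_add] at this
      rw [show δ η = 1 by exact_mod_cast this.symm, mul_one]
  have pos : ∀ m : IrrCharacter G → ℕ, (¬ ∃ χ, m χ ≠ 0 ∧ δ χ < 0) →
      ∀ χ ∈ univ, 0 ≤ (m χ : ℤ) * δ χ := fun m hm χ _ => by
    rcases eq_or_ne (m χ) 0 with h1 | h1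
    · simp [h1]
    · exact mul_nonneg (Nat.cast_nonneg _) (not_lt.1 fun e => hm ⟨χ, h1, e⟩)
  have irr : ∀ (ω : IrrCharacter C) (m : IrrCharacter G → ℕ) χ,
      (∀ g, cp ι θ ω.1 g = ∑ χ, (m χ : ℂ) * χ.1 g) → m χ = 1 → (∀ η, η ≠ χ → m η = 0) →
      IsIrrCharacter G (cp ι θ ω.1) := fun ω m χ m1 e1 e0 => by
    have : cp ι θ ω.1 = χ.1 := funext fun g => by
      rw [m1, sum_eq_single χ (fun η _ hη => by simp [e0 η hη]) (by simp), e1, Nat.cast_one,
        one_mul]
    exact this ▸ χ.2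
  have h0 : IsIrrCharacter G (cp ι θ ω₀.1) := by
    obtain ⟨m, m1, m3, b1, b2⟩ := main ω₀
    rw [if_pos rfl] at b2
    obtain ⟨χ, c1, c2⟩ : ∃ χ, m χ ≠ 0 ∧ δ χ < 0 := by
      by_contra hc
      have := sum_nonneg (pos m hc)
      omega
    obtain ⟨e1, -, -, e2⟩ := neg m m3 b1 χ c1 c2
    have : ∑ η ∈ univ.erase χ, m η = 0 := by omega
    exact irr ω₀ m χ m1 e1 fun η hη => sum_eq_zero_iff.1 this η (mem_erase.2 ⟨hη, mem_univ _⟩)
  refine ⟨h0, fun ω hω => ?_⟩
  obtain ⟨m, m1, m3, b1, b2⟩ := main ω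
  rw [if_neg hω, neg_zero] at b2
  by_cases hc : ∃ χ, m χ ≠ 0 ∧ δ χ < 0
  · obtain ⟨χ, c1, c2⟩ := hc
    obtain ⟨e1, e3, e4, e2⟩ := neg m m3 b1 χ c1 c2
    obtain ⟨η, hη, f1, f2⟩ := one (univ.erase χ) m (by omega)
    obtain ⟨l, hA, hl⟩ := hlin η (m3 η (by omega)) (e4 η (mem_erase.1 hη).1 (by omega))
    refine Or.inr ⟨l, χ, hA, e3, fun g => ?_⟩
    rw [m1, ← add_sum_erase _ _ (mem_univ χ), sum_eq_single_of_mem η hη
      fun ζ hζ hne => by simp [f2 ζ hζ hne], e1, f1, hl, Nat.cast_one, one_mul, one_mul, add_comm]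
  · have z := (sum_eq_zero_iff_of_nonneg (pos m hc)).1 b2
    have c1 : ∑ χ, m χ * k χ = ∑ χ, m χ * d := sum_congr rfl fun χ _ => by
      rcases eq_or_ne (m χ) 0 with h1 | h1
      · simp [h1]
      have c2 := hdeg χ (m3 χ h1)
      rw [(mul_eq_zero.1 (z χ (mem_univ _))).resolve_left (Nat.cast_ne_zero.2 h1), add_zero] at c2
      rw [hS h0 χ (k χ) (Nat.pos_of_ne_zero fun e => χ.2.apply_one_ne_zero (by simp [c2, e]))
        (hle m χ b1 h1) (by exact_mod_cast c2)]
    rw [b1, ← sum_mul] at c1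
    obtain ⟨χ, -, f1, f2⟩ := one univ m (Nat.eq_of_mul_eq_mul_right d0 (by omega))
    exact Or.inl (irr ω m χ m1 f1 fun η => f2 η (mem_univ _))

end TW

end Cfsg.Lib.US7
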