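import Cfsg.Agent.Lib.US7.Md
import Cfsg.Agent.Lib.Coprime.Sylow
import Cfsg.Agent.Lib.Transfer.Criteria

/-! # The torus `A Z` is not self-normalising in a proper overgroup -/

set_option autoImplicit false
set_option linter.unusedSectionVars false

namespace Cfsg.Lib.US7

open Module Cfsg.Lib.Unitary

section gen

variable {F V : Type*} [Field F] [Finite F] [AddCommGroup V] [Module F V] [FiniteDimensional F V]
  {x : V ≃ₗ[F] V} {r : ℕ}

theorem xc_pow (hr : r.Prime) (hx : x ^ r = 1) {k : ℕ} (hk : ¬ r ∣ k) (j : ℕ) :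
    ∃ m, (x ^ k) ^ m = x ^ j := by
  obtain ⟨m, hm⟩ : ∃ m, k * m ≡ j [MOD r] := by
    obtain ⟨m, -, hm⟩ := Nat.exists_mul_mod_eq_one_of_coprime ((Nat.coprime_comm).1
      (hr.coprime_iff_not_dvd.2 hk)) hr.one_lt
    refine ⟨m * j, ?_⟩
    have : k * m ≡ 1 [MOD r] := by rw [Nat.ModEq, hm, Nat.mod_eq_of_lt hr.one_lt]
    simpa [mul_assoc] using this.mul_right j
  exact ⟨m, by rw [← pow_mul]; exact pow_eq_pow_of_modEq hm hx⟩

/-- An abelian group normalised by an irreducible element of prime order `r > dim V` is centralised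
by it. -/
theorem comm_of_ab (hr : r.Prime) (hx : x ^ r = 1) (hd : finrank F V < r)
    (irr : ∀ U : Submodule F V, (∀ u ∈ U, x u ∈ U) → U = ⊥ ∨ U = ⊤) {E : Subgroup (V ≃ₗ[F] V)}
    (hE : ∀ a ∈ E, ∀ b ∈ E, a * b = b * a) (hn : ∀ a ∈ E, x * a * x⁻¹ ∈ E) :
    ∀ a ∈ E, x * a = a * x := by
  classical
  intro a ha
  rcases subsingleton_or_nontrivial V with hV | hV
  · exact LinearEquiv.ext fun v => Subsingleton.elim _ _
  let S : Set (End F V) := (fun g : V ≃ₗ[F] V => g.toLinearMap) '' E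
  have hS : ∀ c ∈ S, ∀ d ∈ S, c * d = d * c := by
    rintro _ ⟨c, hc, rfl⟩ _ ⟨d, hd, rfl⟩
    exact congrArg LinearEquiv.toLinearMap (hE c hc d hd)
  let A := Algebra.adjoin F S
  have hA : ∀ c ∈ A, ∀ d ∈ A, c * d = d * c := fun c hc d hd =>
    (Algebra.commute_of_mem_adjoin_of_forall_mem_commute hd fun b hb =>
      (Algebra.commute_of_mem_adjoin_of_forall_mem_commute hc fun e he => hS b hb e he).symm).eq
  let φ : (V ≃ₗ[F] V) → End F V ≃ₐ[F] End F V := fun g => g.conjAlgEquiv F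
  have φa : ∀ g c v, φ g c v = g (c (g.symm v)) := fun _ _ _ => rfl
  have φm : ∀ g h c, φ (g * h) c = φ g (φ h c) := fun _ _ _ => rfl
  have φ1 : ∀ c ∈ A, φ x c ∈ A := fun c hc => by
    have : A.map (φ x : End F V →ₐ[F] End F V) ≤ A := by
      rw [AlgHom.map_adjoin]
      refine Algebra.adjoin_mono ?_
      rintro _ ⟨_, ⟨b, hb, rfl⟩, rfl⟩
      exact ⟨_, hn b hb, rfl⟩
    exact this ⟨c, hc, rfl⟩
  have φk : ∀ k : ℕ, ∀ c ∈ A, φ (x ^ k) c ∈ A := fun k c hc => by
    induction k with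
    | zero => exact hc
    | succ k ih => rw [pow_succ', φm]; exact φ1 _ ih
  obtain ⟨U, ⟨U0, hU⟩, hmin⟩ := exists_minimal_of_wellFoundedLT
    (fun U : Submodule F V => U ≠ ⊥ ∧ ∀ c ∈ A, ∀ u ∈ U, c u ∈ U) ⟨⊤, top_ne_bot, fun _ _ _ _ => trivial⟩
  have simp : ∀ c ∈ A, (∀ u ∈ U, c u = 0) ∨ ∀ u ∈ U, c u = 0 → u = 0 := fun c hc => by
    by_cases e : U ⊓ LinearMap.ker c = ⊥
    · exact Or.inr fun u hu h0 => (Submodule.mem_bot F).1 (e ▸ (⟨hu, h0⟩ : u ∈ U ⊓ LinearMap.ker c))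
    · refine Or.inl fun u hu => (hmin (y := U ⊓ LinearMap.ker c) ⟨e, fun d hd v hv => ⟨hU d hd v hv.1, ?_⟩⟩
        inf_le_left hu).2
      change (c * d) v = 0
      rw [hA c hc d hd, End.mul_apply, show c v = 0 from hv.2, map_zero]
  obtain ⟨u, hu, u0⟩ := (Submodule.ne_bot_iff U).1 U0
  -- some non-trivial power of `x` normalises the annihilator of `U`
  obtain ⟨k, hk, hm⟩ : ∃ k, ¬ r ∣ k ∧ ∀ c ∈ A, (∀ u ∈ U, c u = 0) → ∀ u ∈ U, φ (x ^ k) c u = 0 := by
    by_contra! h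
    have li : LinearIndependent F fun i : Fin r => (x ^ (i : ℕ)) u := by
      rw [Fintype.linearIndependent_iff]
      intro t ht j
      have key : ∀ s : Finset (Fin r), j ∉ s → ∃ d ∈ A, (∀ i ∈ s, d ((x ^ (i : ℕ)) u) = 0) ∧
          ∀ v ∈ U, d ((x ^ (j : ℕ)) v) = 0 → v = 0 := fun s => by
        induction s using Finset.induction_on with
        | empty => exact fun _ => ⟨1, one_mem _, by simp, fun v _ e => by simpa using e⟩
        | insert i s hi ih =>
          intro hj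
          obtain ⟨d, hd, d1, d2⟩ := ih fun e => hj (Finset.mem_insert_of_mem e)
          have ij : i ≠ j := fun e => hj (e ▸ Finset.mem_insert_self i s)
          obtain ⟨c, hc, c1, w, hw, c2⟩ := h (i + (r - j)) fun e => by
            have h1 := i.2
            have h2 := j.2
            obtain ⟨m, hm⟩ := e
            rcases m with _ | _ | m
            · omega
            · exact ij (Fin.ext (by omega))
            · have : r * (m + 1 + 1) = r * m + 2 * r := by ring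
              omega
          have c3 := (simp _ (φk (i + (r - j)) c hc)).resolve_left fun e => c2 (e w hw)
          have e1 : x ^ (i : ℕ) = x ^ (j : ℕ) * x ^ (i + (r - j) : ℕ) := by
            rw [← pow_add, show (j : ℕ) + (i + (r - j)) = i + r by have := j.2; omega, pow_add, hx, mul_one]
          refine ⟨d * φ (x ^ (i : ℕ)) c, mul_mem hd (φk i c hc), fun l hl => ?_, fun v hv e => ?_⟩
          · rcases Finset.mem_insert.1 hl with rfl | hl
            · rw [End.mul_apply, φa, LinearEquiv.symm_apply_apply, c1 u hu, map_zero, map_zero]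
            · rw [hA d hd _ (φk i c hc), End.mul_apply, d1 l hl, map_zero]
          · rw [End.mul_apply, e1, φm, φa, LinearEquiv.symm_apply_apply] at e
            exact c3 v hv (d2 _ (hU _ (φk _ c hc) v hv) e)
      obtain ⟨d, -, d1, d2⟩ := key (Finset.univ.erase j) (Finset.notMem_erase j _)
      have := congrArg d ht
      rw [map_sum, map_zero, Finset.sum_eq_single j (fun i _ ij => by
        rw [map_smul, d1 i (by simp [ij]), smul_zero]) (by simp), ← map_smul] at this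
      exact (smul_eq_zero.1 (d2 _ (U.smul_mem _ hu) this)).resolve_right u0
    have := li.fintype_card_le_finrank
    rw [Fintype.card_fin] at this
    omega
  have hm' : ∀ m : ℕ, ∀ c ∈ A, (∀ u ∈ U, c u = 0) → ∀ u ∈ U, φ ((x ^ k) ^ m) c u = 0 := fun m => by
    induction m with
    | zero => exact fun c _ h => h
    | succ m ih =>
      intro c hc h
      rw [pow_succ', φm]
      exact hm _ (by rw [← pow_mul]; exact φk _ c hc) (ih c hc h)
  have faith : ∀ c ∈ A, (∀ u ∈ U, c u = 0) → c = 0 := by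
    let W : Submodule F V := ⨅ c : {c : End F V // c ∈ A ∧ ∀ u ∈ U, c u = 0}, LinearMap.ker c.1
    obtain ⟨m, e⟩ := xc_pow hr hx hk (r - 1)
    have e' : (x ^ k) ^ m = x⁻¹ := by
      rw [e, eq_inv_iff_mul_eq_one, ← pow_succ, Nat.sub_add_cancel hr.one_le, hx]
    have hW : W = ⊤ := (irr W fun w hw => (Submodule.mem_iInf _).2 fun c => by
      have : φ ((x ^ k) ^ m) c.1 w = 0 := (Submodule.mem_iInf _).1 hw ⟨φ ((x ^ k) ^ m) c.1,
        by rw [← pow_mul]; exact φk _ _ c.2.1, hm' m _ c.2.1 c.2.2⟩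
      rw [e', φa] at this
      exact (map_eq_zero_iff _ (x⁻¹).injective).1 this).resolve_left fun e => u0 <| by
        rw [← Submodule.mem_bot F, ← e]
        exact (Submodule.mem_iInf _).2 fun c => c.2.2 u hu
    exact fun c hc h => LinearMap.ext fun v => (Submodule.mem_iInf _).1 (hW.ge (Submodule.mem_top (x := v))) ⟨c, hc, h⟩
  let _ : CommRing A := { (inferInstance : Ring A) with mul_comm := fun c d => Subtype.ext (hA _ c.2 _ d.2) }
  have : NoZeroDivisors A := ⟨fun {c d} e => by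
    rcases simp _ c.2 with h | h
    · exact Or.inl (Subtype.ext (faith _ c.2 h))
    · exact Or.inr (Subtype.ext (faith _ d.2 fun v hv => h _ (hU _ d.2 v hv)
        (LinearMap.congr_fun (congrArg Subtype.val e) v)))⟩
  have : IsDomain A := NoZeroDivisors.to_isDomain A
  have aA : a.toLinearMap ∈ A := Algebra.subset_adjoin ⟨a, ha, rfl⟩
  let p := (LinearMap.charpoly a.toLinearMap).map (algebraMap F A)
  have pm : p.Monic := (LinearMap.charpoly_monic _).map _
  let f : Fin r → A := fun i => ⟨φ (x ^ (i : ℕ)) a.toLinearMap, φk _ _ aA⟩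
  have hf : ∀ i, f i ∈ p.roots.toFinset := fun i => by
    rw [Multiset.mem_toFinset, Polynomial.mem_roots pm.ne_zero, Polynomial.IsRoot, Polynomial.eval_map_algebraMap]
    refine Subtype.ext ?_
    rw [← A.coe_val, ← Polynomial.aeval_algHom_apply]
    change Polynomial.aeval ((φ (x ^ (i : ℕ)) : End F V →ₐ[F] End F V) a.toLinearMap) _ = 0
    rw [Polynomial.aeval_algHom_apply, LinearMap.aeval_self_charpoly, map_zero]
  obtain ⟨i, j, ij, e⟩ : ∃ i j : Fin r, i < j ∧ f i = f j := by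
    obtain ⟨i, -, j, -, ij, e⟩ := Finset.exists_ne_map_eq_of_card_lt_of_maps_to (s := Finset.univ)
      (t := p.roots.toFinset) (f := f) (by
        rw [Finset.card_univ, Fintype.card_fin]
        refine ((Multiset.toFinset_card_le _).trans (p.card_roots'.trans ?_)).trans_lt hd
        exact Polynomial.natDegree_map_le.trans (LinearMap.charpoly_natDegree _).le) fun i _ => hf i
    rcases lt_or_gt_of_ne ij with h | h
    exacts [⟨i, j, h, e⟩, ⟨j, i, h, e.symm⟩]
  have e1 : φ (x ^ (i : ℕ)) a.toLinearMap = φ (x ^ (i : ℕ)) (φ (x ^ (j - i : ℕ)) a.toLinearMap) := by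
    rw [← φm, ← pow_add, Nat.add_sub_cancel' (Fin.le_def.1 ij.le)]
    exact congrArg Subtype.val e
  have e2 : Commute (x ^ (j - i : ℕ)) a := LinearEquiv.ext fun v => by
    have := LinearMap.congr_fun ((φ _).injective e1) ((x ^ (j - i : ℕ)) v)
    rw [φa, LinearEquiv.symm_apply_apply] at this
    exact this.symm
  obtain ⟨m, e3⟩ := xc_pow hr hx (k := j - i) (Nat.not_dvd_of_pos_of_lt (by have := Fin.lt_def.1 ij; omega)
    (by have := j.2; omega)) 1
  have := e2.pow_left m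
  rwa [e3, pow_one] at this

/-- Representatives of the cosets of `Z` in `E` are linearly independent in `End V`. -/
theorem relIndex_le {E Z : Subgroup (V ≃ₗ[F] V)} [Nontrivial V]
    (hc : ∀ a ∈ E, ∀ b ∈ E, ∃ c : F, ∀ v, a (b v) = c • b (a v))
    (hZ : ∀ a ∈ E, (∀ b ∈ E, a * b = b * a) → a ∈ Z) : Z.relIndex E ≤ finrank F V ^ 2 := by
  classical
  choose c hc using hc
  obtain ⟨v0, h0⟩ := exists_ne (0 : V)
  have un : ∀ {s t : F} (g : V ≃ₗ[F] V), s • g v0 = t • g v0 → s = t := fun g e =>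
    smul_left_injective F (by simpa using h0 : g v0 ≠ 0) e
  let χ : E → E →* F := fun a =>
    { toFun := fun b => c a a.2 b b.2
      map_one' := un (a : V ≃ₗ[F] V) (by simpa using (hc a a.2 1 (one_mem _) v0).symm)
      map_mul' := fun b b' => un ((b : V ≃ₗ[F] V) * b' * a) (by
        have h1 := hc a a.2 (b * b' : E) (b * b').2 v0
        have h2 := hc a a.2 b b.2 ((b' : V ≃ₗ[F] V) v0)
        rw [hc a a.2 b' b'.2 v0, map_smul, smul_smul] at h2
        exact h1.symm.trans h2) }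
  let o : E ⧸ Z.subgroupOf E → E := Quotient.out
  have inj : Function.Injective fun t => χ (o t) := fun s t e => by
    rw [← Quotient.out_eq s, ← Quotient.out_eq t]
    refine QuotientGroup.eq.2 (hZ _ ((o s)⁻¹ * o t).2 fun b hb => ?_)
    have e1 : c _ (o s).2 b hb = c _ (o t).2 b hb := DFunLike.congr_fun e ⟨b, hb⟩
    change (o s : V ≃ₗ[F] V)⁻¹ * o t * b = b * ((o s : V ≃ₗ[F] V)⁻¹ * o t)
    rw [mul_assoc, inv_mul_eq_iff_eq_mul]
    refine LinearEquiv.ext fun v => ?_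
    have h1 := hc _ (o t).2 b hb v
    have h2 := hc _ (o s).2 b hb (((o s : V ≃ₗ[F] V)⁻¹ * o t) v)
    rw [e1] at h2
    refine h1.trans (Eq.trans ?_ h2.symm)
    simp
  have li : LinearIndependent F fun t => ((o t : V ≃ₗ[F] V) : End F V) := by
    rw [linearIndependent_iff']
    intro s g hg t ht
    obtain ⟨f, hf⟩ : ∃ f : Dual F V, f ((o t : V ≃ₗ[F] V) v0) ≠ 0 := by
      by_contra! h
      exact h0 (by simpa using (forall_dual_apply_eq_zero_iff F _).1 h)
    have := linearIndependent_iff'.1 ((linearIndependent_monoidHom E F).comp _ inj) s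
      (fun i => g i * f ((o i : V ≃ₗ[F] V) v0)) (funext fun b => ?_) t ht
    · exact (mul_eq_zero.1 this).resolve_right hf
    · have h1 := congrArg (fun w => f ((b : V ≃ₗ[F] V).symm w)) (LinearMap.congr_fun hg ((b : V ≃ₗ[F] V) v0))
      simp only [LinearMap.sum_apply, LinearMap.smul_apply, LinearEquiv.coe_coe, LinearMap.zero_apply,
        map_zero, map_sum, map_smul] at h1
      rw [Finset.sum_apply, Pi.zero_apply, ← h1]
      refine Finset.sum_congr rfl fun i _ => ?_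
      rw [hc _ (o i).2 b b.2 v0, map_smul, LinearEquiv.symm_apply_apply, map_smul]
      simp [χ, mul_comm, mul_left_comm]
  rw [Subgroup.relIndex, Subgroup.index]
  rcases finite_or_infinite (E ⧸ Z.subgroupOf E) with hq | hq
  · have := Fintype.ofFinite (E ⧸ Z.subgroupOf E)
    rw [Nat.card_eq_fintype_card, sq, ← Module.finrank_linearMap F F V V]
    exact li.fintype_card_le_finrank
  · simp

end gen

open Subgroup in
/-- Burnside's theorem and coprime action: a Sylow `u`-subgroup normalised by `R` -/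
theorem xc_syl {H : Type*} [Group H] [Finite H] {r u : ℕ} [hr : Fact r.Prime] [hu : Fact u.Prime]
    (n : u ≠ r) (R : Sylow r H) (hN : normalizer (R : Set H) ≤ centralizer (R : Set H)) :
    ∃ U : Subgroup H, IsPGroup u U ∧ ¬ u ∣ U.index ∧ (R : Subgroup H) ≤ normalizer (U : Set H) := by
  have hc := MonoidHom.ker_transferSylow_isComplement' R hN
  obtain ⟨k, hk⟩ := IsPGroup.iff_card.1 R.isPGroup'
  have := R.isPGroup'.isNilpotent
  obtain ⟨U, h1, h2, h3, h4⟩ := Coprime.exists_invariant_sylowIn u (A := R)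
    (K := (MonoidHom.transferSylow R hN).ker) (le_normalizer_of_normal) (by
      rw [hk, ← hc.index_eq_card]
      exact (hr.out.coprime_iff_not_dvd.2 R.not_dvd_index).pow_left k) (Or.inl inferInstance)
  refine ⟨U, h2, fun e => ?_, h4⟩
  rw [← relIndex_mul_index h1, hc.symm.index_eq_card, hk] at e
  exact n ((Nat.prime_dvd_prime_iff_eq hu.out hr.out).1
    (hu.out.dvd_of_dvd_pow ((hu.out.dvd_mul.1 e).resolve_left h3)))

open Subgroup in
/-- the preimage of the centre of `U / (U ⊓ Z)`, `Z` central -/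
theorem xc_cent {H : Type*} [Group H] [Finite H] {u : ℕ} [Fact u.Prime] {U Z : Subgroup H}
    (hU : IsPGroup u U) (hZ : Z ≤ center H) (n : ¬ U ≤ Z) : ∃ E ≤ U, ¬ E ≤ Z ∧
      ∀ e, e ∈ E ↔ e ∈ U ∧ ∀ g ∈ U, e * g * e⁻¹ * g⁻¹ ∈ Z := by
  have : Z.Normal := ⟨fun z hz g => by rwa [mem_center_iff.1 (hZ hz) g, mul_inv_cancel_right]⟩
  let π := QuotientGroup.mk' Z
  have k : ∀ e g : H, e * g * e⁻¹ * g⁻¹ ∈ Z ↔ π g * π e = π e * π g := fun e g => by
    rw [← QuotientGroup.eq_one_iff, eq_comm (b := π e * π g)]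
    change π e * π g * (π e)⁻¹ * (π g)⁻¹ = 1 ↔ _
    rw [mul_inv_eq_one, mul_inv_eq_iff_eq_mul]
  refine ⟨U ⊓ (centralizer (U.map π : Set (H ⧸ Z))).comap π, inf_le_left, fun h => ?_, fun e => ?_⟩
  · have : Nontrivial (U.map π) := (nontrivial_iff_ne_bot _).2 fun e => n (by
      rwa [Subgroup.map_eq_bot_iff, QuotientGroup.ker_mk'] at e)
    have := (hU.map π).center_nontrivial
    obtain ⟨⟨⟨_, e, he, rfl⟩, h1⟩, h2⟩ := exists_ne (1 : center (U.map π))
    refine h2 (Subtype.ext (Subtype.ext ((QuotientGroup.eq_one_iff e).2 (h ⟨he, fun g hg => ?_⟩))))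
    exact congrArg Subtype.val (mem_center_iff.1 h1 ⟨g, hg⟩)
  · refine and_congr_right fun _ => ⟨fun h g hg => (k e g).2 (h _ ⟨g, hg, rfl⟩), fun h => ?_⟩
    rintro _ ⟨g, hg, rfl⟩
    exact (k e g).1 (h g hg)

theorem xc_num {r u j : ℕ} (hr : r.Prime) (h : r % 14 = 1) (hu : u.Prime) (h1 : u ^ j ≤ 49)
    (h2 : u ^ j ≡ 1 [MOD r]) : u ^ j = 1 := by
  by_contra n
  have h0 : 0 < u ^ j := pow_pos hu.pos j
  have h3 := (Nat.modEq_iff_dvd' h0).1 h2.symm
  have h4 := Nat.le_of_dvd (by omega) h3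
  have k : ∀ s, s.Prime → s ∣ u ^ j → s = u := fun s hs e =>
    (Nat.prime_dvd_prime_iff_eq hs hu).1 (hs.dvd_of_dvd_pow e)
  have : r = 1 ∨ r = 15 ∨ r = 29 ∨ r = 43 := by omega
  rcases this with rfl | rfl | rfl | rfl
  · exact Nat.not_prime_one hr
  · exact absurd hr (by decide)
  · have e : u ^ j = 30 := by omega
    have := (k 2 (by decide) (by omega)).trans (k 3 (by decide) (by omega)).symm
    omega
  · have e : u ^ j = 44 := by omega
    have := (k 2 (by decide) (by omega)).trans (k 11 (by decide) (by omega)).symm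
    omega

variable {F K : Type*} [Field F] [Fintype F] [Field K] [Fintype K] [Algebra F K] {σ : F →+* F}
  {q d τ : ℕ} {s : K →+* K} {B : K →ₛₗ[σ] K →ₗ[F] F}

theorem Md.xc_irr {n : ℕ} (h : Md q n d τ s B) {y : K ≃ₗ[F] K} {a : ℕ} (hy : y ∈ Sc F K a)
    (hz : y ^ (q ^ 2 - 1) ≠ 1) (U : Submodule F K) (hU : ∀ u ∈ U, y u ∈ U) : U = ⊥ ∨ U = ⊤ := by
  obtain ⟨w, -, hw⟩ := mem_Sc.1 hy
  let S : Subalgebra F K :=
    { carrier := {k | ∀ u ∈ U, k * u ∈ U}
      mul_mem' := fun ha hb u hu => by rw [mul_assoc]; exact ha _ (hb u hu)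
      add_mem' := fun ha hb u hu => by rw [add_mul]; exact add_mem (ha u hu) (hb u hu)
      algebraMap_mem' := fun c u hu => by rw [← Algebra.smul_def]; exact U.smul_mem c hu }
  have wS : (w : K) ∈ S := fun u hu => hw u ▸ hU u hu
  rcases (Subalgebra.isSimpleOrder_of_finrank_prime F K (h.rank ▸ h.prime)).eq_bot_or_eq_top S with e | e
  · obtain ⟨c, hc⟩ := Algebra.mem_bot.1 (e ▸ wS)
    have c0 : c ≠ 0 := fun e => w.ne_zero (by rw [← hc, e, map_zero])
    have e1 : y = mu F K w := LinearEquiv.ext hw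
    refine absurd ?_ hz
    rw [e1, ← map_pow, show w ^ (q ^ 2 - 1) = 1 from Units.ext (by
      rw [Units.val_pow_eq_pow_val, ← hc, ← map_pow, ← h.cardF, FiniteField.pow_card_sub_one_eq_one c c0,
        map_one, Units.val_one]), map_one]
  · refine or_iff_not_imp_left.2 fun n0 => eq_top_iff.2 fun v _ => ?_
    obtain ⟨u, hu, u0⟩ := (Submodule.ne_bot_iff U).1 n0
    have := (e.ge (Algebra.mem_top (x := v * u⁻¹)) : v * u⁻¹ ∈ S) u hu
    rwa [inv_mul_cancel_right₀ u0] at this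

open Subgroup in
/-- Burnside's theorem, an invariant Sylow subgroup, and the two lemmas above. -/
theorem Md.fr_mem_of_ov (h : Md q 7 d τ s B) {G : Subgroup (K ≃ₗ[F] K)} (O : Ov q τ B G) :
    fr F K ∈ G := by
  refine (h.frob_or O).resolve_right fun hN => ?_
  classical
  have : FiniteDimensional F K := Module.Finite.of_finite
  have : Finite (K ≃ₗ[F] K) := Finite.of_injective _ DFunLike.coe_injective
  obtain ⟨r, hr, hrτ⟩ := Nat.exists_prime_and_dvd h.toNm.one_lt.ne'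
  have : Fact r.Prime := ⟨hr⟩
  have r14 : r % 14 = 1 := (h.toNm.prime_mod hr hrτ).1
  obtain ⟨m, hm, cop⟩ := h.hall O
  have c1 : Nat.Coprime τ (q ^ 2 - 1) := h.toNm.cop.1
  have q1 : q + 1 ∣ q ^ 2 - 1 := ⟨q - 1, by simpa using Nat.sq_sub_sq q 1⟩
  have c2 : Nat.Coprime τ (q + 1) := c1.coprime_dvd_right q1
  have nz : ∀ y ∈ Sc F K τ, y ≠ 1 → y ^ (q ^ 2 - 1) ≠ 1 := fun y hy y1 e =>
    y1 (by simpa [c1.gcd_eq_one] using pow_gcd_eq_one.2 ⟨pow_of_mem_Sc hy, e⟩)
  let A : Subgroup G := (Sc F K τ).subgroupOf G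
  have cA : Nat.card A = τ := (Nat.card_congr (subgroupOfEquivOfLe (h.A_le O)).toEquiv).trans h.card_A
  have iA : A.index = m := Nat.eq_of_mul_eq_mul_left h.toNm.one_lt.le (by
    rw [← hm, ← A.card_mul_index, cA])
  obtain ⟨R0⟩ : Nonempty (Sylow r A) := inferInstance
  let R : Sylow r G := (R0.isPGroup'.map A.subtype).toSylow (by
    rw [index_map_subtype, iA]
    exact fun e => (hr.dvd_mul.1 e).elim R0.not_dvd_index
      ((hr.coprime_iff_not_dvd.1 (cop.coprime_dvd_left hrτ))))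
  have RA : (R : Subgroup G) ≤ A := map_subtype_le _
  obtain ⟨x, ox⟩ := exists_prime_orderOf_dvd_card' (G := R) r (by
    have := (R : Subgroup G).card_mul_index
    rw [hm] at this
    exact (hr.dvd_mul.1 (this ▸ hrτ.mul_right m)).resolve_right R.not_dvd_index)
  have xA : (x.1.1 : K ≃ₗ[F] K) ∈ Sc F K τ := RA x.2
  have x1 : (x.1.1 : K ≃ₗ[F] K) ≠ 1 := fun e => by
    rw [show x = 1 from Subtype.ext (Subtype.ext e), orderOf_one] at ox
    exact hr.one_lt.ne ox
  have xr : (x.1.1 : K ≃ₗ[F] K) ^ r = 1 := by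
    rw [← coe_pow, ← coe_pow, show x ^ r = 1 from orderOf_dvd_iff_pow_eq_one.1 ox.dvd]; rfl
  obtain ⟨u, hu, hd⟩ : ∃ u : ℕ, u.Prime ∧ ¬ m.factorization u ≤ (q + 1).factorization u := by
    by_contra! k
    have m0 : m ≠ 0 := iA ▸ index_ne_zero_of_finite
    have := Nat.le_of_dvd q.succ_pos ((Nat.factorization_prime_le_iff_dvd m0 q.succ_ne_zero).1 k)
    refine O.ne ((eq_of_le_of_card_ge O.sc ?_).ge.trans (Sc_le_Nn _))
    rw [hm, h.card_AZ]
    exact Nat.mul_le_mul_left _ this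
  have : Fact u.Prime := ⟨hu⟩
  have um : u ∣ m := Nat.dvd_of_factorization_pos (by omega)
  have uτ : Nat.Coprime u τ := (cop.coprime_dvd_right um).symm
  obtain ⟨U, U1, U2, U3⟩ := xc_syl (u := u) (fun e => hu.coprime_iff_not_dvd.1 uτ (e ▸ hrτ))
    R fun g hg y hy => Subtype.ext (Sc_comm (RA hy) (hN ⟨g.2, h.ti xA (nz _ xA x1)
      (RA ((mem_normalizer_iff.1 hg x.1).1 x.2))⟩))
  let Z : Subgroup G := (Sc F K (q + 1)).subgroupOf G
  have Zs : ∀ z ∈ Z, ∃ c : F, ∀ v, (z : K ≃ₗ[F] K) v = c • v := fun z hz => by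
    obtain ⟨c, hc⟩ := (h.range_scl.ge hz : (z : K ≃ₗ[F] K) ∈ (scl q F K).range)
    exact ⟨((c : Fˣ) : F), fun v => hc ▸ rfl⟩
  have Zc : Z ≤ center G := fun z hz => mem_center_iff.2 fun g => Subtype.ext (LinearEquiv.ext fun v => by
    obtain ⟨c, hc⟩ := Zs z hz
    change g.1 (z.1 v) = z.1 (g.1 v)
    rw [hc, hc, map_smul])
  have cZ : Nat.card Z = q + 1 := by
    rw [Nat.card_congr (subgroupOfEquivOfLe ((Sc_mono (dvd_mul_left _ _)).trans O.sc)).toEquiv,
      ← h.range_scl, ← Nat.card_congr (MonoidHom.ofInjective h.scl_inj).toEquiv, h.card_mu]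
  have UZ : ¬ U ≤ Z := fun e => hd (by
    have e1 := (U1.toSylow U2).card_eq_multiplicity
    have e2 := card_dvd_of_le e
    rw [cZ] at e2
    change Nat.card U = _ at e1
    rw [e1, hm, Nat.factorization_mul (by have := h.toNm.one_lt; omega) (iA ▸ index_ne_zero_of_finite),
      Finsupp.add_apply, Nat.factorization_eq_zero_of_not_dvd (hu.coprime_iff_not_dvd.1 uτ), zero_add] at e2
    exact (hu.pow_dvd_iff_le_factorization q.succ_ne_zero).1 e2)
  obtain ⟨E, EU, EZ, hE⟩ := xc_cent U1 Zc UZ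
  have cx : ∀ e ∈ U, x.1 * e = e * x.1 → e ∈ Z := fun e he hc => by
    obtain ⟨w, hw⟩ := h.cent (g := e.1) xA (nz _ xA x1) (congrArg Subtype.val hc.symm)
    obtain ⟨w', h1, h2⟩ := mem_Sc.1 (hw ▸ h.mu_mem O (hw ▸ e.2) : e.1 ∈ Sc F K (τ * (q + 1)))
    obtain ⟨k, hk⟩ := U1 ⟨e, he⟩
    refine mem_Sc.2 ⟨w', ?_, h2⟩
    have e1 : e.1 = mu F K w' := LinearEquiv.ext h2
    have h3 : w' ^ u ^ k = 1 := Units.ext (by
      have := congrArg (fun g : U => (g.1.1 : K ≃ₗ[F] K) 1) hk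
      simp only [coe_pow, e1, ← map_pow, mu_apply] at this
      simpa using this)
    exact orderOf_dvd_iff_pow_eq_one.1 (Nat.Coprime.dvd_of_dvd_mul_left
      ((uτ.pow_left k).coprime_dvd_left (orderOf_dvd_of_pow_eq_one h3)) (orderOf_dvd_of_pow_eq_one h1))
  have xU : ∀ g, g ∈ U ↔ x.1 * g * x.1⁻¹ ∈ U := mem_normalizer_iff.1 (U3 x.2)
  have xE : ∀ e ∈ E, x.1 * e * x.1⁻¹ ∈ E := fun e he => (hE _).2 ⟨(xU e).1 (EU he), fun g hg => by
    have h1 := ((hE e).1 he).2 (x.1⁻¹ * g * x.1) ((xU _).2 (by simpa [mul_assoc] using hg))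
    have h2 := mem_center_iff.1 (Zc h1) x.1
    rw [show x.1 * e * x.1⁻¹ * g * (x.1 * e * x.1⁻¹)⁻¹ * g⁻¹ =
      x.1 * (e * (x.1⁻¹ * g * x.1) * e⁻¹ * (x.1⁻¹ * g * x.1)⁻¹) * x.1⁻¹ by group, h2, mul_inv_cancel_right]
    exact h1⟩
  have ab := comm_of_ab hr xr (by rw [h.rank]; have := hr.two_le; omega) (h.xc_irr xA (nz _ xA x1))
    (E := (E ⊓ centralizer (E : Set G)).map G.subtype) (by
      rintro _ ⟨a, ha, rfl⟩ _ ⟨b, hb, rfl⟩
      exact congrArg Subtype.val (hb.2 a ha.1)) (by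
      rintro _ ⟨a, ha, rfl⟩
      refine ⟨x.1 * a * x.1⁻¹, ⟨xE a ha.1, fun b hb => ?_⟩, rfl⟩
      have n : x.1 ∈ normalizer (E : Set G) := mem_normalizer_fintype xE
      have := ha.2 _ ((mem_normalizer_iff.1 (inv_mem n) b).1 hb)
      rw [show b * (x.1 * a * x.1⁻¹) = x.1 * (x.1⁻¹ * b * x.1⁻¹⁻¹ * a) * x.1⁻¹ by group, this]
      group)
  have le := relIndex_le (E := E.map G.subtype) (Z := Z.map G.subtype) (by
      rintro _ ⟨a, ha, rfl⟩ _ ⟨b, hb, rfl⟩
      obtain ⟨c, hc⟩ := Zs _ (((hE a).1 ha).2 b (EU hb))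
      exact ⟨c, fun v => by simpa using hc (b.1 (a.1 v))⟩) (by
      rintro _ ⟨a, ha, rfl⟩ hc
      exact ⟨a, cx a (EU ha) (Subtype.ext (ab _ ⟨a, ⟨ha, fun b hb =>
        Subtype.ext (hc _ ⟨b, hb, rfl⟩).symm⟩, rfl⟩)), rfl⟩)
  rw [relIndex_map_map_of_injective _ _ (subtype_injective G), h.rank] at le
  obtain ⟨j, hj⟩ := IsPGroup.iff_card.1 (U1.to_le EU)
  obtain ⟨i, -, hi⟩ := (Nat.dvd_prime_pow hu).1 (hj ▸ relIndex_dvd_card Z E)
  have md := Transfer.card_modEq_card_inf_centralizer (q := r) (A := zpowers x.1) (T := E)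
    (R.isPGroup'.to_le (zpowers_le.2 x.2)) (zpowers_le.2 (mem_normalizer_fintype xE))
  have e1 : E ⊓ centralizer (zpowers x.1 : Set G) = Z ⊓ E := le_antisymm
    (fun e he => ⟨cx e (EU he.1) (he.2 _ (mem_zpowers _)), he.1⟩)
    fun e he => ⟨he.2, fun g _ => mem_center_iff.1 (Zc he.1) g⟩
  have e2 : Nat.card ↥(Z ⊓ E) * Z.relIndex E = Nat.card E := Coprime.card_inf_mul_relIndex _ _
  rw [e1, ← e2, hi] at md
  have c3 : Nat.Coprime r (Nat.card ↥(Z ⊓ E)) :=
    (c2.coprime_dvd_left hrτ).coprime_dvd_right (cZ ▸ card_dvd_of_le inf_le_left)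
  have md' : u ^ i ≡ 1 [MOD r] := Nat.ModEq.cancel_left_of_coprime c3 (by simpa using md)
  exact EZ (relIndex_eq_one.1 (hi.trans (xc_num hr r14 hu (hi ▸ le) md')))

end Cfsg.Lib.US7
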