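import Cfsg.Agent.Lib.US7.L3
import Cfsg.Agent.Lib.US7.TW
import Cfsg.Agent.Lib.US7.SS
import Cfsg.Agent.Lib.US7.XC
import Cfsg.Agent.Lib.US7.WE
import Cfsg.Agent.Lib.US7.Dio

/-! # Overgroups of the Singer normaliser in `GU₇(q)`, `q` odd, have the orbits of `GU₇(q)` -/

set_option autoImplicit false
set_option linter.unusedSectionVars false

namespace Cfsg.Lib.US7

open Module Cfsg.Lib.Unitary Cfsg.Lib.CKS Cfsg.Lib.Char LinearMap

variable {F K : Type*} [Field F] [Fintype F] [Field K] [Fintype K] [Algebra F K] {σ : F →+* F}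
  {q n d τ : ℕ} {s : K →+* K} {B : K →ₛₗ[σ] K →ₗ[F] F} {ε : AddChar F ℂ} {W : Type*}
  [AddCommGroup W] [Module ℂ W] [FiniteDimensional ℂ W] {h : K → End ℂ W} {ρ : UG B →* End ℂ W}

namespace Md

theorem ca_dim (M : Md q n d τ s B) (D : WD B ε h ρ) : finrank ℂ W = q ^ n := by
  have := D.dim
  rw [Nat.card_eq_fintype_card, M.cardK, mul_comm, pow_mul] at this
  exact Nat.pow_left_injective two_ne_zero this

/-- `reg_sub` for `T = Sc (q^n + 1)` (`norm_sq`: non-trivial elements fix only `0`) gives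
`θ t = - l t` for `t ≠ 1`.  `θ (fr t fr⁻¹) = θ t` gives `l (x ^ (q²)) = l x`, and `τ` is prime to
`q² - 1`, so `l` is trivial on `A`; `ω₀ = l ∘ scl`. -/
theorem exists_om (M : Md q n d τ s B) (D : WD B ε h ρ) : ∃ ω₀ : IrrCharacter (Mu q F),
    ∀ (c : Mu q F) (x : K ≃ₗ[F] K) (g : UG B), x ∈ Sc F K τ → g.1 = scl q F K c * x → g ≠ 1 →
      trace ℂ W (ρ g) = -ω₀.1 c := by
  have := md_fin (F := F) (K := K)
  have := Fintype.ofFinite (Sc F K (q ^ n + 1))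
  obtain ⟨l, hl⟩ := reg_sub (G := Sc F K (q ^ n + 1)) (fun x y => Subtype.ext (Sc_comm x.2 y.2))
    (th_char (ρ := ρ) M.Sc_le_UG) (by rw [th, map_one, trace_one, M.ca_dim D, M.card_T]; simp) fun t t1 => by
      have e := D.norm_sq M.herm (Subgroup.inclusion M.Sc_le_UG t)
      rw [show Nat.card {v : K // (Subgroup.inclusion M.Sc_le_UG t).1 v = v} = 1 from
        Nat.card_eq_one_iff_exists.2 ⟨⟨0, map_zero _⟩, fun x => Subtype.ext (by_contra fun x0 =>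
          t1 (Subtype.ext (eq_one_of_mem_Sc t.2 x0 x.2)))⟩, Nat.cast_one] at e
      exact (pow_eq_one_iff_of_nonneg (norm_nonneg _) two_ne_zero).1 e
  have hZ : ∀ c, scl q F K c ∈ Sc F K (q ^ n + 1) := fun c =>
    Sc_mono ((dvd_mul_left _ _).trans M.dvdAZ) (M.range_scl.le ⟨c, rfl⟩)
  have hA : Sc F K τ ≤ Sc F K (q ^ n + 1) := Sc_mono ((dvd_mul_right _ _).trans M.dvdAZ)
  have l1 : ∀ x (hx : x ∈ Sc F K τ), l ⟨x, hA hx⟩ = 1 := fun x hx => by
    by_cases x1 : x = 1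
    · subst x1; exact map_one l
    have e : fr F K * x * (fr F K)⁻¹ = x ^ q ^ 2 := by
      obtain ⟨u, -, rfl⟩ := hx
      rw [md_conj (b := 1) (fun v => by rw [M.fr_apply, one_mul]), map_pow]
    have e1 := (th_char (ρ := ρ) le_rfl).isClassFunction ⟨x, M.Sc_le_UG (hA hx)⟩ ⟨_, M.fr_mem⟩
    have e2 := hl ⟨x, hA hx⟩ fun e => x1 (congrArg Subtype.val e)
    have e3 := hl (⟨x, hA hx⟩ ^ q ^ 2) fun e' => x1 (conj_eq_one_iff.1 (e.trans (congrArg Subtype.val e')))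
    rw [show th ρ M.Sc_le_UG (⟨x, hA hx⟩ ^ q ^ 2) = th ρ M.Sc_le_UG ⟨x, hA hx⟩ from
      (congrArg (fun g => trace ℂ W (ρ g)) (Subtype.ext e.symm)).trans e1, e2, neg_inj, Units.val_inj,
      map_pow] at e3
    refine (pow_eq_one_iff_of_coprime M.cop.1).1 ⟨?_, ?_⟩
    · rw [← map_pow, show (⟨x, hA hx⟩ : Sc F K (q ^ n + 1)) ^ τ = 1 from Subtype.ext (pow_of_mem_Sc hx), map_one]
    · have := M.two
      rw [← Nat.sub_add_cancel (show 1 ≤ q ^ 2 from Nat.one_le_pow _ _ (by omega)), pow_succ] at e3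
      exact left_eq_mul.1 (e3.trans (mul_comm _ _))
  refine ⟨⟨_, isIrrCharacter_hom (l.comp (sclG hZ))⟩, fun c x g hx e g1 => ?_⟩
  have e2 := hl (sclG hZ c * ⟨x, hA hx⟩) fun e' => g1 (Subtype.ext (e.trans (congrArg Subtype.val e')))
  rw [map_mul l, l1 x hx, mul_one] at e2
  exact (congrArg (fun g => trace ℂ W (ρ g)) (Subtype.ext e)).trans e2

/-- Minimal case.  `fr ∈ G` (`fr_mem_of_ov`), `ts`, `TW` with `θ = th ρ O.le` (`Nm.big`),
`TW.split`, `WS.tr` with `t = d τ`, `A = (Sc τ).subgroupOf G` (`hall`, `cop`, `cop'`, `alpha`).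
`dio`: for `d = 1` trivial; for `d = 7` (then `7 ∣ q + 1`, `q` an odd prime power, so `q ≥ 13`: `q = 6` is
excluded) `χ 1 ∣ |G| ∣ guOrder q 7` and `dio`.  `hS`: for `d = 7` the irreducible `cp ω₀` has degree
`7τ - 1 = q (q-1)(q²+q+1)(q²-q+1)`, so `s^a ∣ |G|` for `s a` from `exists_big`; `deg_mod` gives
`k τ ≡ D`, `|D| ≤ 6`; `7 τ ≡ 1 mod q²+q+1`, so `k ≡ 7 D mod s^a`, `|k - 7D| ≤ 49 < s^a`, `k = 7`. -/
theorem tr_min (M : Md q 7 d τ s B) (h2 : (2 : F) ≠ 0) {G : Subgroup (K ≃ₗ[F] K)} (O : Ov q τ B G)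
    (hmin : ∀ X ≤ G, Sc F K (τ * (q + 1)) ≤ X → X ≤ Nn F K ∨ X = G) : Tr B G := by
  have := md_fin (F := F) (K := K)
  have := Fintype.ofFinite G
  obtain ⟨ε, m, h, ρ, D⟩ := exists_wd M.bar M.herm h2
  obtain ⟨ω₀, hω⟩ := M.exists_om D
  have S : WS q 7 (d * τ) M.bar B ε h ρ ω₀ := ⟨D, M.herm, M.rank, M.odd, by norm_num, h2, M.mul, fun c c1 =>
    hω c 1 _ (one_mem _) (mul_one _).symm fun e =>
      c1 (M.scl_inj ((congrArg Subtype.val e).trans (map_one _).symm))⟩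
  obtain ⟨p, f, hp, hc, -, hq⟩ := exists_prime_pow_of_card M.cardF
  obtain ⟨q', oq⟩ : Odd q := hq ▸ (hp.odd_of_ne_two (by rintro rfl; exact h2 (CharP.cast_eq_zero F 2))).pow
  obtain ⟨b1, b2⟩ := M.toNm.big (by have := M.two; omega)
  obtain ⟨t, ht⟩ := M.ts O hmin (M.fr_mem_of_ov O) b1
  have cA : Nat.card ((Sc F K τ).subgroupOf G) = τ := by rw [md_card, inf_eq_right.2 (M.A_le O), M.card_A]
  have := Fintype.ofFinite ((Sc F K τ).subgroupOf G)
  have dc := M.d_cases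
  have T : TW (sclG (M.scl_mem O)) ((Sc F K τ).subgroupOf G) (th ρ O.le) ω₀ 7 d :=
    ⟨fun a b e => M.scl_inj (congrArg Subtype.val e), th_char _, by
      rw [th, map_one, trace_one, M.ca_dim D, cA, M.card_mu, mul_comm]
      exact_mod_cast M.mul.symm,
    fun x hx c e => hω c x.1 _ hx rfl fun e' =>
      e (Subgroup.inclusion_injective O.le (e'.trans (map_one _).symm)),
    by omega, by omega, by rwa [cA]⟩
  have hG : Nat.card G ∣ guOrder q 7 := by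
    have := Subgroup.card_dvd_of_le O.le
    rwa [M.herm.card_UG M.bar, M.rank] at this
  obtain ⟨h0, hs⟩ := TW.split ht T (fun χ k a a1 a2 ak k7 e => by
    rcases dc with rfl | ⟨rfl, d7⟩
    · omega
    rw [cA, χ.2.apply_one_eq] at e
    exact dio hp hq M.toNm (by omega) a1 (by nlinarith) ak k7 (by exact_mod_cast e)
      (χ.2.charDegree_dvd_card.trans hG)) fun h0 χ k k1 k7 e => by
    rcases dc with rfl | ⟨rfl, d7⟩
    · omega
    obtain ⟨r, a, hr, r49, rd, ro⟩ := exists_big d7 (by omega)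
    have e1 : (7 * τ : ℤ) = 1 + (q ^ 2 + q + 1) * (q * (q - 1) * (q ^ 2 - q + 1)) := by
      have : ((q : ℤ) + 1) * (7 * τ) = q ^ 7 + 1 := by exact_mod_cast M.mul
      exact mul_left_cancel₀ (show (q : ℤ) + 1 ≠ 0 by omega) (by linear_combination this)
    obtain ⟨u, hu⟩ : ((r ^ a : ℕ) : ℤ) ∣ 7 * τ - 1 := by
      rw [e1, add_sub_cancel_left]
      exact Dvd.dvd.mul_right (by exact_mod_cast rd) _
    have e2 : cp (sclG (M.scl_mem O)) (th ρ O.le) ω₀.1 1 = (7 * τ - 1 : ℕ) := by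
      rw [cp_th M.bar, map_one, mul_one, S.trace_Pj, if_pos rfl, Nat.cast_sub (by omega), Nat.cast_one]
    obtain ⟨D, m, hD, e3⟩ := deg_mod M.bar M.herm M.rank (by norm_num) hr ro O.le (a := a)
      (Dvd.dvd.trans (by zify [show 1 ≤ 7 * τ by omega]; exact ⟨u, by exact_mod_cast hu⟩)
        (h0.degree_dvd_card e2)) r49 χ
    rw [e, cA] at e3
    have e4 : (k * τ : ℤ) = m * (r ^ a : ℕ) + D := by exact_mod_cast e3
    have e5 := Int.eq_zero_of_abs_lt_dvd (m := (r ^ a : ℕ)) (x := k - 7 * D) ⟨7 * m - k * u, by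
      linear_combination 7 * e4 - k * hu⟩ (by rw [abs_le] at hD; rw [abs_lt]; omega)
    omega
  obtain ⟨m, hm, cop⟩ := M.hall O
  refine S.tr le_rfl (fun x hx v v0 e => Subtype.ext (eq_one_of_mem_Sc hx v0 e)) (cA.symm ▸ M.one_lt)
    (m := m) (cA.symm ▸ hm) ?_ (M.alpha O hmin) h0 hs
  rw [cA]
  exact ((M.cop.2.2.mul_right cop).mul_right M.copZ).mul_right M.cop'

theorem tr_odd (M : Md q 7 d τ s B) (h2 : (2 : F) ≠ 0) {G : Subgroup (K ≃ₗ[F] K)} (O : Ov q τ B G) :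
    Tr B G := fun x y hx hy e => by
  obtain ⟨Y, hY, O', hmin⟩ := Md.exists_min O
  obtain ⟨g, hg, e⟩ := M.tr_min h2 O' hmin x y hx hy e
  exact ⟨g, hY hg, e⟩

end Md

end Cfsg.Lib.US7
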