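import Cfsg.Agent.Lib.US7.Def

/-!
# A subgroup of `GU₇(q)` with the same orbits on vectors contains all transvections
-/

set_option autoImplicit false

namespace Cfsg.Lib.US7

open Module Cfsg.Lib.Unitary

/-- No bijective cocycle `UT₃(F) → F³`.  (`g` acts by `e₂ ↦ e₂ + a e₁`, `e₃ ↦ e₃ + b e₂ + d e₁`.)
Proof.  `(c1,c2,c3)` factors through `(a,b,d)` (if these agree on `g,k` then `g⁻¹k` has `a=b=d=0`,
so `c(k) = c(g (g⁻¹ k)) = c(g)`), `c` is onto `F³`, so by counting `(a,b,d)` is onto `F³` and `c` is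
a function of `(a,b,d)`.  Pick `x_a=(a,0,0)`, `y_b=(0,b,0)`, `z_d=(0,0,d)`.  `x_1 y_d` and
`y_d x_1 z_d` have the same coordinates, so `c3 (z_d) = 0`.  `z_d g` and `g z_d` have the same
coordinates: `d c3 g = a g * c2 (z_d)`; so `c3 g = κ a g`, `c2 (z_d) = κ d` (`κ = c2 z_1 ≠ 0` as `c3` is
onto; use `g = x_1`).  `c2` of `x_a y_b` and `y_b x_a z_(ab)`: `2 κ a b = 0`, so `2 = 0`.
Then `x_a x_a` has coordinates `0`: `c1` gives `a c2 (x_a) = 0`.  `c1` of `x_a y_b ~ y_b x_a z_(ab)`: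
`a μ(b) = ν(ab) + κ a² b` (`μ b = c2 y_b`, `ν d = c1 z_d`).  `a=1`: `μ b = ν b + κ b`; `b=1`:
`ν a = a μ 1 + κ a²`; substituting, `κ a b (a+1)(b+1) = 0` for all `a b`; take `a = b ∉ {0,1}`. -/
theorem no_cocycle {P F : Type*} [Group P] [Field F] [Finite F] (hF : 2 < Nat.card F)
    (a b d c1 c2 c3 : P → F) (ha : ∀ g k, a (g * k) = a g + a k) (hb : ∀ g k, b (g * k) = b g + b k)
    (hd : ∀ g k, d (g * k) = d g + d k + a g * b k) (h3 : ∀ g k, c3 (g * k) = c3 g + c3 k)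
    (h2 : ∀ g k, c2 (g * k) = c2 g + c2 k + b g * c3 k)
    (h1 : ∀ g k, c1 (g * k) = c1 g + c1 k + a g * c2 k + d g * c3 k)
    (h0 : ∀ g, a g = 0 → b g = 0 → d g = 0 → c1 g = 0 ∧ c2 g = 0 ∧ c3 g = 0)
    (hs : ∀ x y z, ∃ g, c1 g = x ∧ c2 g = y ∧ c3 g = z) : False := by
  have fac : ∀ g k, a g = a k → b g = b k → d g = d k → c1 g = c1 k ∧ c2 g = c2 k ∧ c3 g = c3 k := fun g k e1 e2 e3 => by
    obtain ⟨r, rfl⟩ : ∃ r, k = g * r := ⟨g⁻¹ * k, by simp⟩
    have r2 : b r = 0 := by simpa [hb] using e2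
    obtain ⟨s1, s2, s3⟩ := h0 r (by simpa [ha] using e1) r2 (by simpa [hd, r2, add_assoc] using e3)
    simp [h1, h2, h3, s1, s2, s3]
  choose s s1 s2 s3 using hs
  have sj := Finite.surjective_of_injective
    (f := fun y : F × F × F => (a (s y.1 y.2.1 y.2.2), b (s y.1 y.2.1 y.2.2), d (s y.1 y.2.1 y.2.2))) fun y y' e => by
      simp only [Prod.mk.injEq] at e
      simpa [s1, s2, s3, Prod.ext_iff] using fac _ _ e.1 e.2.1 e.2.2
  obtain ⟨e, ea, eb, ed⟩ : ∃ e : F → F → F → P, (∀ x y z, a (e x y z) = x) ∧ (∀ x y z, b (e x y z) = y) ∧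
      ∀ x y z, d (e x y z) = z := by
    choose t ht using sj
    exact ⟨fun x y z => s (t (x, y, z)).1 (t (x, y, z)).2.1 (t (x, y, z)).2.2, fun x y z => congrArg (·.1) (ht _),
      fun x y z => congrArg (·.2.1) (ht _), fun x y z => congrArg (·.2.2) (ht _)⟩
  have k1 := fun x y => fac (e x 0 0 * e 0 y 0) (e 0 y 0 * e x 0 0 * e 0 0 (x * y)) (by simp [ha, ea]) (by simp [hb, eb])
    (by simp [ha, hd, ea, eb, ed])
  have k2 := fun g z => (fac (e 0 0 z * g) (g * e 0 0 z) (by simp [ha, ea]) (by simp [hb, eb])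
    (by simp [hd, ea, eb, add_comm])).1
  simp only [h1, h2, h3, ha, hb, hd, ea, eb, ed] at k1 k2
  have z1 : c3 (e 0 0 1) = 0 := by have := (k1 1 1).2.2; rw [one_mul] at this; linear_combination -this
  have k3 := fun z => k2 (e 1 0 0) z
  have k4 := k2 (s 0 0 1) 1
  simp only [ea, ed, s3, z1] at k3 k4
  obtain ⟨t, t0, t1⟩ : ∃ t : F, t ≠ 0 ∧ t ≠ 1 := by
    have := Fintype.ofFinite F
    by_contra! n
    classical
    have := Finset.card_le_card (s := Finset.univ) (t := ({0, 1} : Finset F)) fun x _ => by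
      by_cases h : x = 0 <;> simp [h, n x]
    have := Finset.card_le_two (a := (0 : F)) (b := 1)
    simp only [Finset.card_univ, ← Nat.card_eq_fintype_card] at *
    omega
  have κ : c3 (e 1 0 0) ≠ 0 := fun r => one_ne_zero (α := F) (by
    linear_combination k4 - a (s 0 0 1) * k3 1 + a (s 0 0 1) * r)
  have r1 := (k1 t t).1
  have r2 := (k1 1 t).1
  have r3 := (k1 t 1).1
  have r4 := (k1 (t * t) 1).1
  simp only [one_mul, mul_one] at r2 r3 r4
  refine mul_ne_zero (mul_ne_zero κ (pow_ne_zero 2 t0)) (pow_ne_zero 2 (sub_ne_zero.2 t1)) ?_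
  linear_combination r1 - t * r2 + t * r3 - r4 + (t * t - t) * k3 (t * t) - (t * t - t) * k3 t

variable {F V : Type*} [Field F] [AddCommGroup V] [Module F V] [Finite V] {σ : F →+* F} {q p : ℕ}
  {B : V →ₛₗ[σ] V →ₗ[F] F}

/-- `P` is a `p`-group of isometries with long orbits on non-isotropic vectors -/
structure PL (B : V →ₛₗ[σ] V →ₗ[F] F) (q p m : ℕ) (P : Subgroup (V ≃ₗ[F] V)) : Prop where
  bar : IsBar q σ
  herm : IsHerm σ B
  rank : finrank F V = 2 * m + 1
  prime : p.Prime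
  char : (p : F) = 0
  pg : IsPGroup p P
  le : P ≤ UG B
  long : ∀ w, B w w ≠ 0 → q ^ (2 * m) ≤ Nat.card {x // ∃ g ∈ P, g w = x}

namespace PL

variable {m : ℕ} {P : Subgroup (V ≃ₗ[F] V)} (h : PL B q p m P)
include h

theorem fix {A A' : AddSubgroup V} (hA : ∀ g ∈ P, ∀ u ∈ A, g u ∈ A) (hA' : ∀ g ∈ P, ∀ u ∈ A', g u ∈ A')
    (n : ¬ A' ≤ A) : ∃ x ∈ A', x ∉ A ∧ ∀ g ∈ P, g x - x ∈ A := by
  have := Fact.mk h.prime
  let ψ : P → A' →+ A' := fun g => (g.1.toLinearMap.toAddMonoidHom.comp A'.subtype).codRestrict A' fun x => hA' g g.2 x x.2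
  let _ : MulAction P (A' ⧸ A.addSubgroupOf A') :=
    { smul := fun g => QuotientAddGroup.map (A.addSubgroupOf A') (A.addSubgroupOf A') (ψ g) fun x hx => hA g g.2 x hx
      one_smul := fun x => QuotientAddGroup.induction_on x fun _ => rfl
      mul_smul := fun _ _ x => QuotientAddGroup.induction_on x fun _ => rfl }
  obtain ⟨y, y1, y2⟩ := SetLike.not_le_iff_exists.1 n
  have o : addOrderOf ((⟨y, y1⟩ : A') : A' ⧸ A.addSubgroupOf A') = p := addOrderOf_eq_prime (by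
    rw [← QuotientAddGroup.mk_nsmul, show p • (⟨y, y1⟩ : A') = 0 from Subtype.ext (by
      simp [← Nat.cast_smul_eq_nsmul F, h.char])]; rfl) fun e => y2 ((QuotientAddGroup.eq_zero_iff (⟨y, y1⟩ : A')).1 e)
  obtain ⟨x, hx, x0⟩ := h.pg.exists_fixed_point_of_prime_dvd_card_of_fixed_point (A' ⧸ A.addSubgroupOf A')
    (o ▸ addOrderOf_dvd_natCard _) (a := 0) fun _ => map_zero (QuotientAddGroup.map _ _ _ _)
  obtain ⟨x, rfl⟩ := QuotientAddGroup.mk_surjective x
  exact ⟨x, x.2, fun e => x0 ((QuotientAddGroup.eq_zero_iff x).2 e).symm, fun g hg =>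
    (QuotientAddGroup.eq_iff_sub_mem (x := ψ ⟨g, hg⟩ x) (y := x)).1 (hx ⟨g, hg⟩)⟩

theorem inv {U : Submodule F V} (hP : ∀ g ∈ P, ∀ u ∈ U, g u ∈ U) : ∀ g ∈ P, ∀ u ∈ perp B U, g u ∈ perp B U :=
  fun g hg u hu => mem_perp.2 fun v hv => (UG_apply_right (h.le hg) v u).trans (mem_perp.1 hu _ (hP _ (inv_mem hg) v hv))

theorem short {U : Submodule F V} {x : V} (n : B x x ≠ 0) (e : ∀ g ∈ P, g x - x ∈ U) : m ≤ finrank F U := by
  have := h.bar.finite
  have := Module.Finite.of_finite (R := F) (M := V)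
  have := (h.long x n).trans (Nat.card_le_card_of_injective
    (fun y : {y // ∃ g ∈ P, g x = y} => (⟨y.1 - x, let ⟨g, hg, r⟩ := y.2; r ▸ e g hg⟩ : U))
    fun x y e => Subtype.ext (sub_left_injective (congrArg Subtype.val e :)))
  rw [Module.natCard_eq_pow_finrank (K := F), h.bar.card, ← pow_mul, Nat.pow_le_pow_iff_right h.bar.two_le] at this
  omega

theorem sup {U : Submodule F V} (hU : U ≤ perp B U) {x : V} (hx : x ∈ perp B U) (e : B x x = 0) :
    U ⊔ F ∙ x ≤ perp B (U ⊔ F ∙ x) := by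
  rw [perp_sup]
  have := (Submodule.span_singleton_le_iff_mem _ _).2 hx
  exact sup_le (le_inf hU (h.herm.le_perp_comm this))
    (le_inf this ((Submodule.span_singleton_le_iff_mem _ _).2 (mem_perp_singleton.2 e)))

theorem mem {U : Submodule F V} (hU : U ≤ perp B U) (hd : finrank F U = m) {x : V} (hx : x ∈ perp B U)
    (e : B x x = 0) : x ∈ U := by
  have := h.bar.finite
  have := Module.Finite.of_finite (R := F) (M := V)
  by_contra n
  have := h.herm.two_mul_finrank_le (h.sup hU hx e)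
  rw [Submodule.finrank_sup_span_singleton n, h.rank] at this
  omega

/-- `P` acts on `U^⊥/U` (non-zero, `p`-power order), so fixes a coset `x + U ≠ U`
(`IsPGroup.exists_fixed_point_of_prime_dvd_card_of_fixed_point`, or count the `P`-stable cosets).
If `B x x ≠ 0` the orbit of `x` lies in `x + U`, of size `q^(2 dim U) < q^(2m)`. -/
theorem ext (U : Submodule F V) (hU : U ≤ perp B U) (hP : ∀ g ∈ P, ∀ u ∈ U, g u ∈ U)
    (hd : finrank F U < m) :
    ∃ x ∈ perp B U, x ∉ U ∧ B x x = 0 ∧ ∀ g ∈ P, g x - x ∈ U := by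
  have := h.bar.finite
  have := Module.Finite.of_finite (R := F) (M := V)
  have d := h.herm.finrank_add_finrank_perp U
  obtain ⟨x, h1, h2, h3⟩ := h.fix (A := U.toAddSubgroup) (A' := (perp B U).toAddSubgroup) hP (h.inv hP) fun l => by
    have := Submodule.finrank_mono (show perp B U ≤ U from l)
    have := h.rank
    omega
  exact ⟨x, h1, h2, by_contra fun n => (h.short n h3).not_gt hd, h3⟩

theorem step {U : Submodule F V} (hU : U ≤ perp B U) (hP : ∀ g ∈ P, ∀ u ∈ U, g u ∈ U) (hd : finrank F U < m) :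
    ∃ x ∈ perp B U, x ∉ U ∧ (∀ g ∈ P, g x - x ∈ U) ∧ U ⊔ F ∙ x ≤ perp B (U ⊔ F ∙ x) ∧
      (∀ g ∈ P, ∀ u ∈ U ⊔ F ∙ x, g u ∈ U ⊔ F ∙ x) ∧ finrank F ↥(U ⊔ F ∙ x) = finrank F U + 1 := by
  have := h.bar.finite
  have := Module.Finite.of_finite (R := F) (M := V)
  obtain ⟨x, h1, h2, h3, h4⟩ := h.ext U hU hP hd
  refine ⟨x, h1, h2, h4, h.sup hU h1 h3, fun g hg u hu => ?_, Submodule.finrank_sup_span_singleton h2⟩
  obtain ⟨y, hy, _, hz, rfl⟩ := Submodule.mem_sup.1 hu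
  obtain ⟨c, rfl⟩ := Submodule.mem_span_singleton.1 hz
  rw [map_add, map_smul, ← sub_add_cancel (g x) x]
  exact add_mem (Submodule.mem_sup_left (hP g hg y hy)) (Submodule.smul_mem _ _
    (add_mem (Submodule.mem_sup_left (h4 g hg)) (Submodule.mem_sup_right (Submodule.mem_span_singleton_self x))))

/-- Uniqueness of the invariant maximal totally isotropic subspace.  Otherwise `U₀ = U ⊓ U'` has
dimension `j < m`, `U^⊥ ⊓ U'^⊥ = (U ⊔ U')^⊥` has dimension `j + 1`; a vector `x` in it outside `U₀`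
is non-isotropic (else `U + Fx` is totally isotropic of dimension `≤ m`, so `x ∈ U`, likewise
`x ∈ U'`), `g x = c x mod U₀` with `c ^ (p ^ k) = 1`, so `c = 1` and the orbit is short. -/
theorem uniq {U U' : Submodule F V} (hU : U ≤ perp B U) (hU' : U' ≤ perp B U')
    (hP : ∀ g ∈ P, ∀ u ∈ U, g u ∈ U) (hP' : ∀ g ∈ P, ∀ u ∈ U', g u ∈ U')
    (hd : finrank F U = m) (hd' : finrank F U' = m) : U = U' := by
  have := h.bar.finite
  have := Module.Finite.of_finite (R := F) (M := V)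
  have d := h.herm.finrank_add_finrank_perp (U ⊔ U')
  have d' := Submodule.finrank_sup_add_finrank_inf_eq U U'
  obtain ⟨x, h1, h2, h3⟩ := h.fix (A := (U ⊓ U').toAddSubgroup) (A' := (perp B (U ⊔ U')).toAddSubgroup)
    (fun g hg u hu => ⟨hP g hg u hu.1, hP' g hg u hu.2⟩)
    (fun g hg u hu => by
      rw [Submodule.mem_toAddSubgroup, perp_sup] at hu ⊢
      exact ⟨h.inv hP g hg u hu.1, h.inv hP' g hg u hu.2⟩) fun l => by
    have := Submodule.finrank_mono (show perp B (U ⊔ U') ≤ U ⊓ U' from l)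
    have := h.rank
    omega
  rw [Submodule.mem_toAddSubgroup, perp_sup] at h1
  have := h.short (U := U ⊓ U') (fun e => h2 ⟨h.mem hU hd h1.1 e, h.mem hU' hd' h1.2 e⟩) h3
  exact (Submodule.eq_of_le_of_finrank_le inf_le_left (hd ▸ this)).symm.trans
    (Submodule.eq_of_le_of_finrank_le inf_le_right (hd' ▸ this))

/-- `U^⊥ = U ⊕ F w` with `B w w ≠ 0`, `g w - w ∈ U` for `g ∈ P` (as in `uniq`), and the orbit of `w`
has at least `q^(2m) = |U|` elements, so it is `w + U`. -/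
theorem trans {U : Submodule F V} (hU : U ≤ perp B U) (hP : ∀ g ∈ P, ∀ u ∈ U, g u ∈ U)
    (hd : finrank F U = m) : ∃ w ∈ perp B U, B w w ≠ 0 ∧ (∀ x ∈ perp B U, ∃ c : F, x - c • w ∈ U) ∧
      (∀ g ∈ P, g w - w ∈ U) ∧ ∀ u ∈ U, ∃ g ∈ P, g w = w + u := by
  have := h.bar.finite
  have := Module.Finite.of_finite (R := F) (M := V)
  have d := h.herm.finrank_add_finrank_perp U
  have r := h.rank
  obtain ⟨w, h1, h2, h3⟩ := h.fix (A := U.toAddSubgroup) (A' := (perp B U).toAddSubgroup) hP (h.inv hP) fun l => by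
    have := Submodule.finrank_mono (show perp B U ≤ U from l)
    omega
  have n : B w w ≠ 0 := fun e => h2 (h.mem hU hd h1 e)
  refine ⟨w, h1, n, fun x hx => ?_, h3, fun u hu => ?_⟩
  · rw [← Submodule.eq_of_le_of_finrank_le (S₁ := U ⊔ F ∙ w) (sup_le hU ((Submodule.span_singleton_le_iff_mem _ _).2 h1))
      (by rw [Submodule.finrank_sup_span_singleton h2]; omega)] at hx
    obtain ⟨y, hy, _, hz, rfl⟩ := Submodule.mem_sup.1 hx
    obtain ⟨c, rfl⟩ := Submodule.mem_span_singleton.1 hz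
    exact ⟨c, by simpa using hy⟩
  · obtain ⟨⟨_, g, hg, rfl⟩, e⟩ := (Function.Injective.bijective_of_nat_card_le
      (f := fun x : {x // ∃ g ∈ P, g w = x} => (⟨x.1 - w, let ⟨g, hg, e⟩ := x.2; e ▸ h3 g hg⟩ : U))
      (fun x y e => Subtype.ext (sub_left_injective (congrArg Subtype.val e :)))
      (by rw [Module.natCard_eq_pow_finrank (K := F), h.bar.card, hd, ← pow_mul]; exact h.long w n)).2 ⟨u, hu⟩
    exact ⟨g, hg, sub_eq_iff_eq_add'.1 (congrArg Subtype.val e)⟩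

end PL

/-- The translation lemma.  `ext` three times gives independent `e₁,e₂,e₃` spanning a totally
isotropic `U` with `g e₁ = e₁`, `g e₂ = e₂ + a e₁`, `g e₃ = e₃ + b e₂ + d e₁`;
`g w - w = c1 e₁ + c2 e₂ + c3 e₃` (`trans`).  By `no_cocycle` some `t ∈ P` is trivial on `U` with
`x = t w - w ≠ 0`.  The set `X` of such `x` (with `0`) is an additive subgroup of `U` stable under `P`
(`g t g⁻¹ w - w = g x` as `g⁻¹ w ∈ w + U`), a non-trivial `p`-group, so has a fixed `x ≠ 0`. -/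
theorem PL.transl {P : Subgroup (V ≃ₗ[F] V)} (h : PL B q p 3 P) :
    ∃ U : Submodule F V, U ≤ perp B U ∧ (∀ g ∈ P, ∀ u ∈ U, g u ∈ U) ∧ finrank F U = 3 ∧
      ∃ w ∈ perp B U, B w w ≠ 0 ∧ (∀ x ∈ perp B U, ∃ c : F, x - c • w ∈ U) ∧
      ∃ x ∈ U, x ≠ 0 ∧ (∀ g ∈ P, g x = x) ∧ ∃ t ∈ P, (∀ u ∈ U, t u = u) ∧ t w = w + x := by
  have := h.bar.finite
  have := Module.Finite.of_finite (R := F) (M := V)
  obtain ⟨e₁, -, n₁, f₁, u₁, v₁, d₁⟩ := h.step (U := ⊥) bot_le (by simp) (by simp)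
  rw [finrank_bot] at d₁
  obtain ⟨e₂, -, n₂, f₂, u₂, v₂, d₂⟩ := h.step u₁ v₁ (by omega)
  obtain ⟨e₃, -, n₃, f₃, u₃, v₃, d₃⟩ := h.step u₂ v₂ (by omega)
  obtain ⟨w, w1, w2, w3, w4, w5⟩ := h.trans u₃ v₃ (by omega)
  refine ⟨_, u₃, v₃, by omega, w, w1, w2, w3, ?_⟩
  simp only [bot_sup_eq, Submodule.mem_bot, sub_eq_zero] at *
  have m2 : ∀ {v}, v ∈ (F ∙ e₁) ⊔ F ∙ e₂ ↔ ∃ x y : F, x • e₁ + y • e₂ = v := by
    simp [Submodule.mem_sup, Submodule.mem_span_singleton]
  have m3 : ∀ {v}, v ∈ (F ∙ e₁) ⊔ (F ∙ e₂) ⊔ F ∙ e₃ ↔ ∃ x y z : F, x • e₁ + y • e₂ + z • e₃ = v := by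
    simp [Submodule.mem_sup (p := (F ∙ e₁) ⊔ F ∙ e₂), m2, Submodule.mem_span_singleton]
  generalize (F ∙ e₁) ⊔ (F ∙ e₂) ⊔ (F ∙ e₃) = U at *
  have li : ∀ {x y z x' y' z' : F}, x • e₁ + y • e₂ + z • e₃ = x' • e₁ + y' • e₂ + z' • e₃ → x = x' ∧ y = y' ∧ z = z' :=
    fun {x y z x' y' z'} e => by
      obtain rfl : z = z' := by_contra fun n => n₃ (m2.2 ⟨(z - z')⁻¹ * (x' - x), (z - z')⁻¹ * (y' - y), by
        rw [mul_smul, mul_smul, ← smul_add, inv_smul_eq_iff₀ (sub_ne_zero.2 n)]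
        linear_combination (norm := module) -e⟩)
      obtain rfl : y = y' := by_contra fun n => n₂ (Submodule.mem_span_singleton.2 ⟨(y - y')⁻¹ * (x' - x), by
        rw [mul_smul, inv_smul_eq_iff₀ (sub_ne_zero.2 n)]
        linear_combination (norm := module) -e⟩)
      exact ⟨smul_left_injective F n₁ (add_right_cancel (add_right_cancel e)), rfl, rfl⟩
  choose a ha using fun g : P => Submodule.mem_span_singleton.1 (f₂ g g.2)
  choose d b hb using fun g : P => m2.1 (f₃ g g.2)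
  choose c1 c2 c3 hc using fun g : P => m3.1 (w4 g g.2)
  have f₁' : ∀ g : P, g.1 e₁ = e₁ := fun g => f₁ g g.2
  replace ha := fun g => sub_eq_iff_eq_add'.1 (ha g).symm
  replace hb := fun g => sub_eq_iff_eq_add'.1 (hb g).symm
  replace hc := fun g => sub_eq_iff_eq_add'.1 (hc g).symm
  have k2 : ∀ g k : P, a (g * k) = a g + a k := fun g k => (li (y := 0) (z := 0) (y' := 0) (z' := 0) (by
    have := ha (g * k)
    rw [Subgroup.coe_mul, LinearEquiv.mul_apply, ha k, map_add, map_smul, ha g, f₁'] at this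
    linear_combination (norm := module) -this)).1
  have k3 : ∀ g k : P, d (g * k) = d g + d k + a g * b k ∧ b (g * k) = b g + b k ∧ (0 : F) = 0 := fun g k => li (by
    have := hb (g * k)
    simp only [Subgroup.coe_mul, LinearEquiv.mul_apply, hb k, map_add, map_smul, ha g, hb g, f₁'] at this
    linear_combination (norm := module) -this)
  have k4 : ∀ g k : P, c1 (g * k) = c1 g + c1 k + a g * c2 k + d g * c3 k ∧ c2 (g * k) = c2 g + c2 k + b g * c3 k ∧
      c3 (g * k) = c3 g + c3 k := fun g k => li (by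
    have := hc (g * k)
    simp only [Subgroup.coe_mul, LinearEquiv.mul_apply, hc k, map_add, map_smul, ha g, hb g, hc g, f₁'] at this
    linear_combination (norm := module) -this)
  let X : AddSubgroup V :=
    { carrier := {x | x ∈ U ∧ ∃ t ∈ P, (∀ u ∈ U, t u = u) ∧ t w = w + x}
      zero_mem' := ⟨zero_mem _, 1, one_mem _, fun _ _ => rfl, (add_zero _).symm⟩
      add_mem' := fun {x y} ⟨hx, t, ht, t1, t2⟩ ⟨hy, s, hs, s1, s2⟩ => ⟨add_mem hx hy, t * s, mul_mem ht hs,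
        fun u hu => by rw [LinearEquiv.mul_apply, s1 u hu, t1 u hu],
        by rw [LinearEquiv.mul_apply, s2, map_add, t2, t1 y hy, add_assoc]⟩
      neg_mem' := fun {x} ⟨hx, t, ht, t1, t2⟩ => ⟨neg_mem hx, t⁻¹, inv_mem ht,
        fun u hu => t.symm_apply_eq.2 (t1 u hu).symm,
        t.symm_apply_eq.2 (by rw [map_add, map_neg, t2, t1 x hx, add_neg_cancel_right])⟩ }
  obtain ⟨x, ⟨hx, ht⟩, x0, fx⟩ := h.fix (A := ⊥) (A' := X) (by simp) (fun g hg x ⟨hx, t, ht, t1, t2⟩ =>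
    ⟨v₃ g hg x hx, g * t * g⁻¹, mul_mem (mul_mem hg ht) (inv_mem hg), fun u hu => by
      rw [LinearEquiv.mul_apply, LinearEquiv.mul_apply, t1 _ (v₃ _ (inv_mem hg) u hu)]
      exact g.apply_symm_apply u, by
      have := t1 _ (w4 _ (inv_mem hg))
      rw [map_sub, t2, sub_eq_iff_eq_add] at this
      rw [LinearEquiv.mul_apply, LinearEquiv.mul_apply, this, ← add_assoc, sub_add_cancel, map_add]
      exact congrArg (· + _) (g.apply_symm_apply w)⟩) fun l =>
    no_cocycle (by have := h.bar.two_le; rw [h.bar.card]; nlinarith) a b d c1 c2 c3 k2 (fun g k => (k3 g k).2.1)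
      (fun g k => (k3 g k).1) (fun g k => (k4 g k).2.2) (fun g k => (k4 g k).2.1) (fun g k => (k4 g k).1)
      (fun g a0 b0 d0 => li ((l ⟨m3.2 ⟨_, _, _, rfl⟩, g, g.2, fun u hu => by
        obtain ⟨x, y, z, rfl⟩ := m3.1 hu
        simp [ha, hb, f₁', a0, b0, d0], hc g⟩).trans (by simp)))
      fun x y z => let ⟨g, hg, e⟩ := w5 _ (m3.2 ⟨x, y, z, rfl⟩)
        ⟨⟨g, hg⟩, li (add_left_cancel ((hc ⟨g, hg⟩).symm.trans e))⟩
  exact ⟨x, hx, x0, fun g hg => sub_eq_zero.1 (fx g hg), ht⟩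

/-- Two translations.  `t v - v ∈ U^⊥` for all `v` (`t` fixes `U` pointwise), `t v - v = α(v) w mod U`
with `α(v) B w w = - B x v` (expand `B (t w) (t v) = B w v`); so with `N = t - 1`, `N' = t' - 1`:
`N N' v = α'(v) x`, `N' N v = α(v) l x`, triple products vanish, and
`t t' t⁻¹ t'⁻¹ = 1 + N N' - N' N = transv x c`, `c = (l - σ l) / B w w`.  Also `t² = 1 + 2N + N²`. -/
theorem comm_transl (h : IsHerm σ B) {U : Submodule F V} (hU : U ≤ perp B U) {w x : V}
    (hw : w ∈ perp B U) (w0 : B w w ≠ 0) (hw' : ∀ y ∈ perp B U, ∃ c : F, y - c • w ∈ U)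
    (hx : x ∈ U) {t t' : V ≃ₗ[F] V} (ht : t ∈ UG B) (ht' : t' ∈ UG B) (e : ∀ u ∈ U, t u = u)
    (e' : ∀ u ∈ U, t' u = u) {l : F} (f : t w = w + x) (f' : t' w = w + l • x) :
    (∀ v, (t * t' * t⁻¹ * t'⁻¹) v = v + ((l - σ l) / B w w * B x v) • x) ∧
      ((2 : F) = 0 → ∀ v, (t * t) v = v + (1 / B w w * B x v) • x) := by
  have k : ∀ {t : V ≃ₗ[F] V} {l : F}, t ∈ UG B → (∀ u ∈ U, t u = u) → t w = w + l • x → ∀ v,
      ∃ u ∈ U, t v = v + (-(σ l / B w w * B x v)) • w + u := fun {t l} ht e f v => by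
    obtain ⟨c, hc⟩ := hw' (t v - v) (mem_perp.2 fun u hu => by
      rw [map_sub, ← ht u v, e u hu, sub_self])
    refine ⟨_, hc, ?_⟩
    have := ht w v
    rw [f, show t v = v + c • w + (t v - v - c • w) by abel] at this
    simp only [map_add, LinearMap.add_apply, LinearMap.map_smulₛₗ₂, map_smul, smul_eq_mul, mem_perp.1 hw x hx,
      LinearMap.smul_apply, h.eq_zero_comm.1 (mem_perp.1 hw _ hc), mem_perp.1 (hU hc) x hx] at this
    rw [show -(σ l / B w w * B x v) = c by field_simp; linear_combination -this]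
    abel
  have k1 := k (l := 1) ht e (by rwa [one_smul])
  have k2 := k ht' e' f'
  refine ⟨fun v => ?_, fun h2 v => ?_⟩
  · obtain ⟨y, rfl⟩ := (t' * t).surjective v
    have : B x ((t' * t) y) = B x y := by
      rw [← mul_mem ht' ht x y, LinearEquiv.mul_apply t' t x, e x hx, e' x hx]
    rw [this, ← LinearEquiv.mul_apply, show t * t' * t⁻¹ * t'⁻¹ * (t' * t) = t * t' by group]
    obtain ⟨u, hu, a⟩ := k1 y
    obtain ⟨u', hu', a'⟩ := k2 y
    simp only [LinearEquiv.mul_apply]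
    rw [a', a]
    simp only [map_add, map_smul, a, a', f, f', e u' hu', e' u hu, map_one]
    module
  · obtain ⟨u, hu, a⟩ := k1 v
    rw [LinearEquiv.mul_apply, a]
    simp only [map_add, map_smul, a, f, e u hu, map_one]
    linear_combination (norm := module) h2 • (u - (1 / B w w * B x v) • (w + x))

/-- **Goal B.**  `P` Sylow in `G` (map to `V ≃ₗ V`): `|G : G_w| = q^6 (q^7+1)`
(`IsHerm.card_norm_eq`), so `q^6 ∣ |P : P_w|`, i.e. `PL B q p 3 P`.  Take `U w x t` from `transl`.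
`2 = 0`: `t²` is a transvection `transv x c`, `c ≠ 0`.  `2 ≠ 0`: let `γ` generate `Fˣ`, `g x = γ x`
(`Tr`); `P` and `g P g⁻¹` are Sylow in the stabiliser of `γ x`, so some `n ∈ N_G(P)` has `n x = γ x`;
`n U = U` by `uniq`, `n w = a w mod U` with `a σ a = 1`; replace `n` by `a⁻¹ n` (`hZ`); `t' = n t n⁻¹`
translates by `l x`, `l = γ / a`, and `σ l ≠ l` (else `γ ^ ((q² - 1)/2) = 1`); `comm_transl`.
Finally conjugating `transv x c` by `g ∈ G` with `g x = a • u` gives `transv u (c a σ a)`, and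
`a σ a` runs over all non-zero fixed elements (`IsBar.exists_norm_eq`); `TG_eq_SUG`. -/
theorem goalB (hσ : IsBar q σ) (h : IsHerm σ B) (h7 : finrank F V = 7) {G : Subgroup (V ≃ₗ[F] V)}
    (hG : G ≤ UG B) (hZ : ∀ c, scl q F V c ∈ G) (ht : Tr B G) (u : V) (c : F) (hu : B u u = 0)
    (hc : c + σ c = 0) : transv B u c hu hc ∈ G := by
  have := hσ.finite
  have := Module.Finite.of_finite (R := F) (M := V)
  have := finite_linearEquiv (F := F) (V := V)
  have := Fintype.ofFinite F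
  have hF := Nat.card_eq_fintype_card.symm.trans hσ.card
  obtain ⟨p, f, hp, _, -, hq⟩ := exists_prime_pow_of_card hF
  have := Fact.mk hp
  obtain ⟨S⟩ : Nonempty (Sylow p G) := inferInstance
  have pl : PL B q p 3 (S.1.map G.subtype) := ⟨hσ, h, h7, hp, CharP.cast_eq_zero F p, S.isPGroup'.map _,
    (Subgroup.map_subtype_le _).trans hG, fun w n => by
      have w0 : w ≠ 0 := fun e => n (by simp [e])
      have i1 : (MulAction.stabilizer G w).index = q ^ 6 * uf q 6 := by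
        rw [MulAction.index_stabilizer, ← h.card_norm_eq hσ h7 n (h.self_fixed w), ← Nat.card_coe_set_eq]
        exact Nat.card_congr (Equiv.subtypeEquivRight fun y => ⟨fun ⟨g, e⟩ => e ▸ hG g.2 w w, fun e =>
          let ⟨g, hg, r⟩ := ht w y w0 (fun r => n (by simpa [r] using e.symm)) e.symm; ⟨⟨g, hg⟩, r⟩⟩)
      have i2 : (MulAction.stabilizer G w).relIndex S.1 = Nat.card {x // ∃ g ∈ S.1.map G.subtype, g w = x} := by
        refine (MulAction.index_stabilizer S.1 w).trans ((Nat.card_coe_set_eq _).symm.trans ?_)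
        exact Nat.card_congr (Equiv.subtypeEquivRight fun y =>
          ⟨fun ⟨g, e⟩ => ⟨_, ⟨g.1, g.2, rfl⟩, e⟩, fun ⟨_, ⟨g, hg, rfl⟩, e⟩ => ⟨⟨g, hg⟩, e⟩⟩)
      have d := Subgroup.index_dvd_of_le (inf_le_left (a := MulAction.stabilizer G w) (b := S.1))
      rw [← Subgroup.relIndex_mul_index inf_le_right, Subgroup.inf_relIndex_right, i1, i2] at d
      refine Nat.le_of_dvd (by rw [← i2]; exact Nat.pos_of_ne_zero Subgroup.index_ne_zero_of_finite)
        (Nat.Coprime.dvd_of_dvd_mul_right ?_ ((dvd_mul_right _ _).trans d))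
      rw [hq]
      exact ((hp.coprime_iff_not_dvd.2 S.not_dvd_index).pow_left _).pow_left _⟩
  obtain ⟨U, hU, hP, hd, w, w1, w0, w2, x, hx, x0, fx, t, tP, t1, t2⟩ := pl.transl
  have tG := Subgroup.map_subtype_le _ tP
  have xx : B x x = 0 := mem_perp.1 (hU hx) x hx
  obtain ⟨c₀, c0, sk, s, hs, es⟩ : ∃ c₀ : F, c₀ ≠ 0 ∧ σ c₀ = -c₀ ∧ ∃ s ∈ G, ∀ v, s v = v + (c₀ * B x v) • x := by
    by_cases h2 : (2 : F) = 0
    · exact ⟨_, one_div_ne_zero w0, by rw [map_div₀, map_one, h.self_fixed]; linear_combination 1 / B w w * h2, _,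
        mul_mem tG tG, (comm_transl h hU w1 w0 w2 hx (hG tG) (hG tG) t1 t1 (l := 1) t2 (by rwa [one_smul])).2 h2⟩
    have r2 : ringChar F ≠ 2 := fun e => h2 (by exact_mod_cast e ▸ ringChar.Nat.cast_ringChar (R := F))
    obtain ⟨γ, hγ⟩ := FiniteField.exists_nonsquare r2
    have γ0 : γ ≠ 0 := fun e => hγ (e ▸ IsSquare.zero)
    obtain ⟨g, hg, eg⟩ := ht x (γ • x) x0 (smul_ne_zero γ0 x0) (by simp [xx])
    have l1 : S.1 ≤ MulAction.stabilizer G x := fun y hy => fx _ ⟨y, hy, rfl⟩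
    have l2 : ((⟨g, hg⟩ : G) • S).1 ≤ MulAction.stabilizer G x := by
      rintro _ ⟨y, hy, rfl⟩
      have : g⁻¹ x = γ⁻¹ • x := g.symm_apply_eq.2 (by rw [map_smul, eg, inv_smul_smul₀ γ0])
      change g (y.1 (g⁻¹ x)) = x
      rw [this, map_smul, show y.1 x = x from l1 hy, ← this]
      exact g.apply_symm_apply x
    obtain ⟨r, hr⟩ := MulAction.exists_smul_eq (MulAction.stabilizer G x) (((⟨g, hg⟩ : G) • S).subtype l2) (S.subtype l1)
    simp_rw [Sylow.smul_subtype, Subgroup.smul_def, smul_smul] at hr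
    have hn := Sylow.smul_eq_iff_mem_normalizer.1 (Sylow.subtype_injective hr)
    have nx : (r.1 * ⟨g, hg⟩ : G).1 x = γ • x := by
      change r.1.1 (g x) = _
      rw [eg, map_smul, show r.1.1 x = x from r.2]
    generalize r.1 * ⟨g, hg⟩ = n at hn nx
    have nU : U.map (n.1 : V →ₗ[F] V) = U := pl.uniq (by rw [perp_map (hG n.2)]; exact Submodule.map_mono hU) hU (by
      rintro _ ⟨y, hy, rfl⟩ _ ⟨u, hu, rfl⟩
      exact ⟨_, hP _ ⟨_, (Subgroup.mem_normalizer_iff''.1 hn y).1 hy, rfl⟩ u hu, n.1.apply_symm_apply _⟩) hP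
      ((LinearEquiv.finrank_map_eq _ _).trans hd) hd
    obtain ⟨a, ha⟩ := w2 (n.1 w) (by rw [← nU, perp_map (hG n.2)]; exact ⟨w, w1, rfl⟩)
    have a1 : a * σ a = 1 := by
      have := hG n.2 w w
      rw [← sub_add_cancel (n.1 w) (a • w)] at this
      simp only [map_add, LinearMap.add_apply, LinearMap.map_smulₛₗ₂, map_smul, smul_eq_mul, mem_perp.1 w1 _ ha,
        LinearMap.smul_apply, h.eq_zero_comm.1 (mem_perp.1 w1 _ ha), mem_perp.1 (hU ha) _ ha] at this
      exact mul_right_cancel₀ w0 (by linear_combination this)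
    have a0 := left_ne_zero_of_mul_eq_one a1
    have t'1 : ∀ u ∈ U, (n.1 * t * n.1⁻¹) u = u := fun u hu => by
      obtain ⟨u, hu', rfl⟩ := nU.ge hu
      exact congrArg n.1 ((congrArg t (n.1.symm_apply_apply u)).trans (t1 u hu'))
    have t'2 : (n.1 * t * n.1⁻¹) w = w + (γ / a) • x := by
      have : (n.1 * t * n.1⁻¹) (n.1 w) = n.1 w + γ • x :=
        (congrArg (fun y => n.1 (t y)) (n.1.symm_apply_apply w)).trans (by rw [t2, map_add, nx])
      have e := t'1 _ ha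
      rw [map_sub, this, map_smul] at e
      refine smul_right_injective V a0 ?_
      simp only [smul_add, smul_smul, mul_div_cancel₀ _ a0]
      linear_combination (norm := module) -e
    have t'G : n.1 * t * n.1⁻¹ ∈ G := mul_mem (mul_mem n.2 tG) (inv_mem n.2)
    refine ⟨_, div_ne_zero (sub_ne_zero.2 fun e => hγ ?_) w0, by rw [map_div₀, map_sub, h.invol, h.self_fixed]; ring, _,
      mul_mem (mul_mem (mul_mem tG t'G) (inv_mem tG)) (inv_mem t'G),
      (comm_transl h hU w1 w0 w2 hx (hG tG) (hG t'G) t1 t'1 t2 t'2).1⟩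
    obtain ⟨y, hy⟩ := hσ.exists_norm_eq e.symm
    obtain ⟨z, z0, hz⟩ := hσ.exists_div_eq a1
    obtain ⟨k, rfl⟩ : Odd q := by
      have := FiniteField.odd_card_of_char_ne_two r2
      rw [hF, ← Nat.odd_iff, Nat.odd_pow_iff two_ne_zero] at this
      exact this
    rw [hσ.norm_eq, eq_div_iff a0] at hy
    rw [hσ.eq, pow_succ] at hz
    exact ⟨y ^ (k + 1) * z ^ k, by rw [← hy, ← mul_right_cancel₀ z0 hz]; ring⟩
  by_cases u0 : u = 0 ∨ c = 0
  · convert G.one_mem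
    ext v
    rcases u0 with r | r <;> simp [r]
  rw [not_or] at u0
  obtain ⟨a, ha⟩ := hσ.exists_norm_eq (μ := c / c₀) (by rw [map_div₀, sk, eq_neg_of_add_eq_zero_right hc, neg_div_neg_eq])
  have a0 := left_ne_zero_of_mul (ha ▸ div_ne_zero u0.2 c0)
  obtain ⟨g, hg, eg⟩ := ht x (a • u) x0 (smul_ne_zero a0 u0.1) (by simp [xx, hu])
  convert mul_mem (mul_mem hg hs) (inv_mem hg)
  ext v
  rw [LinearEquiv.mul_apply, LinearEquiv.mul_apply, es, map_add, map_smul, ← UG_apply_left (hG hg), eg, transv_apply,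
    smul_smul, LinearMap.map_smulₛₗ₂, smul_eq_mul, (div_eq_iff c0).1 ha.symm]
  congr 1
  · exact (g.apply_symm_apply v).symm
  · congr 1
    ring

end Cfsg.Lib.US7
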