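import Cfsg.Agent.Lib.US7.PF
import Cfsg.Agent.Lib.US7.GB
import Cfsg.Agent.Lib.CK.SL
import Cfsg.Agent.Lib.Unitary.XfD
import Cfsg.Agent.Lib.Unitary.Simple

/-! # The normaliser of a Singer cycle is maximal in `SU₇(q)` -/

set_option autoImplicit false
set_option linter.unusedSectionVars false

namespace Cfsg.Lib.US7

open Module Cfsg.Lib.Unitary Cfsg.Lib.CKS

section model

variable {F K : Type*} [Field F] [Fintype F] [Field K] [Fintype K] [Algebra F K] {σ : F →+* F}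
  {q n d τ : ℕ} {s : K →+* K} {B : K →ₛₗ[σ] K →ₗ[F] F}

theorem fin_geom {q k : ℕ} (hq : 2 ≤ q) : ∃ y, q ^ (2 * k + 1) = 1 + (q - 1) * (1 + (q + 1) * y) := by
  obtain ⟨t, rfl⟩ : ∃ t, q = t + 1 := ⟨q - 1, by omega⟩
  simp only [Nat.add_sub_cancel]
  induction k with
  | zero => exact ⟨0, by ring⟩
  | succ k ih =>
    obtain ⟨y, hy⟩ := ih
    exact ⟨(t + 1) ^ 2 * y + (t + 1), by rw [mul_add 2, mul_one, add_right_comm, pow_add, hy]; ring⟩

namespace Md

theorem norm_eq (M : Md q n d τ s B) {b : K} (hb : b ^ (q ^ n + 1) = 1) :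
    algebraMap F K (Algebra.norm F b) = b ^ (d * τ) := by
  obtain ⟨k, hk⟩ := M.odd
  obtain ⟨y, hy⟩ := fin_geom (k := k) M.two
  rw [← hk] at hy
  have h2 := M.two
  have e : q ^ (2 * n) - 1 = (d * τ + (q ^ n + 1) * y) * (q ^ 2 - 1) := by
    obtain ⟨t, rfl⟩ : ∃ t, q = t + 1 := ⟨q - 1, by omega⟩
    have m := M.mul
    simp only [Nat.add_sub_cancel] at hy
    rw [show (t + 1) ^ 2 - 1 = t * (t + 1 + 1) by rw [Nat.sub_eq_iff_eq_add (by nlinarith)]; ring,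
      Nat.sub_eq_iff_eq_add (Nat.one_le_pow _ _ (by omega)), mul_comm 2, pow_mul]
    generalize (t + 1) ^ n = Q at *
    generalize d * τ = D at *
    subst hy
    zify at m ⊢
    linear_combination (-t : ℤ) * m
  rw [FiniteField.algebraMap_norm_eq_pow, Nat.card_eq_fintype_card, Nat.card_eq_fintype_card, M.cardF,
    M.cardK, e, Nat.mul_div_cancel _ (Nat.sub_pos_of_lt (Nat.one_lt_pow two_ne_zero h2)), pow_add,
    pow_mul b (q ^ n + 1), hb, one_pow, mul_one]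

theorem ov (M : Md q n d τ s B) {X : Subgroup (K ≃ₗ[F] K)} (h1 : Nn F K ⊓ SUG B ≤ X)
    (h2 : X ≤ SUG B) (h3 : ¬ X ≤ Nn F K) : ∃ G, Ov q τ B G ∧ ⁅G, G⁆ ≤ X := by
  have cm : ∀ (c : Mu q F) (g : K ≃ₗ[F] K), Commute (scl q F K c) g := fun c g =>
    LinearEquiv.ext fun v => (g.map_smul _ v).symm
  have ho : Odd (finrank F K) := M.rank ▸ M.odd
  let G : Subgroup (K ≃ₗ[F] K) :=
    { carrier := {g | ∃ c, ∃ m ∈ X, scl q F K c * m = g}
      mul_mem' := by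
        rintro _ _ ⟨c, m, hm, rfl⟩ ⟨c', m', hm', rfl⟩
        exact ⟨c * c', m * m', mul_mem hm hm', by rw [map_mul, (cm c' m).mul_mul_mul_comm]⟩
      one_mem' := ⟨1, 1, one_mem _, by simp⟩
      inv_mem' := by
        rintro _ ⟨c, m, hm, rfl⟩
        exact ⟨c⁻¹, m⁻¹, inv_mem hm, by rw [mul_inv_rev, ← map_inv, cm]⟩ }
  have dT : τ ∣ q ^ n + 1 := M.mul ▸ (dvd_mul_left _ _).mul_left _
  refine ⟨G, ⟨?_, fun y hy => ?_, ?_, fun e => h3 fun m hm => e ⟨1, m, hm, by simp⟩⟩, ?_⟩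
  · rintro _ ⟨c, m, hm, rfl⟩
    exact mul_mem (scl_mem_UG M.bar B c) (h2 hm).1
  · obtain ⟨c, x, hx, rfl⟩ := M.split hy
    refine ⟨c, x, h1 ⟨Sc_le_Nn _ hx, mem_SUG'.2 ⟨M.Sc_le_UG (Sc_mono dT hx), ?_⟩⟩, rfl⟩
    obtain ⟨u, hu, e⟩ := mem_Sc.1 hx
    replace hu : (u : K) ^ τ = 1 := by rw [← Units.val_pow_eq_pow_val, hu, Units.val_one]
    obtain ⟨y, hy⟩ := dT
    rw [det_semi ho _ u 0 fun v => by simpa using e v]
    refine (algebraMap F K).injective ?_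
    rw [M.norm_eq (by rw [hy, pow_mul, hu, one_pow]), mul_comm, pow_mul, hu, one_pow, map_one]
  · rintro _ ⟨c, m, hm, rfl⟩ b j hb
    have hU : scl q F K c * m * (fr F K ^ j)⁻¹ ∈ UG B :=
      mul_mem (mul_mem (scl_mem_UG M.bar B c) (h2 hm).1) (inv_mem (pow_mem M.fr_mem _))
    have e1 : ∀ v, (scl q F K c * m * (fr F K ^ j)⁻¹) v = b * v := fun v => by
      rw [LinearEquiv.mul_apply, hb, ← M.fr_pow]
      exact congrArg _ ((fr F K ^ j).apply_symm_apply v)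
    have b1 : b ^ (q ^ n + 1) = 1 := by
      rw [← M.barK.norm_eq, ← sub_eq_zero]
      refine (traceForm_nondegenerate F K).1 _ fun v => ?_
      have := hU 1 v
      rw [e1, e1, M.form, M.form, mul_one, map_one, one_mul, ← sub_eq_zero, ← map_sub] at this
      rw [Algebra.traceForm_apply, ← this]
      congr 1; ring
    have a1 := det_semi ho ((scl q F K c * m : K ≃ₗ[F] K) : K →ₗ[F] K) b j (M.cardF ▸ hb)
    rw [show ((scl q F K c * m : K ≃ₗ[F] K) : K →ₗ[F] K) = ((c : Fˣ) : F) • (m : K →ₗ[F] K) from rfl,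
      LinearMap.det_smul, (mem_SUG'.1 (h2 hm)).2, mul_one, M.rank] at a1
    obtain ⟨x, hx⟩ : d ∣ q + 1 := M.gcd ▸ Nat.gcd_dvd_right _ _
    obtain ⟨y, hy⟩ : d ∣ n := M.gcd ▸ Nat.gcd_dvd_left _ _
    have a2 : ((c : Fˣ) : F) ^ (q + 1) = 1 := by
      rw [← Units.val_pow_eq_pow_val, (mem_rootsOfUnity _ _).1 c.2, Units.val_one]
    rw [hx] at a2 ⊢
    rw [← mul_assoc, mul_comm τ, pow_mul, ← M.norm_eq b1, ← a1, ← map_pow, ← pow_mul, hy, mul_right_comm,
      pow_mul, a2, one_pow, map_one]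
  · refine Subgroup.commutator_le.2 ?_
    rintro _ ⟨c, m, hm, rfl⟩ _ ⟨c', m', hm', rfl⟩
    have : scl q F K c * m * (scl q F K c' * m') * (scl q F K c * m)⁻¹ * (scl q F K c' * m')⁻¹ =
        m * m' * m⁻¹ * m'⁻¹ := by
      rw [mul_assoc, ← mul_inv_rev, mul_assoc (m * m'), ← mul_inv_rev, ← (cm c' m).mul_mul_mul_comm,
        ← (cm c m').mul_mul_mul_comm, ← map_mul, ← map_mul, mul_comm c', mul_inv_rev (scl q F K _),
        (cm _ (m * m')).eq, ← map_inv, ← (cm _ (m' * m)⁻¹).eq, mul_assoc, ← mul_assoc (scl q F K _),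
        ← map_mul, mul_inv_cancel, map_one, one_mul]
    rw [commutatorElement_def, this]
    exact mul_mem (mul_mem (mul_mem hm hm') (inv_mem hm)) (inv_mem hm')

theorem singer (M : Md q 7 d τ s B) {X : Subgroup (K ≃ₗ[F] K)} (h1 : Nn F K ⊓ SUG B ≤ X)
    (h2 : X ≤ SUG B) (h3 : ¬ X ≤ Nn F K) : SUG B ≤ X := by
  obtain ⟨G, O, hG⟩ := M.ov h1 h2 h3
  have r := M.rank
  have : SUG B ≤ G := M.herm.TG_eq_SUG M.bar (by omega) ▸
    TG_le (goalB M.bar M.herm r O.le (M.scl_mem O) (M.tr O))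
  rw [← M.herm.commutator_SUG M.bar (by omega) (by omega)]
  exact (Subgroup.commutator_mono this this).trans hG

end Md

end model

variable {F : Type*} [Field F] {σ : F →+* F} {q : ℕ}

theorem exists_model {K V : Type*} [Field K] [Algebra F K] [AddCommGroup V] [Module F V] [Module K V]
    [IsScalarTower F K V] [FiniteDimensional F V] {B : V →ₛₗ[σ] V →ₗ[F] F} (h : IsHerm σ B)
    (hσ : IsBar q σ) (hr : (finrank F K).Prime) (h3 : 3 ≤ finrank F K) (hV : finrank F V = finrank F K)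
    (ha : ∀ κ : K, ∃ κ' : K, ∀ u v, B (κ • u) v = B u (κ' • v)) :
    ∃ (s : K →+* K) (e : K ≃ₗ[F] V), IsBar (q ^ finrank F K) s ∧ (∀ k v, e (k * v) = k • e v) ∧
      ∀ u v, B (e u) (e v) = Algebra.trace F K (s u * v) := by
  have : Nontrivial V := Module.nontrivial_of_finrank_pos (R := F) (by omega)
  have := hσ.finite
  have : Module.Finite F K := Module.finite_of_finrank_pos hr.pos
  obtain ⟨s, t, A, S⟩ := h.exists_kStr (K := K) hσ hr h3 ha
  have h6 : ∀ y, Algebra.trace F K (s y) = σ (Algebra.trace F K y) := fun y => by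
    rw [Algebra.trace_eq_of_equiv_equiv (RingEquiv.ofBijective σ hσ.bijective)
      (RingEquiv.ofBijective s S.barK.bijective) (RingHom.ext fun c => (S.ext c).symm) y]
    exact ((RingEquiv.ofBijective σ hσ.bijective).apply_symm_apply _).symm
  obtain ⟨γ, hγ⟩ := OMax.exists_coef_eq (Algebra.trace_ne_zero F K) t
  have E : ∀ o : V, o ≠ 0 → ∃ e : K ≃ₗ[F] V, ∀ k, e k = k • o := fun o o0 =>
    ⟨LinearEquiv.ofBijective ((LinearMap.toSpanSingleton K _ o).restrictScalars F) (by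
      have : Function.Injective ((LinearMap.toSpanSingleton K _ o).restrictScalars F) :=
        smul_left_injective K o0
      exact ⟨this, (LinearMap.injective_iff_surjective_of_finrank_eq_finrank hV.symm).1 this⟩),
      fun _ => rfl⟩
  obtain ⟨o, o0⟩ := exists_ne (0 : V)
  have a0 : A o o ≠ 0 := fun e => o0 (S.hK.nondeg o fun v => by
    obtain ⟨e', he⟩ := E o o0
    obtain ⟨k, rfl⟩ := e'.surjective v
    rw [he, map_smul, e, smul_zero])
  have g0 : γ ≠ 0 := fun e => S.ne (LinearMap.ext fun k => by rw [← hγ, e, mul_zero, map_zero]; rfl)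
  have g1 : s γ = γ := OMax.eq_of_coef (Algebra.trace_ne_zero F K) fun k => by
    rw [hγ, ← S.barK.invol k, ← map_mul, h6, hγ, ← S.tau_s]
  obtain ⟨x, hx⟩ := S.barK.exists_norm_eq (μ := (A o o * γ)⁻¹)
    (by rw [map_inv₀, map_mul, g1, S.hK.self_fixed])
  have x0 : x ≠ 0 := by
    rintro rfl
    exact inv_ne_zero (mul_ne_zero a0 g0) (by rw [← hx, zero_mul])
  obtain ⟨e, he⟩ := E (x • o) (smul_ne_zero x0 o0)
  refine ⟨s, e, S.barK, fun k v => by rw [he, he, mul_smul], fun u v => ?_⟩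
  rw [S.eq, ← hγ, he, he]
  simp only [map_smul, LinearMap.map_smulₛₗ, LinearMap.smul_apply, smul_eq_mul]
  congr 1
  have : x * s x * (A o o * γ) = 1 := by rw [hx, inv_mul_cancel₀ (mul_ne_zero a0 g0)]
  linear_combination (s u * v) * this

open Matrix in
theorem isMaximalIn_singer7 (hσ : IsBar q σ) {K : Subalgebra F (Matrix (Fin 7) (Fin 7) F)}
    (hK : Geo.IsFieldSubalgebra 7 K) (ha : Geo.IsAdjointClosedFor (hermForm 7 F q) K) :
    Geo.IsMaximalIn (GU 7 F q ⊓ Geo.specialLinear (Fin 7) F)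
      (Geo.subalgebraNormalizer K ⊓ (GU 7 F q ⊓ Geo.specialLinear (Fin 7) F)) := by
  have := hσ.finite
  let _ := (Asch.isField_of_isFieldSubalgebra hK).toField
  have h2 := hK.finrank_eq
  rw [Linear.subalgebraNormalizer_eq hK]
  refine hσ.isMaximalIn_of (H' := semiU F K _) (fun g _ => Iff.rfl)
    (hσ.isHerm.not_SUG_le_semiU (by simp) (by omega)) fun X h4 h5 => ?_
  refine or_iff_not_imp_left.2 fun h6 => ?_
  obtain ⟨s, e, hs, e1, e2⟩ := exists_model (K := K) (V := Fin 7 → F) hσ.isHerm hσ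
    (by rw [h2]; exact Nat.prime_seven) (by omega) (by simp [h2]) fun κ => by
      obtain ⟨κ', hκ', e⟩ := ha κ κ.2
      refine ⟨⟨κ', hκ'⟩, fun u v => ?_⟩
      have := e u v
      rw [hσ.hermForm_eq, hσ.hermForm_eq] at this
      rw [← hσ.isHerm.symm, ← hσ.isHerm.symm _ u]
      exact congrArg σ this
  have := Fintype.ofFinite F
  have := Fintype.ofFinite K
  obtain ⟨d, τ, hn⟩ := exists_nm Nat.prime_seven le_rfl hσ.two_le
  let B : K →ₛₗ[σ] K →ₗ[F] F := ((stdForm σ (Fin 7)).compl₂ e.toLinearMap).comp e.toLinearMap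
  have M : Md q 7 d τ s B := ⟨hn, hσ, by rwa [h2] at hs, h2, e2⟩
  let ρ : (K ≃ₗ[F] K) →* ((Fin 7 → F) ≃ₗ[F] (Fin 7 → F)) :=
    MonoidHom.mk' (fun g => e.symm ≪≫ₗ g ≪≫ₗ e) fun a b => LinearEquiv.ext fun v => by simp
  have r1 : ∀ g v, ρ g (e v) = e (g v) := fun g v => by simp [ρ]
  have r2 : ∀ g, ρ g ∈ SUG (stdForm σ (Fin 7)) ↔ g ∈ SUG B := fun g => by
    rw [mem_SUG', mem_SUG', show ((ρ g : _ ≃ₗ[F] _) : (Fin 7 → F) →ₗ[F] (Fin 7 → F)) =
      e ∘ₗ (g : K →ₗ[F] K) ∘ₗ e.symm from rfl, LinearMap.det_conj, mem_UG, mem_UG, e.surjective.forall₂]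
    simp only [r1]
    rfl
  have r3 : ∀ g ∈ Nn F K, ρ g ∈ semiU F K (Fin 7 → F) := fun g hg => by
    obtain ⟨b, j, hb⟩ := M.mem_Nn.1 hg
    refine mem_semiU_of_forall fun k => ⟨k ^ (q ^ 2) ^ j, fun x => ?_⟩
    obtain ⟨v, rfl⟩ := e.surjective x
    rw [← e1, r1, r1, ← e1, hb, hb, mul_pow, mul_left_comm]
  have r4 : ∀ g, ρ (e ≪≫ₗ g ≪≫ₗ e.symm) = g := fun g => LinearEquiv.ext fun v => by simp [ρ]
  have := M.singer (X := X.comap ρ) (fun g hg => h4 ⟨r3 g hg.1, (r2 g).2 hg.2⟩)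
    (fun g hg => (r2 g).1 (h5 hg)) fun h => h6 fun g hg => r4 g ▸ r3 _ (h (by
      rw [Subgroup.mem_comap, r4]; exact hg))
  exact fun g hg => r4 g ▸ this ((r2 _).1 (by rw [r4]; exact hg))

end Cfsg.Lib.US7
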