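import Cfsg.Agent.Lib.US7.L2a

/-! # The mass identity -/

set_option autoImplicit false
set_option linter.unusedSectionVars false

namespace Cfsg.Lib.US7

open Module Cfsg.Lib.Unitary LinearMap ComplexConjugate Finset

variable {F V : Type*} [Field F] [Fintype F] [AddCommGroup V] [Module F V] [Fintype V] {σ : F →+* F}
  {B : V →ₛₗ[σ] V →ₗ[F] F} {ε : AddChar F ℂ} {W : Type*} [AddCommGroup W] [Module ℂ W]
  [FiniteDimensional ℂ W] {h : V → End ℂ W} {ρ : UG B →* End ℂ W} {q n t : ℕ}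
  {G : Subgroup (V ≃ₗ[F] V)}

namespace WS

variable {hσ : IsBar q σ} {ω₀ ω : IrrCharacter (Mu q F)} (S : WS q n t hσ B ε h ρ ω₀)
include S

/-- for fixed `y ≠ 0`, `c ↦ ε (c y)` is a non-trivial character of `F` -/
theorem sum_eps (y : F) [Decidable (y = 0)] :
    ∑ c : F, ε (c * y) = if y = 0 then (q ^ 2 : ℂ) else 0 := by
  split_ifs with hy
  · simp [hy, ← Nat.card_eq_fintype_card, hσ.card]
  · exact (Equiv.sum_comp (Equiv.mulRight₀ y hy) ε).trans (AddChar.sum_eq_zero_of_ne_one S.wd.ne)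

/-- `g c = ∑_v ε (c B v v)` equals `|V|` for `σ c = c`, and is constant on `σ c ≠ c` (add fixed
elements, scale `v`: `c = y + z c'` with `y`, `z ≠ 0` fixed, `z` a norm); `∑_c g c = q² #{B v v = 0}`
(`sum_eps`, `card_norm_aux`). -/
theorem gauss {c : F} (hc : σ c ≠ c) : ∑ v, ε (c * B v v) = -(q ^ n : ℂ) := by
  classical
  have hd : c - σ c ≠ 0 := sub_ne_zero.2 hc.symm
  have hq : (q : ℂ) ≠ 0 := Nat.cast_ne_zero.2 (by have := hσ.two_le; omega)
  let f : AddChar (fixedField σ) ℂ := (ε.mulShift c).compAddMonoidHom (fixedField σ).subtype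
  have f1 : f ≠ 1 := fun e => S.wd.ne <| AddChar.ext _ _ fun x => by
    have hz : σ ((x - σ x) / (c - σ c)) = (x - σ x) / (c - σ c) := by
      rw [map_div₀, map_sub, map_sub, hσ.invol, hσ.invol, ← neg_div_neg_eq, neg_sub, neg_sub]
    have : ε (c * ((x - σ x) / (c - σ c))) = 1 := DFunLike.congr_fun e ⟨_, hz⟩
    rw [show x = x - c * ((x - σ x) / (c - σ c)) + c * ((x - σ x) / (c - σ c)) by ring, AddChar.map_add_eq_mul,
      this, S.wd.fix _ (by rw [map_sub, map_mul, hz]; field_simp; ring), one_mul, AddChar.one_apply]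
  let g : V → fixedField σ := fun v => ⟨B v v, S.herm.self_fixed v⟩
  obtain ⟨a0, a1⟩ := S.herm.card_norm_aux hσ S.rank
  have a2 : ((Nat.card {v : V // B v v = 0} : ℂ) - Nat.card {v : V // B v v = 1}) = -q ^ n := by
    apply mul_left_cancel₀ hq
    rw [S.odd.neg_pow] at a0 a1
    exact_mod_cast (by linear_combination a0 - a1 : (q : ℤ) * (Nat.card {v : V // B v v = 0} -
      Nat.card {v : V // B v v = 1}) = q * -q ^ n)
  have a3 : ∀ y : fixedField σ, ∑ v with g v = y, f y = Nat.card {v : V // B v v = 1} * f y +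
      if y = 0 then -(q ^ n : ℂ) else 0 := fun y => by
    rw [sum_const, nsmul_eq_mul, ← Fintype.card_subtype, ← Nat.card_eq_fintype_card,
      Nat.card_congr (Equiv.subtypeEquivRight (q := fun v => B v v = y) fun v => Subtype.ext_iff)]
    split_ifs with hy
    · rw [hy, AddChar.map_zero_eq_one, ← a2, ZeroMemClass.coe_zero]; ring
    · rw [card_norm_eq_smul S.herm (fun e => hy (Subtype.ext e)) y.2, add_zero]
  rw [show ∑ v, ε (c * B v v) = ∑ v, f (g v) from rfl, ← sum_fiberwise' univ g f, sum_congr rfl fun y _ => a3 y,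
    sum_add_distrib, ← mul_sum, AddChar.sum_eq_zero_of_ne_one f1]
  simp

/-- complete the square: substitute `v ↦ v + a • u` with `σ a = ± 2 / (c - σ c)` and use
`ε (c a B v u) = ε (-σ c σ a B u v)` (`eps_bar`) -/
theorem gauss' {c : F} (hc : σ c ≠ c) (u : V) : ∑ v, ε (c * B v v) * ε (2 * B u v) =
    -(q ^ n : ℂ) * ε (4 * c / (c - σ c) ^ 2 * B u u) := by
  have hd : c - σ c ≠ 0 := sub_ne_zero.2 hc.symm
  have hb : σ (-(2 / (c - σ c))) = 2 / (c - σ c) := by
    rw [map_neg, map_div₀, map_sub, hσ.invol, map_ofNat, ← div_neg, neg_sub]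
  rw [← S.gauss hc, ← Equiv.sum_comp (Equiv.addRight (-(2 / (c - σ c)) • u)) fun v => ε (c * B v v), sum_mul]
  refine sum_congr rfl fun v _ => ?_
  have e := S.wd.fix (c * -(2 / (c - σ c)) * B v u + σ c * (2 / (c - σ c)) * B u v) (by
    rw [map_add, map_mul, map_mul, map_mul, map_mul, hb, S.herm.symm, S.herm.symm, hσ.invol, add_comm,
      ← hσ.invol (-(2 / (c - σ c))), hb])
  rw [← mul_one (_ * ε (2 * _)), ← e]
  simp only [← AddChar.map_add_eq_mul, Equiv.coe_addRight, map_add, LinearMap.add_apply, LinearMap.map_smulₛₗ,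
    LinearMap.smul_apply, map_smul, smul_eq_mul, hb, RingHom.id_apply]
  congr 1
  field_simp
  ring

open Classical in
/-- `A v = φ v φ (-v)`, `S c = ∑ A v ε (c B v v)`.  `moyal` at `u = 0`: `∑ A = q^n`.  By `moyal` and
`gauss'` (`ε (2 B v u) = ε (2 B (-u) v)`, `A (-u) = A u`) `S c = - S c'`, `c' = 4c/(c - σ c)²`, an
involution of `{σ c ≠ c}`; so `q² ∑_(B v v = 0) A = ∑_c S c = q · q^n`. -/
theorem mass {E : End ℂ W} (hE : E * E = E) (h1 : trace ℂ W E = 1) :
    (∑ v, trace ℂ W (E * h v) * trace ℂ W (E * h (-v)) = q ^ n) ∧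
    ∑ v with B v v = 0, trace ℂ W (E * h v) * trace ℂ W (E * h (-v)) = q ^ (n - 1) := by
  have hq : (q : ℂ) ≠ 0 := Nat.cast_ne_zero.2 (by have := hσ.two_le; omega)
  have mo := S.wd.moyal S.herm hE h1
  rw [S.dim, Nat.cast_pow] at mo
  set A : V → ℂ := fun v => trace ℂ W (E * h v) * trace ℂ W (E * h (-v)) with hA
  change (∑ v, A v = _) ∧ ∑ v with B v v = 0, A v = _
  replace mo : ∀ u, ∑ v, A v * ε (2 * B u v) = q ^ n * A u := mo
  have m0 : ∑ v, A v = q ^ n := by simpa [hA, S.wd.zero, h1] using mo 0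
  refine ⟨m0, mul_left_cancel₀ (pow_ne_zero 2 hq) ?_⟩
  have inv : ∀ c, σ c ≠ c → ∑ v, A v * ε (c * B v v) + ∑ v, A v * ε (4 * c / (c - σ c) ^ 2 * B v v) = 0 :=
    fun c hc => by
      apply mul_left_cancel₀ (pow_ne_zero n hq)
      have : ∑ u, A u * ∑ v, ε (c * B v v) * ε (2 * B u v) = q ^ n * ∑ v, A v * ε (c * B v v) := by
        simp only [mul_sum]
        rw [sum_comm]
        refine sum_congr rfl fun v _ => ?_
        have := mo (-v)
        rw [show A (-v) = A v by rw [hA]; simp only [neg_neg, mul_comm]] at this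
        rw [← mul_assoc, ← this, sum_mul]
        refine sum_congr rfl fun u _ => ?_
        rw [map_neg, LinearMap.neg_apply, mul_neg, ← S.wd.eps_bar S.herm, map_mul σ, map_ofNat, S.herm.symm]
        ring
      rw [mul_add, ← this, mul_zero, mul_sum, ← sum_add_distrib]
      exact sum_eq_zero fun u _ => by rw [S.gauss' hc]; ring
  have s0 : ∑ c with ¬ σ c = c, ∑ v, A v * ε (c * B v v) = 0 := by
    have h4 : (4 : F) ≠ 0 := by rw [show (4 : F) = 2 * 2 by norm_num]; exact mul_ne_zero S.two S.two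
    have d : ∀ c, σ c ≠ c → 4 * c / (c - σ c) ^ 2 - σ (4 * c / (c - σ c) ^ 2) = 4 / (c - σ c) := fun c hc => by
      have hd : c - σ c ≠ 0 := sub_ne_zero.2 hc.symm
      rw [map_div₀, map_mul, map_pow, map_sub, hσ.invol, map_ofNat, sub_sq_comm (σ c)]
      field_simp
    refine sum_involution (fun c _ => 4 * c / (c - σ c) ^ 2) (fun c hc => inv c (mem_filter.1 hc).2)
      (fun c hc h0 e => h0 ?_) (fun c hc => mem_filter.2 ⟨mem_univ _, fun e => ?_⟩) fun c hc => ?_
    · have := inv c (mem_filter.1 hc).2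
      rw [e] at this
      exact add_self_eq_zero.1 this
    · have := d c (mem_filter.1 hc).2
      rw [e, sub_self] at this
      exact div_ne_zero h4 (sub_ne_zero.2 (Ne.symm (mem_filter.1 hc).2)) this.symm
    · have hd : c - σ c ≠ 0 := sub_ne_zero.2 (Ne.symm (mem_filter.1 hc).2)
      rw [d c (mem_filter.1 hc).2]
      field_simp
  have s1 : ∑ c with σ c = c, ∑ v, A v * ε (c * B v v) = q * q ^ n := by
    rw [sum_congr rfl (g := fun _ => (q ^ n : ℂ)) fun c hc => by
      rw [← m0]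
      exact sum_congr rfl fun v _ => by
        rw [S.wd.fix _ (by rw [map_mul, (mem_filter.1 hc).2, S.herm.self_fixed]), mul_one], sum_const,
      ← Fintype.card_subtype, ← Nat.card_eq_fintype_card, hσ.card_fixed, nsmul_eq_mul]
  have := sum_filter_add_sum_filter_not univ (fun c => σ c = c) fun c => ∑ v, A v * ε (c * B v v)
  rw [s0, s1, add_zero, sum_comm] at this
  simp only [← mul_sum, S.sum_eps, mul_ite, mul_zero, ← sum_filter, ← sum_mul] at this
  obtain ⟨m, rfl⟩ := Nat.exists_eq_add_of_le' (S.odd.pos)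
  rw [mul_comm, ← this, Nat.add_sub_cancel]
  ring

end WS

end Cfsg.Lib.US7
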