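import Cfsg.Agent.Lib.US7.L1

/-! # Averages over the full unitary group -/

set_option autoImplicit false
set_option linter.unusedSectionVars false

namespace Cfsg.Lib.US7

open Module Cfsg.Lib.Unitary Cfsg.Lib.Char LinearMap ComplexConjugate Finset

variable {F V : Type*} [Field F] [Fintype F] [AddCommGroup V] [Module F V] [Fintype V] {σ : F →+* F}
  {B : V →ₛₗ[σ] V →ₗ[F] F} {ε : AddChar F ℂ} {W : Type*} [AddCommGroup W] [Module ℂ W]
  [FiniteDimensional ℂ W] {h : V → End ℂ W} {ρ : UG B →* End ℂ W} {q n t : ℕ}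
  {G : Subgroup (V ≃ₗ[F] V)}

/-- Burnside's lemma with `WD.fix_card` -/
theorem WD.inner_th (D : WD B ε h ρ) (hB : IsHerm σ B) [Fintype G] (hG : G ≤ UG B) :
    classInner (th ρ hG) (th ρ hG) = Nat.card (MulAction.orbitRel.Quotient G V) := by
  classical
  have := Fintype.ofFinite (MulAction.orbitRel.Quotient G V)
  have e := MulAction.sum_card_fixedBy_eq_card_orbits_mul_card_group G V
  have e1 : ∀ g : G, th ρ hG g * conj (th ρ hG g) = Fintype.card (MulAction.fixedBy V g) := fun g => by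
    rw [← (th_char hG).apply_inv, ← Nat.card_eq_fintype_card]
    exact D.fix_card hB (Subgroup.inclusion hG g)
  rw [classInner_def, sum_congr rfl fun g _ => e1 g, ← Nat.cast_sum, e, Nat.cast_mul,
    ← Nat.card_eq_fintype_card (α := G), Nat.card_eq_fintype_card (α := MulAction.orbitRel.Quotient G V),
    mul_comm, mul_inv_cancel_right₀ (card_ne_zero_complex G)]

/-- orbits: `0`, and the non-zero vectors of norm `c`, `σ c = c` (`witt_vec`, `exists_isotropic`,
`exists_norm_eq`; `q` fixed elements) -/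
theorem card_orb_UG (hσ : IsBar q σ) (hB : IsHerm σ B) (h2 : 2 ≤ finrank F V) :
    Nat.card (MulAction.orbitRel.Quotient (UG B) V) = q + 1 := by
  classical
  let f : V → Option {c : F // σ c = c} := fun v => if v = 0 then none else some ⟨B v v, hB.symm v v⟩
  have h1 : ∀ x y, (MulAction.orbitRel (UG B) V) x y ↔ f x = f y := fun x y => by
    rw [MulAction.orbitRel_apply]
    constructor
    · rintro ⟨g, rfl⟩
      have e : g • y = g.1 y := rfl
      simp only [f, e, LinearEquiv.map_eq_zero_iff, g.2 y y]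
    · intro e
      by_cases hx : x = 0 <;> by_cases hy : y = 0 <;> simp only [f, hx, hy, if_true, if_false,
        reduceCtorEq, Option.some.injEq, Subtype.mk.injEq] at e
      · rw [hx, hy]; exact MulAction.mem_orbit_self _
      · obtain ⟨g, hg, e⟩ := hB.witt_vec hy hx e.symm
        exact ⟨⟨g, hg⟩, e⟩
  have hs : Function.Surjective f := by
    rintro (_ | ⟨c, hc⟩)
    · exact ⟨0, by simp [f]⟩
    by_cases c0 : c = 0
    · obtain ⟨v, v0, hv⟩ := hB.exists_isotropic h2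
      exact ⟨v, by simp [f, v0, hv, c0]⟩
    · obtain ⟨x, hx⟩ := hB.exists_orthonormal 1 (by omega)
      obtain ⟨a, ha⟩ := hσ.exists_norm_eq hc
      have e : B (a • x 0) (a • x 0) = c := by simp [hx, ha]
      exact ⟨a • x 0, by rw [show f _ = _ from if_neg fun e' => c0 (by rw [← e, e']; simp)]; simp only [e]⟩
  rw [← hσ.card_fixed, ← Finite.card_option]
  exact Nat.card_eq_of_bijective (Quotient.lift f fun x y => (h1 x y).1)
    ⟨fun x y => Quotient.inductionOn₂ x y fun x y e => Quotient.sound ((h1 x y).2 e),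
      fun c => (hs c).imp' (Quotient.mk _) fun _ e => e⟩

/-- standing hypotheses: `t = (q^n + 1)/(q + 1)` -/
structure WS (q n t : ℕ) (hσ : IsBar q σ) (B : V →ₛₗ[σ] V →ₗ[F] F) (ε : AddChar F ℂ)
    (h : V → End ℂ W) (ρ : UG B →* End ℂ W) (ω₀ : IrrCharacter (Mu q F)) : Prop where
  wd : WD B ε h ρ
  herm : IsHerm σ B
  rank : finrank F V = n
  odd : Odd n
  three : 3 ≤ n
  two : (2 : F) ≠ 0
  mul : (q + 1) * t = q ^ n + 1
  val : ∀ c, c ≠ 1 → trace ℂ W (ρ ⟨scl q F V c, scl_mem_UG hσ B c⟩) = -ω₀.1 c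

namespace WS

variable {hσ : IsBar q σ} {ω₀ ω : IrrCharacter (Mu q F)} (S : WS q n t hσ B ε h ρ ω₀)
include S

theorem dim : finrank ℂ W = q ^ n := by
  have := S.wd.dim
  rw [Module.natCard_eq_pow_finrank (K := F), hσ.card, S.rank, ← pow_mul, mul_comm, pow_mul] at this
  exact Nat.pow_left_injective two_ne_zero this

theorem card_mu : Nat.card (Mu q F) = q + 1 := by
  rw [← hσ.card_normOne]
  congr 2
  ext x
  rw [mem_rootsOfUnity, mem_normOne, hσ.norm_eq, ← Units.val_pow_eq_pow_val, Units.val_eq_one]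

omit S in
theorem tr_Pj (ω : Mu q F → ℂ) (X : End ℂ W) : trace ℂ W (Pj hσ ρ ω * X) = (Nat.card (Mu q F) : ℂ)⁻¹ *
    ∑ c, conj (ω c) * trace ℂ W (ρ ⟨scl q F V c, scl_mem_UG hσ B c⟩ * X) := by
  simp only [Pj, smul_mul_assoc, sum_mul, map_smul, map_sum, smul_eq_mul]

omit S in
variable (hσ) in
theorem rho_one : ρ ⟨scl q F V 1, scl_mem_UG hσ B 1⟩ = 1 := by
  rw [← map_one ρ]; exact congrArg ρ (Subtype.ext (map_one _))

open Classical in
theorem sum_val (ω : IrrCharacter (Mu q F)) : ∑ c ∈ univ.erase 1, conj (ω.1 c) *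
    trace ℂ W (ρ ⟨scl q F V c, scl_mem_UG hσ B c⟩) = 1 - (q + 1) * if ω = ω₀ then 1 else 0 := by
  have e := card_mul_classInner ω₀.1 ω.1
  rw [irr_inner_eq_ite, S.card_mu, ← add_sum_erase _ _ (mem_univ 1), vr_lin mul_comm, vr_lin mul_comm] at e
  rw [sum_congr rfl fun c hc => by rw [S.val c (ne_of_mem_erase hc)]]
  simp only [mul_comm (conj _), eq_comm (a := ω)]
  push_cast at e
  rw [e]; simp

theorem two_le : 2 ≤ t := by
  have h1 := S.mul
  have h2 := hσ.two_le
  have h3 : q ^ 3 ≤ q ^ n := Nat.pow_le_pow_right (by omega) S.three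
  by_contra! c
  have : (q + 1) * t ≤ (q + 1) * 1 := Nat.mul_le_mul_left _ (by omega)
  have h4 : q ^ 1 < q ^ 3 := Nat.pow_lt_pow_right (by omega) (by omega)
  rw [pow_one] at h4
  omega

open Classical in
theorem trace_Pj (ω : IrrCharacter (Mu q F)) :
    trace ℂ W (Pj hσ ρ ω.1) = t - if ω = ω₀ then 1 else 0 := by
  have q0 : (q + 1 : ℂ) ≠ 0 := by exact_mod_cast Nat.succ_ne_zero q
  have m : (q + 1 : ℂ) * t = q ^ n + 1 := by exact_mod_cast S.mul
  rw [← mul_one (Pj _ _ _), tr_Pj, ← add_sum_erase _ _ (mem_univ 1), rho_one hσ, S.card_mu, vr_lin mul_comm]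
  simp only [mul_one, S.sum_val, trace_one, S.dim, map_one, one_mul]
  push_cast
  rw [inv_mul_eq_iff_eq_mul₀ q0]
  linear_combination -m

theorem trace_Pj_ne (ω : IrrCharacter (Mu q F)) : trace ℂ W (Pj hσ ρ ω.1) ≠ 0 := by
  have := S.two_le
  rw [S.trace_Pj]
  split_ifs
  · rw [sub_ne_zero]; exact_mod_cast (by omega : t ≠ 1)
  · rw [sub_zero]; exact_mod_cast (by omega : t ≠ 0)

theorem inner_one [Fintype (UG B)] (ω : IrrCharacter (Mu q F)) :
    classInner (cp (sclG (scl_mem_UG hσ B)) (th ρ le_rfl) ω.1)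
      (cp (sclG (scl_mem_UG hσ B)) (th ρ le_rfl) ω.1) = 1 := by
  have hc := fun ω => cp_char (sclG_cen (scl_mem_UG hσ B)) (th_char (ρ := ρ) le_rfl) ω
  choose m hm using fun ω => (hc ω).exists_inner_eq_nat (hc ω)
  have e := inner_sum_cp (sclG_cen (scl_mem_UG hσ B)) (th_char (ρ := ρ) le_rfl).isClassFunction
  rw [S.wd.inner_th S.herm, card_orb_UG hσ S.herm (by rw [S.rank]; have := S.three; omega)] at e
  simp only [hm] at e
  have e1 : ∑ _ω : IrrCharacter (Mu q F), 1 = ∑ ω, m ω := by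
    rw [sum_const, card_univ, vr_card mul_comm, S.card_mu, smul_eq_mul, mul_one]; exact_mod_cast e
  have e2 : ∀ ω ∈ univ, 1 ≤ m ω := fun ω _ => Nat.pos_of_ne_zero fun e => S.trace_Pj_ne ω (by
    have := hm ω
    rw [e, Nat.cast_zero, classInner_self_eq_zero_iff] at this
    have := congrFun this 1
    rwa [cp_th hσ, map_one, mul_one] at this)
  rw [hm, ← (sum_eq_sum_iff_of_le e2).1 e1 ω (mem_univ _), Nat.cast_one]

/-- For `G = UG B`: `∑_ω ⟨cp ω, cp ω⟩ = q + 1` (`inner_sum_cp`), there are `q + 1` characters `ω`,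
each `cp ω` is a non-zero character, so each norm is one.  `𝒜 X = |U|⁻¹ ∑ ρ g Π X Π ρ g⁻¹` is an
idempotent of trace one fixing `Π ≠ 0` (`idem_one'`), and `𝒜 X = Π X` if `X` commutes with `ρ`. -/
theorem schur (ω : IrrCharacter (Mu q F)) {X : End ℂ W} (hX : ∀ g, X * ρ g = ρ g * X) :
    trace ℂ W (Pj hσ ρ ω.1) • (Pj hσ ρ ω.1 * X) = trace ℂ W (Pj hσ ρ ω.1 * X) • Pj hσ ρ ω.1 := by
  have : Finite (V ≃ₗ[F] V) := Finite.of_injective _ DFunLike.coe_injective
  have := Fintype.ofFinite (UG B)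
  set P := Pj hσ ρ ω.1 with hP
  have PP : P * P = P := Pj_idem hσ ω
  have Pc : ∀ g, P * ρ g = ρ g * P := Pj_comm hσ ω.1
  have N0 := card_ne_zero_complex (UG B)
  let T : UG B → End ℂ (End ℂ W) := fun g => mulLeft ℂ (ρ g * P) * mulRight ℂ (P * ρ g⁻¹)
  have Ta : ∀ g Y, T g Y = ρ g * (P * Y * P) * ρ g⁻¹ := fun g Y => by
    simp only [T, End.mul_apply, mulLeft_apply, mulRight_apply, mul_assoc]
  have TT : ∀ g k, T g * T k = T (g * k) := fun g k => LinearMap.ext fun Y => by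
    rw [End.mul_apply, Ta, Ta, Ta, mul_inv_rev, map_mul, map_mul]
    have : P * (ρ k * (P * Y * P) * ρ k⁻¹) * P = ρ k * (P * P * Y * (P * P)) * ρ k⁻¹ := by
      simp only [mul_assoc, ← Pc k⁻¹]
      rw [← mul_assoc P (ρ k), Pc, mul_assoc]
    rw [this, PP]; simp only [mul_assoc]
  let A : End ℂ (End ℂ W) := (Nat.card (UG B) : ℂ)⁻¹ • ∑ g, T g
  have avg : ∀ {M : Type _} [AddCommGroup M] [Module ℂ M] (x : M),
      (Nat.card (UG B) : ℂ)⁻¹ • ∑ _g : UG B, x = x := fun x => by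
    rw [sum_const, card_univ, ← Nat.card_eq_fintype_card, ← Nat.cast_smul_eq_nsmul ℂ, inv_smul_smul₀ N0]
  have AA : A * A = A := by
    have e : ∀ g, ∑ k, T (g * k) = ∑ k, T k := fun g => Equiv.sum_comp (Equiv.mulLeft g) T
    simp only [A, smul_mul_assoc, mul_smul_comm, sum_mul_sum, TT, e]
    rw [avg]
  have A1 : trace ℂ _ A = 1 := by
    rw [← S.inner_one ω, classInner_def]
    simp only [← (cp_char (sclG_cen (scl_mem_UG hσ B)) (th_char (ρ := ρ) le_rfl) ω).apply_inv]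
    simp only [A, map_smul, map_sum, smul_eq_mul, T, trace_lr, cp_th hσ, ← Pc]
    rfl
  have Aa : ∀ Y : End ℂ W, (∀ g, Y * ρ g = ρ g * Y) → A Y = P * Y * P := fun Y hY => by
    simp only [A, LinearMap.smul_apply, LinearMap.sum_apply, Ta]
    rw [sum_congr rfl fun g _ => show _ = P * Y * P from ?_, avg]
    rw [mul_assoc, mul_assoc, Pc, mul_assoc P, ← mul_assoc Y, hY, mul_assoc, ← mul_assoc P, Pc]
    simp only [← mul_assoc, ← map_mul, mul_inv_cancel, map_one, one_mul]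
  have XP : X * P = P * X := by
    simp only [hP, Pj, smul_mul_assoc, mul_smul_comm, sum_mul, mul_sum, hX]
  obtain ⟨c, hc⟩ := idem_one' AA A1 (x := P) (by rw [Aa P Pc, PP, PP])
    (fun e => S.trace_Pj_ne ω (by rw [← hP, e, map_zero])) X
  rw [Aa X hX, mul_assoc, XP, ← mul_assoc, PP] at hc
  rw [hc, map_smul, smul_smul, smul_eq_mul, mul_comm]

open Classical in
/-- `schur` for `X = ∑ h v` over the class, multiply by `E` and take traces -/
theorem class_sum (hω : ω ≠ ω₀) {E : End ℂ W} (hE : E * Pj hσ ρ ω.1 = E) (h1 : trace ℂ W E = 1)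
    (c : F) : (t : ℂ) * ∑ v with v ≠ 0 ∧ B v v = c, trace ℂ W (E * h v) =
      ∑ v with v ≠ 0 ∧ B v v = c, trace ℂ W (Pj hσ ρ ω.1 * h v) := by
  have e := S.schur ω (X := ∑ v with v ≠ 0 ∧ B v v = c, h v) fun g => by
    rw [mul_sum, sum_mul]
    symm
    refine sum_equiv g.1.toEquiv (fun v => ?_) fun v _ => S.wd.cj g v
    simp [g.2 v v]
  have := congrArg (fun Y => trace ℂ W (E * Y)) e
  simp only [mul_smul_comm, map_smul, smul_eq_mul, ← mul_assoc, hE, h1, mul_one, S.trace_Pj, if_neg hω,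
    sub_zero] at this
  simpa only [mul_sum, map_sum] using this

omit S in
theorem scl_fix {c : Mu q F} (hc : c ≠ 1) : ((c : Fˣ) : F) ≠ 1 := fun e =>
  hc (Subtype.ext (Units.ext e))

/-- the term `c = 1` vanishes, the others have norm one (`norm_tr`) -/
theorem norm_Pj (ω : IrrCharacter (Mu q F)) {v : V} (hv : v ≠ 0) :
    ‖trace ℂ W (Pj hσ ρ ω.1 * h v)‖ ≤ 1 := by
  have N0 : (0 : ℝ) < Nat.card (Mu q F) := Nat.cast_pos.2 Nat.card_pos
  rw [tr_Pj, norm_mul, norm_inv, Complex.norm_natCast, inv_mul_le_iff₀ N0, mul_one]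
  refine (norm_sum_le _ _).trans ((sum_le_card_nsmul _ _ 1 fun c _ => ?_).trans
    (by rw [card_univ, ← Nat.card_eq_fintype_card, nsmul_eq_mul, mul_one]))
  have e : ‖ω.1 c‖ = 1 := by
    rw [CKS.irr_central_norm ω (Subgroup.mem_center_iff.2 fun g => mul_comm _ _), vr_lin mul_comm, norm_one]
  rw [norm_mul, RCLike.norm_conj, e, one_mul]
  by_cases hc : c = 1
  · rw [hc, rho_one hσ, one_mul, S.wd.tr v hv, norm_zero]; exact zero_le_one
  · refine (S.wd.norm_tr S.herm (fun u hu => ?_) v).le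
    have : (((c : Fˣ) : F) - 1) • u = 0 := by rw [sub_smul, one_smul]; exact sub_eq_zero.2 hu
    exact (smul_eq_zero.1 this).resolve_left (sub_ne_zero.2 (scl_fix hc))

/-- `tr_iso`: the sum is `-(q+1)⁻¹ ∑_(c ≠ 1) conj (ω c) ω₀ c` -/
theorem Pj_iso (hω : ω ≠ ω₀) {v : V} (hv : v ≠ 0) (h0 : B v v = 0) :
    (q + 1 : ℂ) * trace ℂ W (Pj hσ ρ ω.1 * h v) = 1 := by
  classical
  have q0 : (q + 1 : ℂ) ≠ 0 := by exact_mod_cast Nat.succ_ne_zero q
  rw [tr_Pj, ← add_sum_erase _ _ (mem_univ 1), rho_one hσ, one_mul, S.wd.tr v hv, mul_zero, zero_add,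
    sum_congr rfl fun c hc => by
      rw [S.wd.tr_iso S.herm (c := ((c : Fˣ) : F)) (fun _ => rfl) (scl_fix (ne_of_mem_erase hc)) h0],
    S.sum_val, if_neg hω, S.card_mu]
  push_cast
  rw [mul_zero, sub_zero, mul_one, mul_inv_cancel₀ q0]

open Classical in
theorem card_iso : #{v : V | v ≠ 0 ∧ B v v = 0} = (q ^ n + 1) * (q ^ (n - 1) - 1) := by
  have h1 := (S.herm.card_norm_aux hσ S.rank).1
  have h2 := hσ.two_le
  rw [S.odd.neg_pow, Nat.card_eq_fintype_card, Fintype.card_subtype,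
    ← card_erase_add_one (a := 0) (by simp)] at h1
  have e : ({v | v ≠ 0 ∧ B v v = 0} : Finset V) = ({v | B v v = 0} : Finset V).erase 0 := by ext; simp
  obtain ⟨k, rfl⟩ : ∃ k, n = k + 1 := ⟨n - 1, by have := S.three; omega⟩
  have : 1 ≤ q ^ k := Nat.one_le_pow _ _ (by omega)
  rw [e, Nat.add_sub_cancel]
  zify [this]
  refine mul_left_cancel₀ (show (q : ℤ) ≠ 0 by omega) ?_
  push_cast at h1
  linear_combination h1

open Classical in
theorem sum_iso (hω : ω ≠ ω₀) {E : End ℂ W} (hE : E * Pj hσ ρ ω.1 = E) (h1 : trace ℂ W E = 1) :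
    ∑ v with v ≠ 0 ∧ B v v = 0, trace ℂ W (E * h v) = (q ^ (n - 1) - 1 : ℕ) := by
  have q0 : (q + 1 : ℂ) ≠ 0 := by exact_mod_cast Nat.succ_ne_zero q
  have t0 : (t : ℂ) ≠ 0 := by exact_mod_cast (by have := S.two_le; omega : t ≠ 0)
  refine mul_left_cancel₀ t0 (mul_left_cancel₀ q0 ?_)
  rw [S.class_sum hω hE h1, mul_sum, sum_congr rfl fun v hv =>
    S.Pj_iso hω (mem_filter.1 hv).2.1 (mem_filter.1 hv).2.2, sum_const, S.card_iso, ← S.mul]
  simp only [nsmul_eq_mul, mul_one, Nat.cast_mul, Nat.cast_add, Nat.cast_one, mul_assoc]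

end WS

end Cfsg.Lib.US7
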