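import Cfsg.Agent.Lib.US7.L2a

/-! # Transitivity on norm classes and the number of orbits -/

set_option autoImplicit false
set_option linter.unusedSectionVars false

namespace Cfsg.Lib.US7

open Module Cfsg.Lib.Unitary LinearMap ComplexConjugate Finset

variable {F V : Type*} [Field F] [Fintype F] [AddCommGroup V] [Module F V] [Fintype V] {σ : F →+* F}
  {B : V →ₛₗ[σ] V →ₗ[F] F} {ε : AddChar F ℂ} {W : Type*} [AddCommGroup W] [Module ℂ W]
  [FiniteDimensional ℂ W] {h : V → End ℂ W} {ρ : UG B →* End ℂ W} {q n t : ℕ}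
  {G : Subgroup (V ≃ₗ[F] V)}

/-- transitivity on the non-zero vectors of norm `c` -/
def TrC (B : V →ₛₗ[σ] V →ₗ[F] F) (G : Subgroup (V ≃ₗ[F] V)) (c : F) : Prop :=
  ∀ x y, x ≠ 0 → y ≠ 0 → B x x = c → B y y = c → ∃ g ∈ G, g x = y

/-- scale by `a` with `a σ a = c` -/
theorem trC_iff (hσ : IsBar q σ) (hB : IsHerm σ B) {c : F} (c0 : c ≠ 0) (hc : σ c = c) :
    TrC B G c ↔ TrC B G 1 := by
  have k : ∀ (a c c' : F), a ≠ 0 → a * σ a * c = c' → TrC B G c' → TrC B G c :=
    fun a c c' a0 e T x y x0 y0 hx hy => by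
      have : ∀ z, B z z = c → B (a • z) (a • z) = c' := fun z hz => by simp [hz, ← e, mul_assoc]
      obtain ⟨g, hg, e⟩ := T _ _ (smul_ne_zero a0 x0) (smul_ne_zero a0 y0) (this x hx) (this y hy)
      exact ⟨g, hg, smul_right_injective V a0 ((map_smul g a x).symm.trans e)⟩
  obtain ⟨a, rfl⟩ := hσ.exists_norm_eq hc
  have a0 := left_ne_zero_of_mul c0
  exact ⟨k a _ _ a0 (mul_one _), k a⁻¹ _ _ (inv_ne_zero a0) (by rw [map_inv₀, ← mul_inv, inv_mul_cancel₀ c0])⟩

/-- the map from `G`-orbits onto `UG B`-orbits is a surjection of sets of equal size -/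
theorem tr_of_card (hσ : IsBar q σ) (hB : IsHerm σ B) (h2 : 2 ≤ finrank F V) (hG : G ≤ UG B)
    (h : Nat.card (MulAction.orbitRel.Quotient G V) ≤ q + 1) : Tr B G := by
  intro x y x0 y0 e
  let π : MulAction.orbitRel.Quotient G V → MulAction.orbitRel.Quotient (UG B) V :=
    Quotient.map' id fun x y ⟨g, e⟩ => ⟨⟨g.1, hG g.2⟩, e⟩
  have hs : Function.Surjective π := fun z => z.inductionOn fun v => ⟨Quotient.mk _ v, rfl⟩
  obtain ⟨g, hg, e⟩ := hB.witt_vec x0 y0 e
  obtain ⟨k, e⟩ := Quotient.exact ((hs.bijective_of_nat_card_le (by rwa [card_orb_UG hσ hB h2])).1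
    (a₁ := Quotient.mk _ y) (a₂ := Quotient.mk _ x) (Quotient.sound ⟨⟨g, hg⟩, e⟩))
  exact ⟨k.1, k.2, e⟩

/-- the orbit of `0` and two orbits for each of the `q` norms -/
theorem le_card_orb (hσ : IsBar q σ) (hB : IsHerm σ B) (hG : G ≤ UG B) (h0 : ¬ TrC B G 0)
    (h1 : ¬ TrC B G 1) : 2 * q + 1 ≤ Nat.card (MulAction.orbitRel.Quotient G V) := by
  have : ∀ c : {c : F // σ c = c}, ∃ x y, x ≠ 0 ∧ y ≠ 0 ∧ B x x = c ∧ B y y = c ∧ ∀ g ∈ G, g x ≠ y := fun c => by
    have : ¬ TrC B G c := by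
      by_cases c0 : c.1 = 0
      · rwa [c0]
      · rwa [trC_iff hσ hB c0 c.2]
    simpa [TrC] using this
  choose x y x0 y0 hx hy hn using this
  let z : Option (Bool × {c : F // σ c = c}) → V := fun o => o.elim 0 fun p => cond p.1 (x p.2) (y p.2)
  have z0 : ∀ p, z (some p) ≠ 0 := by rintro ⟨_ | _, c⟩; exacts [y0 c, x0 c]
  have z1 : ∀ p, B (z (some p)) (z (some p)) = p.2 := by rintro ⟨_ | _, c⟩; exacts [hy c, hx c]
  have inj : Function.Injective fun o => (Quotient.mk _ (z o) : MulAction.orbitRel.Quotient G V) := by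
    intro a b e
    obtain ⟨g, e⟩ := Quotient.exact e
    change g.1 (z b) = z a at e
    rcases a with _ | a <;> rcases b with _ | b
    · rfl
    · exact absurd (g.1.map_eq_zero_iff.1 e) (z0 b)
    · exact absurd (e.symm.trans (map_zero g.1)) (z0 a)
    obtain ⟨i, c⟩ := a
    obtain ⟨j, d⟩ := b
    obtain rfl : c = d := Subtype.ext ((z1 (i, c)).symm.trans (by rw [← e, hG g.2, z1]))
    cases i <;> cases j
    · rfl
    · exact absurd e (hn c _ g.2)
    · exact absurd (g.1.symm_apply_eq.2 e.symm) (hn c _ (G.inv_mem g.2))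
    · rfl
  have := Nat.card_le_card_of_injective _ inj
  rwa [Finite.card_option, Nat.card_prod, hσ.card_fixed, Nat.card_eq_fintype_card, Fintype.card_bool] at this

end Cfsg.Lib.US7
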