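import Cfsg.Agent.Lib.US7.L2
import Cfsg.Agent.Lib.Char.Product

/-! # Not all components of the Weil character split -/

set_option autoImplicit false
set_option linter.unusedSectionVars false

namespace Cfsg.Lib.US7

open Module Cfsg.Lib.Unitary LinearMap ComplexConjugate Finset

/-- an invariant integral function summed over a set on which `A` acts freely -/
theorem orb_sum {A V : Type*} [Group A] [Finite A] [MulAction A V] (s : Finset V)
    (hs : ∀ a : A, ∀ x ∈ s, a • x ∈ s) (fr : ∀ a : A, ∀ x ∈ s, a • x = x → a = 1) {Φ : V → ℂ}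
    (hΦ : ∀ (a : A) x, Φ (a • x) = Φ x) (hi : ∀ x ∈ s, IsIntegral ℤ (Φ x)) :
    IsIntegral ℤ ((∑ x ∈ s, Φ x) / Nat.card A) := by
  classical
  have := Fintype.ofFinite A
  rw [← sum_fiberwise_of_maps_to (t := s.image (Quotient.mk (MulAction.orbitRel A V)))
    (fun x hx => mem_image_of_mem _ hx), sum_div]
  refine IsIntegral.sum _ fun c hc => ?_
  obtain ⟨x, hx, rfl⟩ := mem_image.1 hc
  have e : ∑ _a : A, Φ x = ∑ y ∈ s with Quotient.mk (MulAction.orbitRel A V) y = Quotient.mk _ x, Φ y := by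
    refine sum_bij (fun a _ => a • x) (fun a _ => mem_filter.2 ⟨hs a x hx, Quotient.sound ⟨a, rfl⟩⟩)
      (fun a _ b _ e => ?_) (fun y hy => ?_) fun a _ => (hΦ a x).symm
    · exact (inv_mul_eq_one.1 (fr (b⁻¹ * a) x hx (by rw [mul_smul, e, inv_smul_smul]))).symm
    · obtain ⟨a, e⟩ := Quotient.exact (mem_filter.1 hy).2
      exact ⟨a, mem_univ _, e⟩
  rw [← e, sum_const, card_univ, nsmul_eq_mul, ← Nat.card_eq_fintype_card,
    mul_div_cancel_left₀ _ (Char.card_ne_zero_complex A)]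
  exact hi x hx

variable {F V : Type*} [Field F] [Fintype F] [AddCommGroup V] [Module F V] [Fintype V] {σ : F →+* F}
  {B : V →ₛₗ[σ] V →ₗ[F] F} {ε : AddChar F ℂ} {W : Type*} [AddCommGroup W] [Module ℂ W]
  [FiniteDimensional ℂ W] {h : V → End ℂ W} {ρ : UG B →* End ℂ W} {q n t : ℕ}
  {G : Subgroup (V ≃ₗ[F] V)}

namespace WS

variable {hσ : IsBar q σ} {ω₀ ω ω' : IrrCharacter (Mu q F)} (S : WS q n t hσ B ε h ρ ω₀) [Fintype G]
  {hG : G ≤ UG B} {hZ : ∀ c, scl q F V c ∈ G} {l l' : G →* ℂˣ} {χ χ' : IrrCharacter G}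
include S

theorem twist_eq' (hω : ω ≠ ω₀) (hω' : ω' ≠ ω₀) (L : Ln ρ hG hZ ω l χ) (L' : Ln ρ hG hZ ω' l' χ')
    {A : Subgroup G} (free : ∀ x ∈ A, ∀ v : V, v ≠ 0 → x.1 v = v → x = 1) (h1 : 1 < Nat.card A)
    {m : ℕ} (hm : Nat.card G = Nat.card A * m)
    (cop : Nat.Coprime (Nat.card A) (q * m * (q + 1) * (q ^ (n - 1) - 1))) (g : G) :
    χ.1 g * ((l g)⁻¹ : ℂˣ) = χ'.1 g * ((l' g)⁻¹ : ℂˣ) := by
  classical
  revert g
  by_contra hne
  have P := L.pair hσ S.wd S.herm S.two L' hne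
  have s1 := S.sum_iso hω (L.Pj_Ev hσ).2 (L.trace_Ev hσ)
  have s2 := S.sum_iso hω' (L'.Pj_Ev hσ).2 (L'.trace_Ev hσ)
  rw [S.dim, S.card_mu, hm] at P
  set s : Finset V := {v | v ≠ 0 ∧ B v v = 0} with hs
  set N := q ^ n * (Nat.card A * m) * (q + 1) ^ 2 with hN
  set Q := q ^ (n - 1) - 1
  have a0 : (Nat.card A : ℂ) ≠ 0 := Char.card_ne_zero_complex A
  have i1 : ∀ a : A, ∀ x ∈ s, a • x ∈ s := fun a x hx => by
    rw [hs, mem_filter] at hx ⊢
    refine ⟨mem_univ _, fun e => hx.2.1 (a.1.1.map_eq_zero_iff.1 e), ?_⟩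
    exact (hG a.1.2 x x).trans hx.2.2
  have i2 : ∀ a : A, ∀ x ∈ s, a • x = x → a = 1 := fun a x hx e =>
    Subtype.ext (free a.1 a.2 x (mem_filter.1 hx).2.1 e)
  have i3 : ∀ (l : G →* ℂˣ) (a : A) x, trace ℂ W (Ev ρ hG l * h (a • x)) = trace ℂ W (Ev ρ hG l * h x) :=
    fun l a x => Ev_inv S.wd l a.1.2 x
  have k1 : ∀ y ∈ s, IsIntegral ℤ ((N : ℂ) * Q / Nat.card A * trace ℂ W (Ev ρ hG l' * h y)) := fun y _ => by
    have := orb_sum s i1 i2 (Φ := fun x => (N : ℂ) * (trace ℂ W (Ev ρ hG l * h x) *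
      trace ℂ W (Ev ρ hG l' * h y))) (fun a x => by rw [i3]) fun x _ => P x y
    rw [← mul_sum, ← sum_mul, s1] at this
    convert this using 1
    ring
  have k2 := orb_sum s i1 i2 (fun a x => by rw [i3]) k1
  rw [← mul_sum, s2, show (N : ℂ) * Q / Nat.card A * Q / Nat.card A =
    (q ^ n * m * (q + 1) ^ 2 * Q ^ 2 : ℕ) / (Nat.card A : ℕ) by
      rw [hN]; push_cast; field_simp] at k2
  have d := Char.nat_dvd_of_isIntegral_div (by omega) k2
  have c1 := cop.coprime_mul_right_right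
  have c2 := c1.coprime_mul_right_right
  have := Nat.Coprime.eq_one_of_dvd (((c2.coprime_mul_right_right.pow_right n).mul_right
    c2.coprime_mul_left_right).mul_right (c1.coprime_mul_left_right.pow_right 2) |>.mul_right
    (cop.coprime_mul_left_right.pow_right 2)) d
  omega

theorem odd_q : Odd q := by
  have := FiniteField.odd_card_of_char_ne_two (F := F) fun e =>
    S.two (by exact_mod_cast (ringChar.spec F 2).2 (e ▸ dvd_rfl))
  rw [← Nat.card_eq_fintype_card, hσ.card, ← Nat.odd_iff] at this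
  exact Nat.Odd.of_mul_left (sq q ▸ this)

theorem odd_t : Odd t := by
  obtain ⟨r, hr⟩ := S.odd_q
  obtain ⟨k, hk⟩ := S.odd
  obtain ⟨u, hu⟩ := sub_dvd_pow_sub_pow ((q : ℤ) ^ 2) 1 k
  have m : ((q : ℤ) + 1) * t = q ^ n + 1 := by exact_mod_cast S.mul
  have hr' : (q : ℤ) = 2 * r + 1 := by exact_mod_cast hr
  rw [← Int.odd_coe_nat]
  refine ⟨r * u * q, mul_left_cancel₀ (show (q : ℤ) + 1 ≠ 0 by omega) ?_⟩
  rw [m, hk, pow_succ, pow_mul]
  linear_combination q * hu + q * u * (q + 1) * hr'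

theorem not_all' {A : Subgroup G} (free : ∀ x ∈ A, ∀ v : V, v ≠ 0 → x.1 v = v → x = 1)
    (h1 : 1 < Nat.card A) {m : ℕ} (hm : Nat.card G = Nat.card A * m)
    (cop : Nat.Coprime (Nat.card A) (q * m * (q + 1) * (q ^ (n - 1) - 1)))
    (alpha : ∀ X : Subgroup G, X.Normal → A ≤ X → (sclG hZ).range ≤ X → X = ⊤)
    (h0 : IsIrrCharacter G (cp (sclG hZ) (th ρ hG) ω₀.1)) :
    ¬ ∀ ω, ω ≠ ω₀ → Spl A (cp (sclG hZ) (th ρ hG) ω.1) := by
  classical
  intro H
  choose l χ a1 a2 a3 using H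
  have L : ∀ ω hω, Ln ρ hG hZ ω (l ω hω) (χ ω hω) := fun ω hω => ⟨a2 ω hω, a3 ω hω⟩
  let K : Subgroup G := ⨅ (ω) (hω : ω ≠ ω₀), (l ω hω).ker
  have mK : ∀ {x}, x ∈ K ↔ ∀ ω hω, l ω hω x = 1 := by simp [K, Subgroup.mem_iInf]
  have Kn : K.Normal := ⟨fun x hx g => mK.2 fun ω hω =>
    (MonoidHom.normal_ker _).conj_mem _ (mK.1 hx ω hω) g⟩
  have Zc : (sclG hZ).range ≤ Subgroup.center G := by
    rintro _ ⟨c, rfl⟩; exact sclG_cen hZ c
  have Zn : (sclG hZ).range.Normal := ⟨fun x hx g => by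
    rwa [Subgroup.mem_center_iff.1 (Zc hx) g, mul_inv_cancel_right]⟩
  have top := alpha (K ⊔ (sclG hZ).range) inferInstance
    (le_sup_of_le_left fun x hx => mK.2 fun ω hω => a1 ω hω hx) le_sup_right
  have d1 : (sclG hZ).range.index ∣ Nat.card K := by
    rw [← Subgroup.relIndex_top_right, ← top, Subgroup.relIndex_sup_right]
    exact Subgroup.relIndex_dvd_card _ _
  have d2 : charDegree (cp (sclG hZ) (th ρ hG) ω₀.1) = t - 1 := Char.charDegree_eq_of_apply_one (by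
    rw [cp_th hσ, map_one, mul_one, S.trace_Pj, if_pos rfl,
      Nat.cast_sub (by have := S.two_le; omega), Nat.cast_one])
  have d3 : 2 ∣ Nat.card K := by
    refine Dvd.dvd.trans ?_ (((Char.Cfsg.IsIrrCharacter.charDegree_dvd_index_center h0).trans (Subgroup.index_dvd_of_le Zc)).trans d1)
    rw [d2]
    obtain ⟨k, hk⟩ := S.odd_t
    exact ⟨k, by omega⟩
  obtain ⟨x, hx⟩ := exists_prime_orderOf_dvd_card' 2 d3
  have x1 : x.1 ≠ 1 := fun e => by
    rw [show x = 1 from Subtype.ext e, orderOf_one] at hx; omega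
  have x2 : ∀ v, x.1.1 (x.1.1 v) = v := fun v => by
    have := pow_orderOf_eq_one x
    rw [hx, sq] at this
    exact congrArg (fun y : K => y.1.1 v) this
  obtain ⟨κ, hκ⟩ : ∃ κ, ∀ ω, ω ≠ ω₀ → cp (sclG hZ) (th ρ hG) ω.1 x = κ := by
    by_cases e : ∃ ω, ω ≠ ω₀
    · obtain ⟨ω₁, h₁⟩ := e
      refine ⟨cp (sclG hZ) (th ρ hG) ω₁.1 x, fun ω hω => ?_⟩
      have := S.twist_eq' hω h₁ (L ω hω) (L ω₁ h₁) free h1 hm cop x
      rw [mK.1 x.2, mK.1 x.2, inv_one, Units.val_one, mul_one, mul_one] at this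
      rw [a3 ω hω, a3 ω₁ h₁, mK.1 x.2, mK.1 x.2, this]
    · exact ⟨0, fun ω hω => (e ⟨ω, hω⟩).elim⟩
  have key : ∀ c : Mu q F, c ≠ 1 → ‖cp (sclG hZ) (th ρ hG) ω₀.1 x - κ‖ ^ 2 =
      Nat.card {v : V // ((c : Fˣ) : F) • x.1.1 v = v} := fun c hc => by
    have e1 := Char.sum_irr_mul_conj_of_not_isConj (G := Mu q F) (g := c) (h := 1)
      fun e => hc (isConj_one_left.1 e)
    simp only [vr_lin (G := Mu q F) mul_comm, map_one, mul_one] at e1
    have e2 : th ρ hG (sclG hZ c * x) = ω₀.1 c * (cp (sclG hZ) (th ρ hG) ω₀.1 x - κ) := by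
      rw [← sum_cp (ι := sclG hZ) (θ := th ρ hG), sum_congr rfl fun ω _ => cp_cen (sclG_cen hZ) ω c x,
        ← add_sum_erase _ _ (mem_univ ω₀), sum_congr rfl fun ω hω => by rw [hκ ω (ne_of_mem_erase hω)],
        ← sum_mul, sum_erase_eq_sub (mem_univ _), e1]
      ring
    have e3 : ‖ω₀.1 c‖ = 1 := by
      rw [CKS.irr_central_norm ω₀ (Subgroup.mem_center_iff.2 fun g => mul_comm _ _), vr_lin mul_comm,
        norm_one]
    have e4 : ‖th ρ hG (sclG hZ c * x)‖ ^ 2 = _ :=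
      S.wd.norm_sq S.herm (Subgroup.inclusion hG (sclG hZ c * x))
    rw [e2, norm_mul, e3, one_mul] at e4
    exact e4
  obtain ⟨c, hc⟩ : ∃ c : Mu q F, c ^ 2 ≠ 1 := by
    by_contra! e
    have := Monoid.exponent_dvd_of_forall_pow_eq_one e
    rw [IsCyclic.exponent_eq_card, S.card_mu] at this
    have := Nat.le_of_dvd two_pos this
    have := hσ.two_le
    omega
  have k1 := key c fun e => hc (by rw [e, one_pow])
  have k2 := key ⟨-1, (mem_rootsOfUnity _ _).2 S.odd_q.add_one.neg_one_pow⟩ fun e => S.two (by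
    have : (-1 : F) = 1 := congrArg (fun c : Mu q F => ((c : Fˣ) : F)) e
    linear_combination -this)
  rw [k1, Nat.cast_inj, Nat.card_eq_one_iff_exists.2 ⟨⟨0, by simp⟩, fun v => Subtype.ext ?_⟩] at k2
  · obtain ⟨v, hv⟩ : ∃ v, x.1.1 v ≠ v := by
      by_contra! e
      exact x1 (Subtype.ext (LinearEquiv.ext e))
    have := (Nat.card_eq_one_iff_unique.1 k2.symm).1.elim ⟨0, by simp⟩ ⟨v - x.1.1 v, by simp [x2]⟩
    exact hv (sub_eq_zero.1 (congrArg Subtype.val this).symm).symm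
  · have e := congrArg x.1.1 v.2
    rw [map_smul, x2] at e
    have e2 := v.2
    rw [← e, smul_smul] at e2
    have : (((c ^ 2 : Mu q F) : Fˣ) : F) - 1 ≠ 0 := sub_ne_zero.2 (scl_fix hc)
    refine (smul_eq_zero.1 ?_).resolve_left this
    rw [sub_smul, one_smul, sq]
    exact sub_eq_zero.2 e2

end WS

end Cfsg.Lib.US7
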