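import Cfsg.Agent.Lib.US7.L2
import Cfsg.Agent.Lib.US7.L3a
import Cfsg.Agent.Lib.US7.L3n

/-! # No invariant lines: the orbits are those of the unitary group -/

set_option autoImplicit false
set_option linter.unusedSectionVars false

namespace Cfsg.Lib.US7

open Module Cfsg.Lib.Unitary Cfsg.Lib.Char LinearMap ComplexConjugate Finset

variable {F V : Type*} [Field F] [Fintype F] [AddCommGroup V] [Module F V] [Fintype V] {σ : F →+* F}
  {B : V →ₛₗ[σ] V →ₗ[F] F} {ε : AddChar F ℂ} {W : Type*} [AddCommGroup W] [Module ℂ W]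
  [FiniteDimensional ℂ W] {h : V → End ℂ W} {ρ : UG B →* End ℂ W} {q n t : ℕ}
  {G : Subgroup (V ≃ₗ[F] V)}

namespace WS

variable {hσ : IsBar q σ} {ω₀ ω ω' : IrrCharacter (Mu q F)} (S : WS q n t hσ B ε h ρ ω₀) [Fintype G]
  {hG : G ≤ UG B} {hZ : ∀ c, scl q F V c ∈ G} {l l' : G →* ℂˣ} {χ χ' : IrrCharacter G}
include S

/-- `φ v = trace (Ev h v)` is constant on the non-zero isotropic vectors (`Ev_inv`), equal to
`1 / (q^n + 1)` (`sum_iso`, `card_iso`); `mass` gives `1 + (q^(n-1) - 1)/(q^n + 1) = q^(n-1)`. -/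
theorem not_trC_zero (hω : ω ≠ ω₀) (L : Ln ρ hG hZ ω l χ) : ¬ TrC B G 0 := by
  classical
  intro T
  have hE := (L.Pj_Ev hσ).2
  have E1 := L.trace_Ev hσ
  have q2 := hσ.two_le
  have n3 := S.three
  have Q1 : 1 < q ^ (n - 1) := Nat.one_lt_pow (by omega) (by omega)
  set I : Finset V := {v : V | v ≠ 0 ∧ B v v = 0} with hI
  have cI : #I = (q ^ n + 1) * (q ^ (n - 1) - 1) := by rw [← S.card_iso]
  obtain ⟨u, hu⟩ : I.Nonempty := card_pos.1 (by rw [cI]; exact Nat.mul_pos (by omega) (by omega))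
  set κ := trace ℂ W (Ev ρ hG l * h u) with hκ
  have cst : ∀ v ∈ I, trace ℂ W (Ev ρ hG l * h v) = κ := fun v hv => by
    obtain ⟨g, hg, rfl⟩ := T u v (mem_filter.1 hu).2.1 (mem_filter.1 hv).2.1 (mem_filter.1 hu).2.2
      (mem_filter.1 hv).2.2
    exact Ev_inv S.wd l hg u
  have neg : ∀ v ∈ I, -v ∈ I := fun v hv => mem_filter.2 ⟨mem_univ _, neg_ne_zero.2 (mem_filter.1 hv).2.1,
    by simp [(mem_filter.1 hv).2.2]⟩
  have s1 := S.sum_iso hω hE E1
  have s2 := (S.mass (Ev_idem l) E1).2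
  have e : ({v | B v v = 0} : Finset V) = insert 0 I := by
    ext v
    by_cases h : v = 0 <;> simp [hI, h]
  rw [e, sum_insert (by simp [hI]), neg_zero, S.wd.zero, mul_one, E1,
    sum_congr rfl fun v hv => by rw [cst v hv, cst _ (neg v hv)], sum_const, cI] at s2
  rw [← hI, sum_congr rfl cst, sum_const, cI] at s1
  simp only [nsmul_eq_mul, Nat.cast_mul, Nat.cast_sub Q1.le] at s1 s2
  push_cast at s1 s2
  have Q0 : (q : ℂ) ^ (n - 1) - 1 ≠ 0 := sub_ne_zero.2 (by exact_mod_cast Q1.ne')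
  have k1 : ((q : ℂ) ^ n + 1) * κ = 1 := mul_left_cancel₀ Q0 (by linear_combination s1)
  have k2 : κ = 1 := mul_left_cancel₀ Q0 (by linear_combination s2 - κ * s1)
  rw [k2, mul_one, add_eq_right] at k1
  exact pow_ne_zero n (Nat.cast_ne_zero.2 (by omega)) k1

/-- `φ` is constant on each norm class `c ≠ 0`, so `‖φ‖ ≤ 1 / t` there (`class_sum`, `norm_Pj`);
`mass` gives `q^n - q^(n-1) ≤ q^(2n) / t²`, false as `(q+1) t > q^n`, `q ≥ 3`, `n ≥ 3`... if the
estimate is too weak for `n = 3` use `hn`. -/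
theorem not_trC_one (hn : 7 ≤ n) (hω : ω ≠ ω₀) (L : Ln ρ hG hZ ω l χ) : ¬ TrC B G 1 := by
  classical
  intro T
  have hE := (L.Pj_Ev hσ).2
  have E1 := L.trace_Ev hσ
  have q2 := hσ.two_le
  have t2 := S.two_le
  have bd : ∀ v, B v v ≠ 0 → (t : ℝ) * ‖trace ℂ W (Ev ρ hG l * h v)‖ ≤ 1 := by
    intro v hv
    have v0 : v ≠ 0 := fun e => hv (by simp [e])
    have T' := (trC_iff (G := G) hσ S.herm hv (S.herm.self_fixed v)).2 T
    have s1 := S.class_sum hω hE E1 (B v v)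
    set I : Finset V := {u : V | u ≠ 0 ∧ B u u = B v v} with hI
    have cst : ∀ u ∈ I, trace ℂ W (Ev ρ hG l * h u) = trace ℂ W (Ev ρ hG l * h v) := fun u hu => by
      obtain ⟨g, hg, rfl⟩ := T' v u v0 (mem_filter.1 hu).2.1 rfl (mem_filter.1 hu).2.2
      exact Ev_inv S.wd l hg v
    rw [sum_congr rfl cst, sum_const, nsmul_eq_mul] at s1
    have s2 := congrArg norm s1
    have s3 : ‖∑ u ∈ I, trace ℂ W (Pj hσ ρ ω.1 * h u)‖ ≤ #I :=
      (norm_sum_le _ _).trans ((sum_le_card_nsmul _ _ 1 fun u hu =>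
        S.norm_Pj ω (mem_filter.1 hu).2.1).trans (by simp))
    have I0 : (0 : ℝ) < #I := Nat.cast_pos.2 (card_pos.2 ⟨v, mem_filter.2 ⟨mem_univ _, v0, rfl⟩⟩)
    rw [← s2, norm_mul, norm_mul, Complex.norm_natCast, Complex.norm_natCast] at s3
    refine le_of_mul_le_mul_left ?_ I0
    linarith
  obtain ⟨m1, m2⟩ := S.mass (Ev_idem (ρ := ρ) (hG := hG) l) E1
  rw [← sum_filter_add_sum_filter_not univ (fun v => B v v = 0), m2] at m1
  have m3 : ∑ v with ¬ B v v = 0, trace ℂ W (Ev ρ hG l * h v) * trace ℂ W (Ev ρ hG l * h (-v)) =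
      ((q ^ n - q ^ (n - 1) : ℝ) : ℂ) := by
    push_cast
    linear_combination m1
  have t0 : (0 : ℝ) < t := Nat.cast_pos.2 (by omega)
  have m4 : (t : ℝ) ^ 2 * (q ^ n - q ^ (n - 1)) ≤ (q ^ n) ^ 2 := by
    have a1 : (q ^ n - q ^ (n - 1) : ℝ) ≤ ∑ v with ¬ B v v = 0,
        ‖trace ℂ W (Ev ρ hG l * h v) * trace ℂ W (Ev ρ hG l * h (-v))‖ := by
      refine le_trans ?_ (norm_sum_le _ _)
      rw [m3, Complex.norm_real]
      exact le_abs_self _
    have cV : (Fintype.card V : ℝ) = (q ^ n) ^ 2 := by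
      rw [← Nat.card_eq_fintype_card, ← S.wd.dim, S.dim]
      push_cast
      rfl
    refine (mul_le_mul_of_nonneg_left a1 (by positivity)).trans ?_
    rw [mul_sum, ← cV]
    refine (sum_le_card_nsmul _ _ 1 fun v hv => ?_).trans ?_
    · have b1 := bd v (mem_filter.1 hv).2
      have b2 := bd (-v) (by simpa using (mem_filter.1 hv).2)
      rw [norm_mul]
      calc _ = (t * ‖trace ℂ W (Ev ρ hG l * h v)‖) * (t * ‖trace ℂ W (Ev ρ hG l * h (-v))‖) := by ring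
        _ ≤ 1 := mul_le_one₀ b1 (by positivity) b2
    · rw [nsmul_eq_mul, mul_one]
      exact Nat.cast_le.2 (card_le_univ _)
  obtain ⟨k, rfl⟩ : ∃ k, n = k + 7 := ⟨n - 7, by omega⟩
  have mm : ((q : ℝ) + 1) * t = q ^ (k + 7) + 1 := by exact_mod_cast S.mul
  have q2' : (2 : ℝ) ≤ q := by exact_mod_cast q2
  rw [show k + 7 - 1 = k + 6 from rfl] at m4
  have c1 : ((q : ℝ) + 1) ^ 2 ≤ q ^ (k + 7) - q ^ (k + 6) := by
    have d1 : (1 : ℝ) ≤ q ^ k := one_le_pow₀ (by linarith)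
    have d2 : ((q : ℝ) + 1) ^ 2 ≤ (q ^ 2) ^ 2 := pow_le_pow_left₀ (by linarith) (by nlinarith) 2
    have d3 : ((q : ℝ) ^ 2) ^ 2 ≤ q ^ (k + 6) := by
      rw [← pow_mul]
      exact pow_le_pow_right₀ (by linarith) (by omega)
    have d4 : (0 : ℝ) ≤ q ^ (k + 6) := by positivity
    rw [pow_succ _ (k + 6)]
    nlinarith
  have c2 : (t : ℝ) ^ 2 * (q + 1) ^ 2 ≤ (q ^ (k + 7)) ^ 2 :=
    (mul_le_mul_of_nonneg_left c1 (by positivity)).trans m4
  have c3 : (0 : ℝ) ≤ q ^ (k + 7) := by positivity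
  rw [← mul_pow, mul_comm, mm] at c2
  nlinarith

/-- Otherwise `pair` applies.  `A` acts freely on the non-zero isotropic vectors and `φ` is constant
on orbits, so `Q = q^(n-1) - 1 = ∑ φ = |A| ∑_(reps) φ`, likewise for `φ'`; hence
`q^n |G| (q+1)² Q² / |A|²` is an algebraic integer, so an integer; `|G| = |A| m` and `|A|` is prime to
`q^n m (q+1)² Q²`. -/
theorem twist_eq (hω : ω ≠ ω₀) (hω' : ω' ≠ ω₀) (L : Ln ρ hG hZ ω l χ) (L' : Ln ρ hG hZ ω' l' χ')
    {A : Subgroup G} (free : ∀ x ∈ A, ∀ v : V, v ≠ 0 → x.1 v = v → x = 1) (h1 : 1 < Nat.card A)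
    {m : ℕ} (hm : Nat.card G = Nat.card A * m)
    (cop : Nat.Coprime (Nat.card A) (q * m * (q + 1) * (q ^ (n - 1) - 1))) (g : G) :
    χ.1 g * ((l g)⁻¹ : ℂˣ) = χ'.1 g * ((l' g)⁻¹ : ℂˣ) :=
  S.twist_eq' hω hω' L L' free h1 hm cop g

/-- Not all `ω ≠ ω₀` split.  Else let `K = ⨅ ker l_ω`, normal, `A ≤ K`, `K ⊔ Z = ⊤` (`alpha`),
`K ⊓ Z = ⊥` (`Ln.cen`: the `ω` with `ω c = 1` form at most half of the `q + 1 ≥ 4` characters).  The
even degree `t - 1` of `cp ω₀` divides the index of the centre (`charDegree_dvd_index_center`), which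
divides `|G : Z| = |K|`; take an involution `g ∈ K`.  By `twist_eq`, `cp ω g = κ` for all `ω ≠ ω₀`, so
`θ (c g) = ∑ ω c * cp ω g = ω₀ c (cp ω₀ g - κ)` for `c ≠ 1` (`sum_cp`, `cp_cen`): `‖θ (c g)‖` does not
depend on `c ≠ 1`.  But `‖θ (c g)‖² = |Fix (c g)|` (`norm_sq`) is `> 1` for `c = -1` and `1` for
`c² ≠ 1`. -/
theorem not_all {A : Subgroup G} (free : ∀ x ∈ A, ∀ v : V, v ≠ 0 → x.1 v = v → x = 1)
    (h1 : 1 < Nat.card A) {m : ℕ} (hm : Nat.card G = Nat.card A * m)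
    (cop : Nat.Coprime (Nat.card A) (q * m * (q + 1) * (q ^ (n - 1) - 1)))
    (alpha : ∀ X : Subgroup G, X.Normal → A ≤ X → (sclG hZ).range ≤ X → X = ⊤)
    (h0 : IsIrrCharacter G (cp (sclG hZ) (th ρ hG) ω₀.1)) :
    ¬ ∀ ω, ω ≠ ω₀ → Spl A (cp (sclG hZ) (th ρ hG) ω.1) :=
  S.not_all' free h1 hm cop alpha h0

/-- The number of orbits is `∑_ω ⟨cp ω, cp ω⟩ = q + 1 + #{split ω}` (`inner_th`, `inner_sum_cp`).  If some
`ω` splits, `le_card_orb` makes all `q` characters `ω ≠ ω₀` split, against `not_all`; `tr_of_card`. -/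
theorem tr (hn : 7 ≤ n) {A : Subgroup G} (free : ∀ x ∈ A, ∀ v : V, v ≠ 0 → x.1 v = v → x = 1)
    (h1 : 1 < Nat.card A) {m : ℕ} (hm : Nat.card G = Nat.card A * m)
    (cop : Nat.Coprime (Nat.card A) (q * m * (q + 1) * (q ^ (n - 1) - 1)))
    (alpha : ∀ X : Subgroup G, X.Normal → A ≤ X → (sclG hZ).range ≤ X → X = ⊤)
    (h0 : IsIrrCharacter G (cp (sclG hZ) (th ρ hG) ω₀.1))
    (hs : ∀ ω, ω ≠ ω₀ → IsIrrCharacter G (cp (sclG hZ) (th ρ hG) ω.1) ∨
      Spl A (cp (sclG hZ) (th ρ hG) ω.1)) : Tr B G := by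
  classical
  have e := inner_sum_cp (sclG_cen hZ) (th_char (ρ := ρ) hG).isClassFunction
  rw [S.wd.inner_th S.herm] at e
  have cω : Fintype.card (IrrCharacter (Mu q F)) = q + 1 := by rw [vr_card mul_comm, S.card_mu]
  have two : ∀ ω, Spl A (cp (sclG hZ) (th ρ hG) ω) →
      classInner (cp (sclG hZ) (th ρ hG) ω) (cp (sclG hZ) (th ρ hG) ω) = 2 := by
    rintro ω ⟨l, χ, -, ne, eq⟩
    have ne' : χ.1 ≠ fun g => (l g : ℂ) := fun e => ne (by simp [e])
    rw [show cp (sclG hZ) (th ρ hG) ω = (fun g => (l g : ℂ)) + χ.1 from funext eq, classInner_add_left,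
      classInner_add_right, classInner_add_right, (isIrrCharacter_hom l).inner_self, χ.2.inner_self,
      χ.2.inner_eq_zero_of_ne (isIrrCharacter_hom l) ne',
      (isIrrCharacter_hom l).inner_eq_zero_of_ne χ.2 ne'.symm]
    norm_num
  let P : IrrCharacter (Mu q F) → Prop := fun ω => IsIrrCharacter G (cp (sclG hZ) (th ρ hG) ω.1)
  have e2 : Nat.card (MulAction.orbitRel.Quotient G V) + #{ω | P ω} = 2 * (q + 1) := by
    have : ∀ ω : IrrCharacter (Mu q F), classInner (cp (sclG hZ) (th ρ hG) ω.1)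
        (cp (sclG hZ) (th ρ hG) ω.1) = 2 - if P ω then 1 else 0 := by
      intro ω
      split_ifs with hP
      · rw [(show IsIrrCharacter G _ from hP).inner_self]
        norm_num
      · rw [sub_zero]
        exact two _ ((hs ω fun e => hP (e ▸ h0)).resolve_left hP)
    simp only [this, sum_sub_distrib, sum_const, card_univ, cω, sum_boole, nsmul_eq_mul] at e
    have e' : ((Nat.card (MulAction.orbitRel.Quotient G V) + #{ω | P ω} : ℕ) : ℂ) =
        ((2 * (q + 1) : ℕ) : ℂ) := by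
      push_cast at e ⊢
      linear_combination e
    exact_mod_cast e'
  by_cases hall : ∀ ω, P ω
  · refine tr_of_card hσ S.herm (by rw [S.rank]; omega) hG ?_
    rw [filter_true_of_mem fun ω _ => hall ω, card_univ, cω] at e2
    omega
  · exfalso
    push Not at hall
    obtain ⟨ω, hω⟩ := hall
    have ne : ω ≠ ω₀ := fun e => hω (e ▸ h0)
    obtain ⟨l, χ, -, h2, h3⟩ := (hs ω ne).resolve_left hω
    have k := le_card_orb hσ S.herm hG (S.not_trC_zero ne ⟨h2, h3⟩) (S.not_trC_one hn ne ⟨h2, h3⟩)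
    refine S.not_all free h1 hm cop alpha h0 fun ω' ne' => (hs ω' ne').resolve_left fun hP => ?_
    have : #({ω', ω₀} : Finset _) ≤ #{ω | P ω} := card_le_card fun x hx => by
      rcases mem_insert.1 hx with rfl | hx
      · exact mem_filter.2 ⟨mem_univ _, hP⟩
      · exact mem_filter.2 ⟨mem_univ _, mem_singleton.1 hx ▸ h0⟩
    rw [card_pair ne'] at this
    omega

end WS

end Cfsg.Lib.US7
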