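import Cfsg.Agent.Lib.US7.Num

/-! # The field model: basic properties (port of `CK/SH`, `CK/SI`) -/

set_option autoImplicit false
set_option linter.unusedSectionVars false

namespace Cfsg.Lib.US7

open Module Cfsg.Lib.Unitary Cfsg.Lib.CKS

variable {F K : Type*} [Field F] [Fintype F] [Field K] [Fintype K] [Algebra F K] {σ : F →+* F}
  {q n d τ : ℕ} {s : K →+* K} {B : K →ₛₗ[σ] K →ₗ[F] F}

variable (F K) in
/-- the Frobenius map of `K / F` -/
noncomputable def fr : K ≃ₗ[F] K := (FiniteField.frobeniusAlgEquivOfAlgebraic F K).toLinearEquiv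

theorem mu_inj : Function.Injective (mu F K) := fun u w e =>
  Units.ext (by simpa using LinearEquiv.congr_fun e 1)

theorem mu_mem_Sc {a : ℕ} {u : Kˣ} : mu F K u ∈ Sc F K a ↔ u ^ a = 1 := Subgroup.mem_map_iff_mem mu_inj

theorem md_conj {g : K ≃ₗ[F] K} {b : K} {m : ℕ} (hg : ∀ v, g v = b * v ^ m) (u : Kˣ) :
    g * mu F K u * g⁻¹ = mu F K (u ^ m) := mul_inv_eq_of_eq_mul (LinearEquiv.ext fun v => by
  simp only [LinearEquiv.mul_apply, mu_apply, hg, mul_pow, Units.val_pow_eq_pow_val, mul_left_comm])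

theorem md_fin : Finite (K ≃ₗ[F] K) := DFunLike.finite _

theorem md_card {X : Type*} [Group X] (G H : Subgroup X) : Nat.card (H.subgroupOf G) = Nat.card ↥(G ⊓ H) := by
  rw [← Subgroup.inf_subgroupOf_left]
  exact Nat.card_congr (Subgroup.subgroupOfEquivOfLe inf_le_left).toEquiv

theorem Sc_mono {a b : ℕ} (h : a ∣ b) : Sc F K a ≤ Sc F K b := by
  rintro _ ⟨u, hu, rfl⟩
  obtain ⟨c, rfl⟩ := h
  exact mu_mem_Sc.2 (by rw [pow_mul, show u ^ a = 1 from hu, one_pow])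

theorem Sc_comm {a b : ℕ} {x y : K ≃ₗ[F] K} (hx : x ∈ Sc F K a) (hy : y ∈ Sc F K b) :
    x * y = y * x := by
  obtain ⟨u, -, rfl⟩ := hx
  obtain ⟨w, -, rfl⟩ := hy
  rw [← map_mul, mul_comm, map_mul]

theorem pow_of_mem_Sc {a : ℕ} {x : K ≃ₗ[F] K} (hx : x ∈ Sc F K a) : x ^ a = 1 := by
  obtain ⟨u, hu, rfl⟩ := hx
  rw [← map_pow, show u ^ a = 1 from hu, map_one]

theorem eq_one_of_mem_Sc {a : ℕ} {x : K ≃ₗ[F] K} (hx : x ∈ Sc F K a) {v : K} (v0 : v ≠ 0)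
    (h : x v = v) : x = 1 := by
  obtain ⟨u, -, rfl⟩ := hx
  rw [mu_apply, mul_left_eq_self₀, or_iff_left v0, Units.val_eq_one] at h
  rw [h, map_one]

theorem card_Sc {a : ℕ} (h : a ∣ Fintype.card K - 1) : Nat.card (Sc F K a) = a := by
  rw [Sc, Subgroup.card_map_of_injective mu_inj, IsCyclic.card_powMonoidHom_ker, Nat.card_units,
    Nat.card_eq_fintype_card, Nat.gcd_eq_right h]

theorem Sc_le_Nn (a : ℕ) : Sc F K a ≤ Nn F K := by
  exact (Subgroup.map_le_range _ _).trans Subgroup.le_normalizer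

namespace Md

variable (h : Md q n d τ s B)
include h

theorem cardF : Fintype.card F = q ^ 2 := by
  rw [← Nat.card_eq_fintype_card, h.bar.card]

theorem cardK : Fintype.card K = q ^ (2 * n) := by
  rw [← Nat.card_eq_fintype_card, h.barK.card, ← pow_mul, mul_comm]

theorem fr_apply (v : K) : fr F K v = v ^ q ^ 2 := by
  rw [← h.cardF]; rfl

theorem fr_pow (j : ℕ) (v : K) : (fr F K ^ j) v = v ^ (q ^ 2) ^ j := by
  induction j with
  | zero => simp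
  | succ j ih => rw [pow_succ', LinearEquiv.mul_apply, ih, h.fr_apply, ← pow_mul, ← pow_succ]

/-- `c ^ q ^ n = c ^ q` as `n` is odd -/
theorem s_alg (c : F) : s (algebraMap F K c) = algebraMap F K (σ c) := by
  obtain ⟨k, hk⟩ := h.odd
  rw [h.barK.eq, h.bar.eq, ← map_pow, hk, pow_succ, pow_mul q, pow_mul c, ← h.cardF, FiniteField.pow_card_pow]

/-- `algebraMap (trace y) = ∑ y ^ (q²)^i` -/
theorem trace_s (y : K) : Algebra.trace F K (s y) = σ (Algebra.trace F K y) := by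
  rw [Algebra.trace_eq_of_equiv_equiv (.ofBijective σ h.bar.bijective) (.ofBijective s h.barK.bijective)
    (RingHom.ext fun c => (h.s_alg c).symm) y]
  exact ((RingEquiv.ofBijective σ h.bar.bijective).apply_symm_apply _).symm

theorem herm : IsHerm σ B := by
  refine ⟨h.bar.ne_id, h.bar.invol, fun u v => ?_, fun a ha => ?_⟩
  · rw [h.form, h.form, ← h.trace_s, map_mul, h.barK.invol, mul_comm]
  · exact (map_eq_zero s).1 ((traceForm_nondegenerate F K).1 _ fun v => (h.form a v).symm.trans (ha v))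

theorem fr_mem : fr F K ∈ UG B := by
  intro u v
  rw [h.form, h.form, ← Algebra.trace_eq_of_algEquiv (FiniteField.frobeniusAlgEquivOfAlgebraic F K) (s u * v),
    h.barK.eq, h.barK.eq, map_mul (FiniteField.frobeniusAlgEquivOfAlgebraic F K),
    map_pow (FiniteField.frobeniusAlgEquivOfAlgebraic F K)]
  rfl

theorem Sc_le_UG : Sc F K (q ^ n + 1) ≤ UG B := by
  rintro _ ⟨u, hu, rfl⟩ x y
  have : (u : K) * s u = 1 := by
    rw [h.barK.norm_eq, ← Units.val_pow_eq_pow_val, show u ^ (q ^ n + 1) = 1 from hu, Units.val_one]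
  rw [h.form, h.form, mu_apply, mu_apply, map_mul s, mul_mul_mul_comm, mul_comm (s u), this, one_mul]

theorem semi {g : K ≃ₗ[F] K} {u w : Kˣ} (hu : ∀ c, algebraMap F K c ≠ u) (e : g * mu F K u * g⁻¹ = mu F K w) :
    ∃ j, ∀ v, g v = g 1 * v ^ (q ^ 2) ^ j := by
  rw [← h.cardF]
  exact semi_of_conj (h.rank ▸ h.prime) (g : K →ₗ[F] K) (by simp) hu (u' := w)
    (LinearEquiv.congr_fun (eq_mul_of_mul_inv_eq e))

/-- `semi_of_conj` with a generator of `Kˣ` -/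
theorem mem_Nn {g : K ≃ₗ[F] K} : g ∈ Nn F K ↔ ∃ (b : K) (j : ℕ), ∀ v, g v = b * v ^ (q ^ 2) ^ j := by
  have := md_fin (F := F) (K := K)
  refine ⟨fun hg => ?_, fun ⟨b, j, hb⟩ => Subgroup.mem_normalizer_fintype ?_⟩
  · obtain ⟨u, hu⟩ : ∃ u : K, ∀ c, algebraMap F K c ≠ u := by
      by_contra! e
      have l := Fintype.card_le_of_surjective _ e
      rw [h.cardF, h.cardK, Nat.pow_le_pow_iff_right h.two] at l
      have := h.seven
      omega
    obtain ⟨w, hw⟩ := (hg _).1 ⟨Units.mk0 u fun e => hu 0 (by rw [e, map_zero]), rfl⟩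
    exact ⟨_, h.semi hu hw.symm⟩
  · rintro _ ⟨u, rfl⟩
    exact ⟨_, (md_conj hb u).symm⟩

theorem frob {k : ℕ} : (∀ v : K, v ^ (q ^ 2) ^ k = v) ↔ n ∣ k := by
  rw [← h.cardF, ← h.rank]; exact frob_iff

theorem fr_eq_one {k : ℕ} : fr F K ^ k = 1 ↔ n ∣ k := by
  rw [← h.frob, LinearEquiv.ext_iff]
  exact forall_congr' fun v => by rw [h.fr_pow]; rfl

theorem range_scl : (scl q F K).range = Sc F K (q + 1) := by
  ext g
  constructor
  · rintro ⟨c, rfl⟩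
    exact mem_Sc.2 ⟨Units.map (algebraMap F K : F →* K) c, by rw [← map_pow, c.2, map_one],
      fun v => Algebra.smul_def _ _⟩
  rintro ⟨u, hu, rfl⟩
  have e : (u : K) ^ (q + 1) = 1 := by rw [← Units.val_pow_eq_pow_val, show u ^ (q + 1) = 1 from hu, Units.val_one]
  obtain ⟨c, hc⟩ := mem_of_pow (F := F) (u := (u : K)) (by
    rw [← Nat.sub_add_cancel (Fintype.card_pos (α := F)), ← Nat.card_eq_fintype_card, h.bar.card_sub_one, pow_succ,
      pow_mul', e, one_pow, one_mul])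
  exact ⟨rootsOfUnity.mkOfPowEq c ((algebraMap F K).injective (by rw [map_pow, hc, e, map_one])),
    LinearEquiv.ext fun v => (Algebra.smul_def c v).trans (congrArg (· * v) hc)⟩

theorem scl_inj : Function.Injective (scl q F K) := by
  exact fun c c' e => Subtype.ext (Units.ext (smul_left_injective F (one_ne_zero (α := K)) (LinearEquiv.congr_fun e 1)))

theorem dvdT : q ^ n + 1 ∣ Fintype.card K - 1 := by
  rw [← Nat.card_eq_fintype_card, h.barK.card_sub_one]; exact dvd_mul_left _ _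

theorem dvdAZ : τ * (q + 1) ∣ q ^ n + 1 := ⟨d, by rw [← h.mul]; ring⟩

theorem copZ : Nat.Coprime τ (q + 1) :=
  h.cop.1.coprime_dvd_right (by rw [← h.bar.card, h.bar.card_sub_one]; exact dvd_mul_left _ _)

theorem card_mu : Nat.card (Mu q F) = q + 1 := by
  rw [Nat.card_congr (MonoidHom.ofInjective h.scl_inj).toEquiv, h.range_scl,
    card_Sc ((dvd_mul_left _ _).trans (h.dvdAZ.trans h.dvdT))]

theorem card_A : Nat.card (Sc F K τ) = τ := by
  exact card_Sc ((dvd_mul_right _ _).trans (h.dvdAZ.trans h.dvdT))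

theorem card_AZ : Nat.card (Sc F K (τ * (q + 1))) = τ * (q + 1) := by
  exact card_Sc (h.dvdAZ.trans h.dvdT)

theorem card_T : Nat.card (Sc F K (q ^ n + 1)) = q ^ n + 1 := by
  exact card_Sc h.dvdT

theorem split {y : K ≃ₗ[F] K} (hy : y ∈ Sc F K (τ * (q + 1))) :
    ∃ c, ∃ x ∈ Sc F K τ, scl q F K c * x = y := by
  obtain ⟨u, hu, rfl⟩ := hy
  replace hu : u ^ (τ * (q + 1)) = 1 := hu
  obtain ⟨i, j, e⟩ : ∃ i j : ℤ, τ * i + (q + 1 : ℕ) * j = 1 :=
    ⟨_, _, by rw [← Nat.gcd_eq_gcd_ab, h.copZ.gcd_eq_one, Nat.cast_one]⟩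
  have key : ∀ (a b : ℕ) (i : ℤ), u ^ (a * b) = 1 → mu F K (u ^ (a * i)) ∈ Sc F K b := fun a b i e1 => by
    rw [mu_mem_Sc, ← zpow_natCast, ← zpow_mul, mul_right_comm, zpow_mul, ← Nat.cast_mul, zpow_natCast, e1, one_zpow]
  obtain ⟨c, hc⟩ := h.range_scl.ge (key _ _ i hu)
  exact ⟨c, _, key _ _ j (mul_comm τ _ ▸ hu), by rw [hc, ← map_mul, ← zpow_add, e, zpow_one]⟩

theorem notF {u : Kˣ} (hz : mu F K u ^ (q ^ 2 - 1) ≠ 1) (c : F) : algebraMap F K c ≠ u := fun e => hz (by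
  rw [← map_pow, map_eq_one_iff _ mu_inj, ← Units.val_eq_one, Units.val_pow_eq_pow_val, ← e, ← map_pow, ← h.cardF,
    FiniteField.pow_card_sub_one_eq_one c fun e' => u.ne_zero (by rw [← e, e', map_zero]), map_one])

theorem A_pow {x : K ≃ₗ[F] K} (hx : x ∈ Sc F K τ) (x1 : x ≠ 1) : x ^ (q ^ 2 - 1) ≠ 1 := fun e =>
  x1 ((pow_eq_one_iff_of_coprime h.cop.1).1 ⟨pow_of_mem_Sc hx, e⟩)

theorem scl_pow (c : Mu q F) : scl q F K c ^ (q ^ 2 - 1) = 1 := by
  rw [← h.bar.card, h.bar.card_sub_one, pow_mul', pow_of_mem_Sc (h.range_scl.le ⟨c, rfl⟩), one_pow]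

/-- a multiplication `y` by an element outside `F` (here: `y ^ (q² - 1) ≠ 1`) generates `K` -/
theorem ti {g y : K ≃ₗ[F] K} {a b : ℕ} (hy : y ∈ Sc F K a) (hz : y ^ (q ^ 2 - 1) ≠ 1)
    (hg : g * y * g⁻¹ ∈ Sc F K b) : g ∈ Nn F K := by
  obtain ⟨u, -, rfl⟩ := hy
  obtain ⟨w, -, e⟩ := hg
  exact h.mem_Nn.2 ⟨_, h.semi (h.notF hz) e.symm⟩

/-- `g` is semilinear, `g 1 * u ^ (q²)^j = u * g 1` with `u ∉ F` gives `n ∣ j` -/
theorem cent {g y : K ≃ₗ[F] K} {a : ℕ} (hy : y ∈ Sc F K a) (hz : y ^ (q ^ 2 - 1) ≠ 1)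
    (hg : g * y = y * g) : ∃ u, g = mu F K u := by
  obtain ⟨u, -, rfl⟩ := hy
  let S : Subalgebra F K :=
    { carrier := {k | ∀ v, g (k * v) = k * g v}
      mul_mem' := fun ha hb v => by rw [mul_assoc, ha, hb, mul_assoc]
      add_mem' := fun ha hb v => by rw [add_mul, map_add, ha, hb, add_mul]
      algebraMap_mem' := fun c v => by simp [← Algebra.smul_def] }
  have hS : S = ⊤ := ((Subalgebra.isSimpleOrder_of_finrank_prime F K (h.rank ▸ h.prime)).eq_bot_or_eq_top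
    S).resolve_left fun e => by
      have : (u : K) ∈ S := LinearEquiv.congr_fun hg
      rw [e, Algebra.mem_bot] at this
      exact this.elim (h.notF hz)
  refine ⟨Units.mk0 (g 1) (by simp), LinearEquiv.ext fun v => ?_⟩
  have := (hS.ge Algebra.mem_top : v ∈ S) 1
  rwa [mul_one, mul_comm] at this

variable {G : Subgroup (K ≃ₗ[F] K)} (O : Ov q τ B G)
include O

theorem scl_mem (c : Mu q F) : scl q F K c ∈ G := by
  exact O.sc (Sc_mono (dvd_mul_left _ _) (h.range_scl.le ⟨c, rfl⟩))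

theorem A_le : Sc F K τ ≤ G := by
  exact (Sc_mono (dvd_mul_right _ _)).trans O.sc

theorem mu_mem {u : Kˣ} (hu : mu F K u ∈ G) : mu F K u ∈ Sc F K (τ * (q + 1)) := by
  exact mu_mem_Sc.2 (Units.ext (by simpa using O.nrm _ hu u 0 (by simp)))

theorem nn_split {g : K ≃ₗ[F] K} (hg : g ∈ G ⊓ Nn F K) :
    ∃ x ∈ Sc F K (τ * (q + 1)), ∃ j : ℕ, fr F K ^ j ∈ G ∧ x * fr F K ^ j = g := by
  obtain ⟨b, j, hb⟩ := h.mem_Nn.1 hg.2
  have b0 : b ≠ 0 := fun e => by simpa [e] using hb 1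
  have m : mu F K (Units.mk0 b b0) ∈ Sc F K (τ * (q + 1)) := mu_mem_Sc.2 (Units.ext (by simpa using O.nrm _ hg.1 b j hb))
  have e : mu F K (Units.mk0 b b0) * fr F K ^ j = g := LinearEquiv.ext fun v => by
    rw [LinearEquiv.mul_apply, h.fr_pow, hb]; rfl
  exact ⟨_, m, j, (G.mul_mem_cancel_left (O.sc m)).1 (e ▸ hg.1), e⟩

theorem card_Nn : Nat.card ↥(G ⊓ Nn F K) ≤ n * τ * (q + 1) ∧
    Nat.card ↥(G ⊓ Nn F K) ∣ n * τ * (q + 1) := by
  have := md_fin (F := F) (K := K)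
  have hN : ∀ j : ℕ, fr F K ^ j ∈ Nn F K := fun j => h.mem_Nn.2 ⟨1, j, fun v => by rw [h.fr_pow, one_mul]⟩
  have hp : ∀ y : ↥(G ⊓ Subgroup.zpowers (fr F K)), ∃ j : ℕ, fr F K ^ j = y := fun y =>
    mem_powers_iff_mem_zpowers.2 y.2.2
  let f : Sc F K (τ * (q + 1)) × ↥(G ⊓ Subgroup.zpowers (fr F K)) → ↥(G ⊓ Nn F K) := fun p =>
    ⟨p.1 * p.2, mul_mem (O.sc p.1.2) p.2.2.1, mul_mem (Sc_le_Nn _ p.1.2) ((hp p.2).elim fun j e => e ▸ hN j)⟩
  have c := Nat.card_eq_of_bijective f ⟨fun p p' e => ?_, fun g => ?_⟩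
  · have d : Nat.card ↥(G ⊓ Nn F K) ∣ n * τ * (q + 1) := by
      rw [← c, Nat.card_prod, h.card_AZ, mul_comm, mul_assoc]
      refine mul_dvd_mul_right ((Subgroup.card_dvd_of_le inf_le_right).trans ?_) _
      rw [Nat.card_zpowers, orderOf_dvd_iff_pow_eq_one, h.fr_eq_one]
    exact ⟨Nat.le_of_dvd (Nat.mul_pos (Nat.mul_pos h.prime.pos h.one_lt.pos) q.succ_pos) d, d⟩
  · have e1 : p.1.1 * p.2.1 = p'.1.1 * p'.2.1 := congrArg Subtype.val e
    have o : ∀ y : ↥(G ⊓ Subgroup.zpowers (fr F K)), y.1 1 = 1 := fun y =>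
      (hp y).elim fun j e => by rw [← e, h.fr_pow, one_pow]
    have e2 := LinearEquiv.congr_fun e1 1
    rw [LinearEquiv.mul_apply, LinearEquiv.mul_apply, o, o] at e2
    have e3 : p.1 = p'.1 := (inv_mul_eq_one.1 (Subtype.ext (eq_one_of_mem_Sc (p'.1⁻¹ * p.1).2 one_ne_zero (by
      rw [Subgroup.coe_mul, LinearEquiv.mul_apply, e2]; exact p'.1.1.symm_apply_apply 1)))).symm
    rw [e3, mul_right_inj] at e1
    exact Prod.ext e3 (Subtype.ext e1)
  · obtain ⟨x, hx, j, hj, e⟩ := h.nn_split O g.2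
    exact ⟨⟨⟨x, hx⟩, _, hj, pow_mem (Subgroup.mem_zpowers _) j⟩, Subtype.ext e⟩

theorem frob_or : fr F K ∈ G ∨ G ⊓ Nn F K ≤ Sc F K (τ * (q + 1)) := by
  refine or_iff_not_imp_left.2 fun hc g hg => ?_
  obtain ⟨x, hx, j, hj, rfl⟩ := h.nn_split O hg
  by_cases e : n ∣ j
  · rwa [h.fr_eq_one.2 e, mul_one]
  obtain ⟨i, -, hi⟩ := Nat.exists_mul_mod_eq_one_of_coprime
    ((Nat.Prime.coprime_iff_not_dvd h.prime).2 e).symm h.prime.one_lt
  have := pow_mem hj i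
  rw [← pow_mul, pow_eq_pow_mod _ (h.fr_eq_one.2 dvd_rfl), hi, pow_one] at this
  exact (hc this).elim

/-- as `CKS.Md.top_of_normal` (uses `Nat.Coprime τ n`) -/
theorem not_normal {Y : Subgroup (K ≃ₗ[F] K)} (hY : ∀ g ∈ G, ∀ y ∈ Y, g * y * g⁻¹ ∈ Y)
    (h1 : Sc F K τ ≤ Y) (h2 : Y ≤ G) : ¬ Y ≤ Nn F K := by
  refine fun l => O.ne fun g hg => ?_
  obtain ⟨x, hx, x1⟩ : ∃ x ∈ Sc F K τ, x ≠ 1 := by
    by_contra! hc
    have := h.card_A
    rw [(Subgroup.eq_bot_iff_forall _).2 hc, Subgroup.card_bot] at this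
    exact h.one_lt.ne this
  have m := hY g hg x (h1 hx)
  obtain ⟨b, j, hb⟩ := h.mem_Nn.1 (l m)
  have p : ∀ k : ℕ, ∃ c, ∀ v, ((g * x * g⁻¹) ^ k) v = c * v ^ (q ^ 2) ^ (j * k) := fun k => by
    induction k with
    | zero => exact ⟨1, by simp⟩
    | succ k ih =>
      obtain ⟨c, hc⟩ := ih
      exact ⟨b * c ^ (q ^ 2) ^ j, fun v => by
        rw [pow_succ', LinearEquiv.mul_apply, hc, hb, mul_pow, ← pow_mul v, ← pow_add, mul_assoc, Nat.mul_succ]⟩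
  obtain ⟨c, hc⟩ := p τ
  rw [conj_pow, pow_of_mem_Sc hx, mul_one, mul_inv_cancel] at hc
  have c1 : c = 1 := by simpa using (hc 1).symm
  have dj := h.cop.2.1.symm.dvd_of_dvd_mul_right (h.frob.1 fun v => by simpa [c1] using (hc v).symm)
  simp only [h.frob.2 dj] at hb
  have b0 : b ≠ 0 := fun e => by simpa [e] using hb 1
  exact h.ti (b := 0) hx (h.A_pow hx x1) (mem_Sc.2 ⟨Units.mk0 b b0, pow_zero _, hb⟩)

/-- `A` is a Hall subgroup: for a prime `r ∣ τ` the Sylow subgroup `R ≠ 1` of `A` has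
`N_G(R) ≤ G ⊓ Nn` (`ti`), whose order divides `n τ (q+1)`; so `R` is Sylow in its normaliser. -/
theorem hall : ∃ m, Nat.card G = τ * m ∧ Nat.Coprime τ m := by
  have := md_fin (F := F) (K := K)
  obtain ⟨m, hm⟩ := Subgroup.card_dvd_of_le (h.A_le O)
  rw [h.card_A] at hm
  refine ⟨m, hm, Nat.coprime_of_dvd fun r hr h1 h2 => ?_⟩
  have := Fact.mk hr
  obtain ⟨a, t, ht, e⟩ := Nat.exists_eq_pow_mul_and_not_dvd h.one_lt.ne_bot r hr.ne_one
  have d : r ^ a ∣ τ := ⟨t, e⟩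
  have l : Sc F K (r ^ a) ≤ Sc F K τ := Sc_mono d
  have c : Nat.card ((Sc F K (r ^ a)).subgroupOf G) = r ^ a := by
    rw [md_card, inf_eq_right.2 (l.trans (h.A_le O)),
      card_Sc (d.trans ((dvd_mul_right _ _).trans (h.dvdAZ.trans h.dvdT)))]
  obtain ⟨x, hx, x1⟩ : ∃ x ∈ (Sc F K (r ^ a)).subgroupOf G, x ≠ 1 := by
    by_contra! hc
    rw [(Subgroup.eq_bot_iff_forall _).2 hc, Subgroup.card_bot] at c
    exact ht (by rwa [e, ← c, one_mul] at h1)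
  have k := (Sylow.prime_pow_dvd_card_normalizer (hm ▸ pow_succ r a ▸ mul_dvd_mul d h2) c).trans
    (Subgroup.card_dvd_of_le (K := (Nn F K).subgroupOf G) fun g hg =>
      h.ti hx (h.A_pow (l hx) fun e => x1 (Subtype.ext e)) ((hg x).1 hx))
  rw [md_card] at k
  have k2 := ((h.cop.2.1.coprime_dvd_left h1).pow_left (a + 1)).dvd_of_dvd_mul_left
    (((h.copZ.coprime_dvd_left h1).pow_left _).dvd_of_dvd_mul_right (k.trans (h.card_Nn O).2))
  rw [e, pow_succ, Nat.mul_dvd_mul_iff_left (pow_pos hr.pos a)] at k2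
  exact ht k2

omit h in
theorem exists_min : ∃ Y ≤ G, Ov q τ B Y ∧
    ∀ X ≤ Y, Sc F K (τ * (q + 1)) ≤ X → X ≤ Nn F K ∨ X = Y := by
  have := md_fin (F := F) (K := K)
  obtain ⟨Y, l, hY⟩ := exists_minimal_le_of_wellFoundedLT
    (fun Y => Sc F K (τ * (q + 1)) ≤ Y ∧ ¬ Y ≤ Nn F K) G ⟨O.sc, O.ne⟩
  exact ⟨Y, l, ⟨l.trans O.le, hY.1.1, fun g hg => O.nrm g (l hg), hY.1.2⟩, fun X hX h1 =>
    or_iff_not_imp_left.2 fun h2 => hX.antisymm (hY.2 ⟨h1, h2⟩ hX)⟩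

variable (hmin : ∀ X ≤ G, Sc F K (τ * (q + 1)) ≤ X → X ≤ Nn F K ∨ X = G)
include hmin

theorem alpha (X : Subgroup G) (hX : X.Normal) (h1 : (Sc F K τ).subgroupOf G ≤ X)
    (h2 : (sclG (h.scl_mem O)).range ≤ X) : X = ⊤ := by
  have a1 : Sc F K τ ≤ X.map G.subtype := fun x hx => ⟨⟨x, h.A_le O hx⟩, h1 hx, rfl⟩
  have a2 := (hmin (X.map G.subtype) (Subgroup.map_subtype_le _) fun y hy => by
    obtain ⟨c, x, hx, rfl⟩ := h.split hy
    exact mul_mem ⟨_, h2 ⟨c, rfl⟩, rfl⟩ (a1 hx)).resolve_left (h.not_normal O (by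
      rintro g hg _ ⟨y, hy, rfl⟩
      exact ⟨_, hX.conj_mem y hy ⟨g, hg⟩, rfl⟩) a1 (Subgroup.map_subtype_le _))
  refine top_unique fun g _ => ?_
  obtain ⟨y, hy, e⟩ := a2.ge g.2
  exact (Subtype.ext e : y = g) ▸ hy

/-- as `CKS.Md.ts` -/
theorem ts [Fintype G] (hφ : fr F K ∈ G) (big : (n + 1) ^ 2 < τ) :
    ∃ t, TS ((Sc F K τ).subgroupOf G) (sclG (h.scl_mem O)).range ((Nn F K).subgroupOf G)
      ⟨fr F K, hφ⟩ t n := by
  let φ : G := ⟨fr F K, hφ⟩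
  let A := (Sc F K τ).subgroupOf G
  have cA : Nat.card A = τ := by rw [md_card, inf_eq_right.2 (h.A_le O), h.card_A]
  have a2 : φ ∈ Subgroup.normalizer (A : Set G) := Subgroup.mem_normalizer_fintype fun x ⟨u, hu, e⟩ =>
    ⟨u ^ q ^ 2, show (u ^ q ^ 2) ^ τ = 1 by rw [← pow_mul, pow_mul', show u ^ τ = 1 from hu, one_pow],
      (md_conj (b := 1) (fun v => by rw [h.fr_apply, one_mul]) u).symm.trans (by rw [e]; rfl)⟩
  have a3 : ∀ x : A, (A.normalizerMonoidHom ⟨φ, a2⟩ x : G) = φ * x * φ⁻¹ := fun _ => rfl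
  have a4 : ∀ x ∈ A, ∀ c, (sclG (h.scl_mem O) c * x).1 ∈ Sc F K (τ * (q + 1)) := fun x hx c =>
    mul_mem (Sc_mono (dvd_mul_left _ _) (h.range_scl.le ⟨c, rfl⟩)) (Sc_mono (dvd_mul_right _ _) hx)
  refine ⟨A.normalizerMonoidHom ⟨φ, a2⟩, ⟨⟨fun x y => Subtype.ext (Subtype.ext (Sc_comm x.2 y.2))⟩⟩, ?_, ?_, a3,
    fun x => ?_, fun x e => ?_, h.prime, ?_, ?_, h.alpha O hmin, big.trans_eq cA.symm⟩
  · rintro _ ⟨c, rfl⟩
    exact Subgroup.mem_center_iff.2 fun g => Subtype.ext (LinearEquiv.ext fun v => g.1.map_smul _ v)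
  · rintro _ hx ⟨c, rfl⟩
    exact by_contra fun e => h.A_pow hx (fun e' => e (Subtype.ext e')) (h.scl_pow c)
  · have : ∀ i : ℕ, ((A.normalizerMonoidHom ⟨φ, a2⟩)^[i] x : G) = φ ^ i * x * (φ ^ i)⁻¹ := fun i => by
      induction i with
      | zero => simp
      | succ i ih => rw [Function.iterate_succ_apply', a3, ih, pow_succ']; group
    refine Subtype.ext ((this n).trans ?_)
    rw [show φ ^ n = 1 from Subtype.ext (h.fr_eq_one.2 dvd_rfl)]
    simp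
  · obtain ⟨u, hu, e'⟩ := x.2
    have e1 : fr F K * x.1.1 * (fr F K)⁻¹ = x.1.1 := congrArg (·.1.1) e
    replace e' : mu F K u = x.1.1 := e'
    rw [← e', md_conj (b := 1) (fun v => by rw [h.fr_apply, one_mul]), mu_inj.eq_iff] at e1
    refine by_contra fun n1 => h.A_pow (x := x.1.1) x.2 (fun e => n1 (Subtype.ext (Subtype.ext e))) ?_
    rw [← e', ← map_pow, map_eq_one_iff _ mu_inj, pow_sub _ (Nat.one_le_pow _ _ (by have := h.two; omega)), e1]
    simp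
  · rintro g x hx _ ⟨c, rfl⟩ x' hx' _ ⟨c', rfl⟩ x1 e
    refine h.ti (a4 x hx c) ?_ (congrArg Subtype.val e ▸ a4 x' hx' c' :)
    change (scl q F K c * x.1) ^ _ ≠ 1
    rw [Commute.mul_pow (Sc_comm (y := x.1) (h.range_scl.le ⟨c, rfl⟩) hx), h.scl_pow, one_mul]
    exact h.A_pow hx fun e => x1 (Subtype.ext e)
  · rw [cA, md_card, ← Nat.card_congr (MonoidHom.ofInjective (f := sclG (h.scl_mem O))
      fun a b e => h.scl_inj (congrArg Subtype.val e)).toEquiv, h.card_mu]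
    exact (h.card_Nn O).1

end Md

end Cfsg.Lib.US7
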