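import Cfsg.Agent.Lib.US7.Numb

/-! # Arithmetic for `SU₇(q)` -/

set_option autoImplicit false

namespace Cfsg.Lib.US7

open Cfsg.Lib.Unitary

namespace Nm

variable {q n d τ : ℕ} (h : Nm q n d τ)
include h

theorem odd : Odd n := h.prime.odd_of_ne_two (by have := h.seven; omega)

theorem d_cases : d = 1 ∨ d = n ∧ n ∣ q + 1 := by
  rcases (Nat.dvd_prime h.prime).1 (Nat.gcd_dvd_left n (q + 1)) with e | e
  · exact .inl (h.gcd.trans e)
  · exact .inr ⟨h.gcd.trans e, e ▸ Nat.gcd_dvd_right _ _⟩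

theorem num_geom : (d * τ : ℤ) = ∑ i ∈ Finset.range n, (-(q : ℤ)) ^ i := by
  apply mul_left_cancel₀ (show (q + 1 : ℤ) ≠ 0 by positivity)
  have := mul_neg_geom_sum (-(q : ℤ)) n
  rw [h.odd.neg_pow] at this
  have e : ((q : ℤ) + 1) * (d * τ) = q ^ n + 1 := by exact_mod_cast h.mul
  linear_combination e - this

theorem num_ne {r : ℕ} (hr : r.Prime) (hd : r ∣ τ) : -(q : ZMod r) ≠ 1 := fun e => by
  have e1 := congrArg (Int.cast : ℤ → ZMod r) h.num_geom
  simp only [Int.cast_sum, Int.cast_pow, Int.cast_neg, Int.cast_natCast, e, one_pow, Finset.sum_const,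
    Finset.card_range, nsmul_eq_mul, mul_one, Int.cast_mul, (ZMod.natCast_eq_zero_iff _ _).2 hd, mul_zero] at e1
  obtain rfl := (Nat.prime_dvd_prime_iff_eq hr h.prime).1 ((ZMod.natCast_eq_zero_iff _ _).1 e1.symm)
  rw [neg_eq_iff_add_eq_zero, ← Nat.cast_succ, ZMod.natCast_eq_zero_iff] at e
  have e2 := h.num_geom
  rw [h.gcd, Nat.gcd_eq_left e] at e2
  obtain ⟨b, hb⟩ := e
  have e3 := odd_sq_dvd_geom_sum₂_sub (R := ℤ) 1 (-b) h.odd
  simp only [one_pow, mul_one] at e3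
  rw [show (1 + r * -b : ℤ) = -q by zify at hb; linear_combination hb, ← e2] at e3
  have e4 := dvd_sub (show (r : ℤ) ^ 2 ∣ r * τ by rw [sq]; exact_mod_cast Nat.mul_dvd_mul_left r hd) e3
  rw [sub_sub_cancel] at e4
  have := Nat.le_of_dvd hr.pos (show r ^ 2 ∣ r by exact_mod_cast e4)
  have := hr.two_le
  nlinarith

/-- a prime `r ∣ τ`: `(-q)^n = 1`, `-q ≠ 1` in `ZMod r`, so `-q` has order `n`, `n ∣ r - 1`, `r` odd -/
theorem prime_mod {r : ℕ} (hr : r.Prime) (hd : r ∣ τ) : r % (2 * n) = 1 ∧ orderOf (-(q : ZMod r)) = n := by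
  have := Fact.mk hr
  have := Fact.mk h.prime
  have e : (-(q : ZMod r)) ^ n = 1 := by
    rw [h.odd.neg_pow, neg_eq_iff_add_eq_zero]
    exact_mod_cast (ZMod.natCast_eq_zero_iff _ _).2 (h.mul ▸ (hd.mul_left _).mul_left _)
  have o := orderOf_eq_prime e (h.num_ne hr hd)
  have d : n ∣ r - 1 := o ▸ ZMod.orderOf_dvd_card_sub_one fun z => by simp [z, h.prime.ne_zero] at e
  have := h.seven
  have := hr.two_le
  have d2 : 2 ∣ r - 1 := hr.eq_two_or_odd.elim (fun e => by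
    subst e; exact absurd (Nat.le_of_dvd one_pos d) (by omega)) fun e => by omega
  obtain ⟨c, hc⟩ := Nat.Coprime.mul_dvd_of_dvd_of_dvd (Nat.coprime_two_left.2 h.odd) d2 d
  exact ⟨by rw [show r = 1 + 2 * n * c by omega, Nat.add_mul_mod_self_left, Nat.mod_eq_of_lt (by omega)], o⟩

/-- `d τ = Σ (-q)^i ≡ n mod (q+1)`; if `n ∣ q + 1` then `Σ (-q)^i ≡ n mod n²`
(`-q = 1 - (q+1)`, cf. `odd_sq_dvd_geom_sum₂_sub`, or adapt `CKS.exists_num`).  A prime dividing `τ`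
and `q - 1` divides `q^n + 1 ≡ 2`, and `d τ` is odd (sum of an odd number of odd terms, or `q` even). -/
theorem cop : Nat.Coprime τ (q ^ 2 - 1) ∧ Nat.Coprime τ n ∧ Nat.Coprime τ q := by
  have := h.seven
  have := h.two
  refine ⟨Nat.coprime_of_dvd fun r hr a b => ?_, Nat.coprime_of_dvd fun r hr a b => ?_,
    Nat.coprime_of_dvd fun r hr a b => ?_⟩ <;> obtain ⟨c, o⟩ := h.prime_mod hr a
  · rw [← ZMod.natCast_eq_zero_iff, Nat.cast_sub (Nat.one_le_pow _ _ (by omega)), sub_eq_zero] at b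
    exact absurd (Nat.le_of_dvd two_pos (o ▸ orderOf_dvd_of_pow_eq_one (by simpa using b))) (by omega)
  · obtain rfl := (Nat.prime_dvd_prime_iff_eq hr h.prime).1 b
    rw [Nat.mod_eq_of_lt (by omega)] at c
    omega
  · have := Fact.mk hr
    rw [(ZMod.natCast_eq_zero_iff _ _).2 b, neg_zero, orderOf_zero] at o
    omega

/-- `gcd (q^n + 1, q^(n-1) - 1) ∣ q + 1` -/
theorem cop' : Nat.Coprime τ (q ^ (n - 1) - 1) := by
  have := h.seven
  have := h.two
  refine Nat.coprime_of_dvd fun r hr a b => ?_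
  rw [← ZMod.natCast_eq_zero_iff, Nat.cast_sub (Nat.one_le_pow _ _ (by omega)), sub_eq_zero] at b
  exact absurd (Nat.le_of_dvd (show 0 < n - 1 by omega) ((h.prime_mod hr a).2 ▸ orderOf_dvd_of_pow_eq_one (by
    rw [(Nat.Odd.sub_odd h.odd odd_one).neg_pow]; simpa using b))) (by omega)

theorem one_lt : 1 < τ := by
  have := h.two
  have e := h.mul
  have : d ≤ q + 1 := h.gcd ▸ Nat.gcd_le_right _ (by omega)
  have : q ^ 4 ≤ q ^ n := Nat.pow_le_pow_right (by omega) (by have := h.seven; omega)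
  by_contra! c
  have : (q + 1) * (d * τ) ≤ (q + 1) * ((q + 1) * 1) := by gcongr
  have : 2 ^ 2 * q ^ 2 ≤ q ^ 2 * q ^ 2 := by gcongr
  nlinarith

end Nm

/-- `τ = Σ (-q)^i / d` -/
theorem exists_nm {q n : ℕ} (hn : n.Prime) (h7 : 7 ≤ n) (hq : 2 ≤ q) : ∃ d τ, Nm q n d τ := by
  exact exists_nm' hn h7 hq

/-- `q ≥ 3`: `d = 1`, `τ ≥ 547`; or `d = 7`, `q ≥ 6` -/
theorem Nm.big {q d τ : ℕ} (h : Nm q 7 d τ) (hq : 3 ≤ q) :
    64 < τ ∧ 7 * d * τ < (τ - 1) * (τ - 7) := by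
  exact h.big' hq

/-- `q² + q + 1` is not divisible by `2`, `9`, `7`, or a prime `≡ 2 mod 3`; if all its prime power
factors `s ^ a`, `s ≠ 3`, are at most `49` it divides `3·13·19·31·37·43 = 36546861`, so `q < 6046`
and a finite check leaves only `q = 6`, not a prime power (or use `13 ≤ q`).  For such `s`, `q` has
order `3` and `-q` has order `6` in `ZMod s`. -/
theorem exists_big {q : ℕ} (h7 : 7 ∣ q + 1) (hq : 13 ≤ q) :
    ∃ s a : ℕ, s.Prime ∧ 49 < s ^ a ∧ s ^ a ∣ q ^ 2 + q + 1 ∧ orderOf (-(q : ZMod s)) = 6 := by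
  exact exists_big' h7 hq

/-- prime powers with exponent at least two are not `1` modulo primes dividing `τ` (`r ≡ 1 mod 14`) -/
theorem no_pp {r u k : ℕ} (hr : r.Prime) (h : r % 14 = 1) (hu : u.Prime) (h1 : u ^ (k + 2) ≤ 49) :
    ¬ r ∣ u ^ (k + 2) - 1 := by
  exact no_pp' hr h hu h1

end Cfsg.Lib.US7
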