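import Cfsg.Agent.Lib.US7.Def

/-! # Arithmetic for `SU₇(q)`, second half -/

set_option autoImplicit false

namespace Cfsg.Lib.US7

theorem exists_nm' {q n : ℕ} (hn : n.Prime) (h7 : 7 ≤ n) (hq : 2 ≤ q) : ∃ d τ, Nm q n d τ := by
  have ho : Odd n := hn.odd_of_ne_two (by omega)
  obtain ⟨S, hS⟩ : q + 1 ∣ q ^ n + 1 := by simpa using ho.nat_add_dvd_pow_add_pow q 1
  have e : (S : ℤ) = ∑ i ∈ Finset.range n, (-(q : ℤ)) ^ i := by
    apply mul_left_cancel₀ (show (q + 1 : ℤ) ≠ 0 by positivity)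
    have := mul_neg_geom_sum (-(q : ℤ)) n
    rw [ho.neg_pow] at this
    have hS' : (q : ℤ) ^ n + 1 = (q + 1) * S := by exact_mod_cast hS
    linear_combination -this - hS'
  obtain ⟨τ, hτ⟩ : n.gcd (q + 1) ∣ S := by
    have : -(q : ZMod (n.gcd (q + 1))) = 1 := by
      rw [neg_eq_iff_add_eq_zero, ← Nat.cast_succ, ZMod.natCast_eq_zero_iff]
      exact Nat.gcd_dvd_right _ _
    rw [← ZMod.natCast_eq_zero_iff, ← Int.cast_natCast, e]
    simp only [Int.cast_sum, Int.cast_pow, Int.cast_neg, Int.cast_natCast, this, one_pow, Finset.sum_const,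
      Finset.card_range, nsmul_eq_mul, mul_one]
    exact (ZMod.natCast_eq_zero_iff _ _).2 (Nat.gcd_dvd_left _ _)
  exact ⟨_, τ, hn, h7, hq, by rw [← hτ, hS], rfl⟩

theorem Nm.big' {q d τ : ℕ} (h : Nm q 7 d τ) (hq : 3 ≤ q) :
    64 < τ ∧ 7 * d * τ < (τ - 1) * (τ - 7) := by
  have hd : d ≤ 7 := h.gcd ▸ Nat.gcd_le_left _ (by norm_num)
  have h1 : 64 < τ := by
    by_contra hτ
    have h2 : d * τ ≤ 7 * 64 := Nat.mul_le_mul hd (by omega)
    have h3 : 3 ^ 6 ≤ q ^ 6 := Nat.pow_le_pow_left hq 6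
    have h4 := Nat.mul_le_mul_left (q + 1) h2
    have h5 := Nat.mul_le_mul_right q h3
    rw [h.mul, pow_succ] at h4
    omega
  obtain ⟨t, rfl⟩ : ∃ t, τ = t + 7 := ⟨τ - 7, by omega⟩
  refine ⟨h1, ?_⟩
  rw [Nat.add_sub_cancel, show t + 7 - 1 = t + 6 by omega]
  nlinarith [Nat.mul_le_mul_right (t + 7) hd]

theorem ord_six {q s : ℕ} (hs : s.Prime) (h3 : s ≠ 3) (hd : s ∣ q ^ 2 + q + 1) :
    orderOf (-(q : ZMod s)) = 6 := by
  haveI := Fact.mk hs
  have e : (q : ZMod s) ^ 2 + q + 1 = 0 := by exact_mod_cast (ZMod.natCast_eq_zero_iff _ _).2 hd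
  have ne : ∀ p : ℕ, p.Prime → s ≠ p → (p : ZMod s) ≠ 0 := fun p hp n z =>
    n ((Nat.prime_dvd_prime_iff_eq hs hp).1 ((ZMod.natCast_eq_zero_iff _ _).1 z))
  refine orderOf_eq_of_pow_and_pow_div_prime (by norm_num) (by linear_combination (q ^ 3 + 1) * (q - 1) * e)
    fun p hp h6 z => ?_
  rcases (Nat.Prime.dvd_mul hp (m := 2) (n := 3)).1 h6 with h | h
  · obtain rfl := (Nat.prime_dvd_prime_iff_eq hp Nat.prime_two).1 h
    refine ne 2 Nat.prime_two (fun h2 => ?_) ?_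
    · subst h2
      rw [show q ^ 2 + q + 1 = q * (q + 1) + 1 by ring] at hd
      exact absurd ((Nat.dvd_add_right (Nat.even_mul_succ_self q).two_dvd).1 hd) (by norm_num)
    · norm_num at z
      push_cast
      linear_combination -z - (q - 1) * e
  · obtain rfl := (Nat.prime_dvd_prime_iff_eq hp Nat.prime_three).1 h
    refine ne 3 Nat.prime_three h3 ?_
    change (-(q : ZMod s)) ^ 2 = 1 at z
    push_cast
    linear_combination (2 - q) * e + (q - 1) * z

theorem exists_big' {q : ℕ} (h7 : 7 ∣ q + 1) (hq : 13 ≤ q) :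
    ∃ s a : ℕ, s.Prime ∧ 49 < s ^ a ∧ s ^ a ∣ q ^ 2 + q + 1 ∧ orderOf (-(q : ZMod s)) = 6 := by
  by_contra! H
  have hd : q ^ 2 + q + 1 ∣ 36546861 := by
    refine (Nat.dvd_iff_prime_pow_dvd_dvd _ _).2 fun s a hs ha => ?_
    rcases a with _ | a
    · simp
    have h1 : s ∣ q ^ 2 + q + 1 := (dvd_pow_self s a.succ_ne_zero).trans ha
    rcases eq_or_ne s 3 with rfl | h3
    · rcases a with _ | a
      · norm_num
      · have h9 : 9 ∣ q ^ 2 + q + 1 := (pow_dvd_pow 3 (by omega : 2 ≤ a + 1 + 1)).trans ha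
        have : ∀ x : ZMod 9, x ^ 2 + x + 1 ≠ 0 := by decide
        exact absurd (by exact_mod_cast (ZMod.natCast_eq_zero_iff _ _).2 h9) (this q)
    have ho := ord_six hs h3 h1
    have hl : s ^ (a + 1) ≤ 49 := not_lt.1 fun h => H s _ hs h ha ho
    haveI := Fact.mk hs
    have h6 : 6 ∣ s - 1 := by
      rw [← ho]
      refine ZMod.orderOf_dvd_card_sub_one fun z => ?_
      rw [z, orderOf_eq_zero_iff'.2 fun n hn => by simp [hn.ne']] at ho
      omega
    have s7 : s ≠ 7 := by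
      rintro rfl
      obtain ⟨c, hc⟩ := h7
      obtain rfl : q = 7 * (c - 1) + 6 := by omega
      rw [show (7 * (c - 1) + 6) ^ 2 + (7 * (c - 1) + 6) + 1 = 7 * (7 * (c - 1) ^ 2 + 13 * (c - 1) + 6) + 1 by ring] at h1
      omega
    have h2 := hs.two_le
    have s25 : s ≠ 25 := by rintro rfl; norm_num at hs
    have s49 : s ≠ 49 := by rintro rfl; norm_num at hs
    rcases a with _ | a
    · rw [zero_add, pow_one] at hl ⊢
      obtain rfl | rfl | rfl | rfl | rfl : s = 13 ∨ s = 19 ∨ s = 31 ∨ s = 37 ∨ s = 43 := by omega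
      all_goals norm_num
    · have := (Nat.pow_le_pow_left (show 13 ≤ s by omega) 2).trans
        ((Nat.pow_le_pow_right hs.pos (by omega : 2 ≤ a + 1 + 1)).trans hl)
      omega
  have hl : q < 6046 := by nlinarith [Nat.le_of_dvd (by norm_num) hd]
  have := (by decide +kernel : ∀ a < 30, ∀ b < 30, ¬ (210 * a + 7 * b + 13) ^ 2 + (210 * a + 7 * b + 13) + 1 ∣ 36546861)
    ((q - 13) / 210) (by omega) ((q - 13) % 210 / 7) (by omega)
  rw [show 210 * ((q - 13) / 210) + 7 * ((q - 13) % 210 / 7) + 13 = q by omega] at this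
  exact this hd

theorem no_pp' {r u k : ℕ} (hr : r.Prime) (h : r % 14 = 1) (hu : u.Prime) (h1 : u ^ (k + 2) ≤ 49) :
    ¬ r ∣ u ^ (k + 2) - 1 := fun hd => by
  have h2 := hu.two_le
  have h3 : u < 8 := lt_of_pow_lt_pow_left₀ 2 (by norm_num)
    (((Nat.pow_le_pow_right hu.pos (by omega : 2 ≤ k + 2)).trans h1).trans_lt (by norm_num))
  have h4 : k + 2 < 6 := (Nat.pow_lt_pow_iff_right (by norm_num : 1 < 2)).1
    (((Nat.pow_le_pow_left h2 _).trans h1).trans_lt (by norm_num))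
  have h5 : 1 < u ^ (k + 2) := Nat.one_lt_pow (by omega) h2
  have h6 := Nat.le_of_dvd (by omega) hd
  have h7 : r ≠ 15 := by rintro rfl; norm_num at hr
  have h8 := hr.two_le
  have : u ^ (k + 2) = 30 ∨ u ^ (k + 2) = 44 := by
    obtain rfl | rfl : r = 29 ∨ r = 43 := by omega
    all_goals omega
  exact (by decide +kernel : ∀ u < 8, ∀ k < 6, ¬ (u ^ k = 30 ∨ u ^ k = 44)) u h3 _ h4 this

end Cfsg.Lib.US7
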