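import Cfsg.Agent.Lib.CK.SC

/-!
# Polynomial method in characteristic two: definitions

`K = F_(2^N)`, variables `X i = x ^ 2 ^ i` (`CK/SA`, `CK/SB`), `X (i + H)` is the conjugate of `X i`.
-/

set_option autoImplicit false
set_option linter.unusedSectionVars false

namespace Cfsg.Lib.US7

open Finsupp MvPolynomial Finset Cfsg.Lib.CKS

variable {N f r : ℕ} [NeZero N] [NeZero f] {K : Type*} [Field K]

/-- the linearised polynomial `∑ α l x ^ 2 ^ l` is an isometry -/
structure Iso (r : ℕ) (cl : ZMod N →+* ZMod f) (H : ZMod N) (α : ZMod N → K) : Prop where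
  prime : r.Prime
  seven : 7 ≤ r
  fib : ∀ s, #{i | cl i = s} = r
  HH : H + H = 0
  clH : cl H ≠ 0
  cls : ∀ l, α l ≠ 0 → cl l = 0
  orth : ∀ j k, ∑ b, bb 2 α b j * bb 2 α (b + H) (k + H) = if j = k then 1 else 0

/-- reduced periodic exponents -/
def Per (H : ZMod N) (m : ZMod N →₀ ℕ) : Prop := Red 2 m ∧ ∀ i, m (i + H) = m i

/-- polynomials without reduced monomials: the ideal generated by the squares of the variables -/
def Sq (N : ℕ) [NeZero N] (K : Type*) [Field K] : Ideal (MvPolynomial (ZMod N) K) where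
  carrier := {S | ∀ t, Red 2 t → coeff t S = 0}
  zero_mem' := fun _ _ => rfl
  add_mem' := fun ha hb t ht => by rw [coeff_add, ha t ht, hb t ht, add_zero]
  smul_mem' := fun Q S hS t ht => coeff_mul_eq_zero (Red 2)
    (fun u v h i => lt_of_le_of_lt (by simp) (h i)) Q S hS t ht

theorem mem_Sq {S : MvPolynomial (ZMod N) K} : S ∈ Sq N K ↔ ∀ t, Red 2 t → coeff t S = 0 := Iff.rfl

/-- the sum of all reduced periodic monomials -/
noncomputable def Gam (K : Type*) [Field K] (H : ZMod N) : MvPolynomial (ZMod N) K :=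
  ∏ i with i.val < (i + H).val, (1 + X i * X (i + H))

/-- the carry coefficients -/
def ww (H : ZMod N) (α : ZMod N → K) (l j m : ZMod N) : K :=
  ∑ b, bb 2 α b l ^ 2 * bb 2 α (b + H) j * bb 2 α (b + H) m

/-- `Gam` times a reduced quadratic form -/
noncomputable def Wp (H : ZMod N) (w : ZMod N → ZMod N → K) : MvPolynomial (ZMod N) K :=
  Gam K H * ∑ j, ∑ m with j.val < m.val, w j m • (X j * X m)

/-- the conjugates of the hermitian form -/
noncomputable def Qs (K : Type*) [Field K] (cl : ZMod N →+* ZMod f) (H : ZMod N) (s : ZMod f) :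
    MvPolynomial (ZMod N) K := ∑ j with cl j = s, X j * X (j + H)

/-- invariant reduced periodic polynomials -/
structure Inv (H : ZMod N) (α : ZMod N → K) (P : MvPolynomial (ZMod N) K) : Prop where
  per : ∀ m, coeff m P ≠ 0 → Per H m
  ne : ∀ m, coeff m P ≠ 0 → m ≠ 0
  inv : ∀ x : K, x ≠ 0 → ev 2 N x (bind₁ (YY 2 α) P - P) = 0

theorem pa_val {n : ℕ} [NeZero n] {H : ZMod n} (h0 : H ≠ 0) (i : ZMod n) : i.val ≠ (i + H).val := fun e =>
  h0 (left_eq_add.1 (ZMod.val_injective _ e))

theorem pa_XX (j m : ZMod N) :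
    (X j * X m : MvPolynomial (ZMod N) K) = monomial (single j 1 + single m 1) 1 := by
  rw [X, X, monomial_mul, one_mul]

theorem pa_step {H : ZMod N} {ν t : ZMod N →₀ ℕ} (hν : Per H ν) {j m i : ZMod N}
    (e : t = ν + single j 1 + single m 1) (hi : t (i + H) < t i) : i = j ∨ i = m := by
  by_contra! c
  have := hν.2 i
  simp only [e, Finsupp.add_apply, single_eq_of_ne c.1, single_eq_of_ne c.2] at hi
  omega

theorem X_sq_mem (i : ZMod N) : (X i * X i : MvPolynomial (ZMod N) K) ∈ Sq N K := by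
  intro t ht
  rw [pa_XX, coeff_monomial, if_neg]
  rintro rfl
  simpa using ht i

/-- `YY_pow_char` -/
theorem YY_sq_mem [CharP K 2] (α : ZMod N → K) (i : ZMod N) : YY 2 α i * YY 2 α i ∈ Sq N K := by
  have := Fact.mk Nat.prime_two
  intro t ht
  rw [← sq, YY_pow_char, coeff_sum]
  refine sum_eq_zero fun j _ => ?_
  rw [coeff_monomial, if_neg]
  rintro rfl
  simpa using ht j

/-- `coeff t (pderiv i S) = (t i + 1) coeff (t + single i 1) S`; for `t i = 1` the factor is `2 = 0` -/
theorem pderiv_mem [CharP K 2] {S : MvPolynomial (ZMod N) K} (hS : S ∈ Sq N K) (i : ZMod N) :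
    pderiv i S ∈ Sq N K := by
  intro t ht
  rw [coeff_pderiv]
  by_cases e : t i = 0
  · rw [hS, zero_mul]
    intro j
    by_cases c : j = i
    · simp [c, e]
    · simpa [single_eq_of_ne c] using ht j
  · rw [show t i = 1 by have := ht i; omega, Nat.cast_one, CharTwo.add_self_eq_zero, mul_zero]

/-- `D S = ∑ pderiv i S * D (X i)` -/
theorem deriv_mem [CharP K 2] (D : Derivation K (MvPolynomial (ZMod N) K) (MvPolynomial (ZMod N) K))
    {S : MvPolynomial (ZMod N) K} (hS : S ∈ Sq N K) : D S ∈ Sq N K := by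
  have e : ∀ S, D S = ∑ i, D (X i) * pderiv i S := fun S => by
    induction S using MvPolynomial.induction_on with
    | C a => simp
    | add p q hp hq => simp only [map_add, hp, hq, mul_add, sum_add_distrib]
    | mul_X p j hp =>
      simp only [Derivation.leibniz, hp, smul_eq_mul, mul_add, sum_add_distrib, Finset.mul_sum, mul_left_comm (X j)]
      congr 1
      rw [Finset.sum_eq_single j (fun i _ c => by rw [pderiv_X_of_ne c.symm, mul_zero, mul_zero]) (by simp),
        pderiv_X_self, mul_one, mul_comm]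
  rw [e]
  exact Ideal.sum_mem _ fun i _ => Ideal.mul_mem_left _ _ (pderiv_mem hS i)

open Classical in
/-- `prod_one_add`; subsets of the transversal correspond to periodic reduced exponents -/
theorem coeff_Gam {H : ZMod N} (h0 : H ≠ 0) (hH : H + H = 0) (m : ZMod N →₀ ℕ) :
    coeff m (Gam K H) = if Per H m then 1 else 0 := by
  have hh : ∀ i, i + H + H = i := fun i => by rw [add_assoc, hH, add_zero]
  have hφ : ∀ (S : Finset (ZMod N)) j, (∑ i ∈ S, (single i 1 + single (i + H) 1) : ZMod N →₀ ℕ) j =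
      (if j ∈ S then 1 else 0) + if j + H ∈ S then 1 else 0 := fun S j => by
    have : ∀ i, i + H = j ↔ i = j + H := fun i => ⟨fun e => by rw [← e, hh], fun e => by rw [e, hh]⟩
    simp [Finsupp.single_apply, sum_add_distrib, this]
  have hT : ∀ S ∈ powerset ({i | i.val < (i + H).val} : Finset (ZMod N)), ∀ j ∈ S, j + H ∉ S := fun S hS j a b => by
    have c1 := (mem_filter.1 (mem_powerset.1 hS a)).2
    have c2 := (mem_filter.1 (mem_powerset.1 hS b)).2
    rw [hh] at c2
    omega
  simp only [Gam, prod_one_add, pa_XX, ← monomial_sum_one, coeff_sum, coeff_monomial]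
  split_ifs with hm
  · rw [sum_eq_single_of_mem ({i | i.val < (i + H).val ∧ m i = 1} : Finset (ZMod N))
      (mem_powerset.2 fun i hi => by simp at hi ⊢; exact hi.1), if_pos]
    · ext j
      have := hm.1 j
      have := pa_val h0 j
      simp only [hφ, mem_filter, mem_univ, true_and, hh, hm.2]
      split_ifs <;> omega
    · refine fun S hS ne => if_neg fun e => ne ?_
      ext j
      have := hT S hS j
      simp only [← e, hφ, mem_filter, mem_univ, true_and]
      refine ⟨fun a => ⟨(mem_filter.1 (mem_powerset.1 hS a)).2, by rw [if_pos a, if_neg (this a)]⟩,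
        fun ⟨a, b⟩ => by_contra fun c => ?_⟩
      rw [if_neg c, zero_add, if_neg fun d => ?_] at b
      · omega
      have := (mem_filter.1 (mem_powerset.1 hS d)).2
      rw [hh] at this
      omega
  · refine sum_eq_zero fun S hS => if_neg fun e => hm ?_
    subst e
    refine ⟨fun j => ?_, fun j => ?_⟩
    · have := hT S hS j
      rw [hφ]
      split_ifs with a b
      · exact absurd b (this a)
      all_goals omega
    · rw [hφ, hφ, hh, add_comm]

open Classical in
theorem coeff_Wp {H : ZMod N} (h0 : H ≠ 0) (hH : H + H = 0) (w : ZMod N → ZMod N → K)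
    (t : ZMod N →₀ ℕ) : coeff t (Wp H w) = ∑ j, ∑ m with j.val < m.val,
      if ∃ ν, Per H ν ∧ t = ν + single j 1 + single m 1 then w j m else 0 := by
  simp only [Wp, Finset.mul_sum, coeff_sum, mul_smul_comm, coeff_smul, pa_XX, coeff_mul_monomial', coeff_Gam h0 hH]
  refine Finset.sum_congr rfl fun j _ => Finset.sum_congr rfl fun m _ => ?_
  by_cases e : ∃ ν, Per H ν ∧ t = ν + single j 1 + single m 1
  · rw [if_pos e]
    obtain ⟨ν, hν, rfl⟩ := e
    rw [add_assoc, if_pos le_add_self, add_tsub_cancel_right, if_pos hν, mul_one, smul_eq_mul, mul_one]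
  · rw [if_neg e]
    split_ifs with a b
    · exact absurd ⟨_, b, by rw [add_assoc, tsub_add_cancel_of_le a]⟩ e
    all_goals simp

/-- if `t = ν + e_j' + e_m'` with `ν` periodic, every `i` with `t (i + H) < t i` is `j'` or `m'` -/
theorem Wp_zero {H : ZMod N} (h0 : H ≠ 0) (hH : H + H = 0) (w : ZMod N → ZMod N → K)
    {t : ZMod N →₀ ℕ} {i j m : ZMod N} (ij : i ≠ j) (im : i ≠ m) (jm : j ≠ m)
    (hi : t (i + H) < t i) (hj : t (j + H) < t j) (hm : t (m + H) < t m) : coeff t (Wp H w) = 0 := by
  rw [coeff_Wp h0 hH]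
  refine sum_eq_zero fun j' _ => sum_eq_zero fun m' _ => if_neg fun ⟨ν, hν, e⟩ => ?_
  have := pa_step hν e hi
  have := pa_step hν e hj
  have := pa_step hν e hm
  grind

theorem Wp_eq {H : ZMod N} (h0 : H ≠ 0) (hH : H + H = 0) {w : ZMod N → ZMod N → K}
    (hw : ∀ j m, w j m = w m j) {μ : ZMod N →₀ ℕ} (hμ : Per H μ) {j m : ZMod N} (jm : j ≠ m)
    (jm' : j + H ≠ m) : coeff (μ + single j 1 + single m 1) (Wp H w) = w j m := by
  have hh : ∀ i, i + H + H = i := fun i => by rw [add_assoc, hH, add_zero]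
  have mj : m + H ≠ j := fun e => jm' (by rw [← e, hh])
  wlog l : j.val < m.val generalizing j m
  · rw [add_right_comm, hw]
    exact this jm.symm mj jm' (lt_of_le_of_ne (not_lt.1 l) fun e => jm (ZMod.val_injective _ e).symm)
  have a : ∀ i : ZMod N, i + H ≠ i := fun i e => h0 (add_eq_left.1 e)
  have key : ∀ j' m' : ZMod N, j'.val < m'.val → (∃ ν, Per H ν ∧
      μ + single j 1 + single m 1 = ν + single j' 1 + single m' 1) → j' = j ∧ m' = m := fun j' m' l' ⟨ν, hν, e⟩ => by
    have c1 := pa_step hν e (i := j) (by simp [single_eq_of_ne (a j), single_eq_of_ne jm', single_eq_of_ne jm, hμ.2])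
    have c2 := pa_step hν e (i := m) (by simp [single_eq_of_ne (a m), single_eq_of_ne mj, single_eq_of_ne jm.symm, hμ.2])
    grind
  rw [coeff_Wp h0 hH, Finset.sum_eq_single j (fun j' _ c => sum_eq_zero fun m' l' =>
    if_neg fun e => c (key _ _ (mem_filter.1 l').2 e).1) (by simp), sum_eq_single_of_mem m (by simpa using l)
    (fun m' l' c => if_neg fun e => c (key _ _ (mem_filter.1 l').2 e).2), if_pos ⟨μ, hμ, rfl⟩]

theorem Per.md {cl : ZMod N →+* ZMod f} {H : ZMod N} {m : ZMod N →₀ ℕ} (hm : Per H m) (s : ZMod f) :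
    md cl m (s + cl H) = md cl m s := by
  rw [md_apply, md_apply, sum_filter, sum_filter, ← Equiv.sum_comp (Equiv.addRight H)]
  simp [hm.2]

theorem Per.even {H : ZMod N} (h0 : H ≠ 0) (hH : H + H = 0) {m : ZMod N →₀ ℕ} (hm : Per H m) :
    Even (degree m) := by
  rw [← ZMod.natCast_eq_zero_iff_even, degree_eq_sum, Nat.cast_sum]
  exact sum_involution (fun i _ => i + H) (fun i _ => by rw [hm.2, CharTwo.add_self_eq_zero])
    (fun i _ _ e => h0 (add_eq_left.1 e)) (fun _ _ => mem_univ _) fun i _ => by rw [add_assoc, hH, add_zero]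

namespace Iso

variable {cl : ZMod N →+* ZMod f} {H : ZMod N} {α : ZMod N → K} (h : Iso r cl H α)
include h

theorem H_ne : H ≠ 0 := fun e => h.clH (by rw [e, map_zero])

theorem bb_cl {i j : ZMod N} (hb : bb 2 α i j ≠ 0) : cl j = cl i := by
  have := h.cls (j - i) fun h0 => hb (by rw [bb, h0, zero_pow (pow_ne_zero _ two_ne_zero)])
  rwa [map_sub, sub_eq_zero] at this

/-- `Matrix.mul_eq_one_comm` -/
theorem orth' (b c : ZMod N) :
    ∑ j, bb 2 α b j * bb 2 α (c + H) (j + H) = if b = c then 1 else 0 := by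
  have e : (Matrix.of fun j b => bb 2 α b j) * (Matrix.of fun b k => bb 2 α (b + H) (k + H)) = 1 := by
    ext j k
    rw [Matrix.mul_apply, Matrix.one_apply, ← h.orth]
    rfl
  have := Matrix.ext_iff.2 (mul_eq_one_comm.1 e) c b
  rw [Matrix.mul_apply, Matrix.one_apply] at this
  simpa only [Matrix.of_apply, mul_comm, eq_comm] using this

/-- as `PM.hom` -/
theorem hom (m u : ZMod N →₀ ℕ) (hu : coeff u (Yp 2 α m) ≠ 0) : md cl u = md cl m := by
  have h1 : ∀ i, IsWeightedHomogeneous (fun i => (Pi.single (cl i) 1 : ZMod f → ℕ)) (YY 2 α i)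
      (Pi.single (cl i) 1) := fun i => by
    refine IsWeightedHomogeneous.sum _ _ _ fun j _ => ?_
    by_cases hb : bb 2 α i j = 0
    · rw [hb, zero_smul]; exact isWeightedHomogeneous_zero _ _ _
    · rw [smul_eq_C_mul, ← h.bb_cl hb]
      exact (isWeightedHomogeneous_X K _ j).C_mul _
  have h2 := IsWeightedHomogeneous.prod (univ : Finset (ZMod N)) _ _ fun i _ => (h1 i).pow (m i)
  rw [md, h2 hu, weight_apply, Finsupp.sum_fintype _ _ (by simp)]

/-- the kernel of `cl` has prime order `r` -/
theorem ker {δ : ZMod N} (h0 : δ ≠ 0) (hδ : cl δ = 0) :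
    addOrderOf δ = r ∧ ∀ i j, cl i = cl j → ∃ k : ℕ, j = i + k • δ := by
  have := Fact.mk h.prime
  have c : Nat.card cl.toAddMonoidHom.ker = r := by
    rw [← h.fib 0, ← Fintype.card_subtype, ← Nat.card_eq_fintype_card]
    rfl
  have d : (⟨δ, hδ⟩ : cl.toAddMonoidHom.ker) ≠ 0 := fun e => h0 (congrArg Subtype.val e)
  refine ⟨?_, fun i j e => ?_⟩
  · exact (AddSubgroup.addOrderOf_mk δ hδ).symm.trans (((Nat.dvd_prime h.prime).1
      (c ▸ addOrderOf_dvd_natCard _)).resolve_left fun e => d (AddMonoid.addOrderOf_eq_one_iff.1 e))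
  · obtain ⟨k, hk⟩ := mem_multiples_of_prime_card c d (g' := ⟨j - i, show cl (j - i) = 0 by rw [map_sub, e, sub_self]⟩)
    exact ⟨k, eq_add_of_sub_eq' (congrArg Subtype.val hk).symm⟩

/-- choose, for `s` in a transversal of `s ↦ s + cl H`, a set of `a s` indices of class `s` avoiding
`Z` and `Z + H` -/
theorem exists_per {a : ZMod f → ℕ} (ha : ∀ s, a (s + cl H) = a s) (Z : Finset (ZMod N))
    (hZ : ∀ s, a s + #{z ∈ Z | cl z = s ∨ cl z = s + cl H} ≤ r) :
    ∃ μ, Per H μ ∧ md cl μ = a ∧ ∀ z ∈ Z, μ z = 0 := by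
  have hh : ∀ i, i + H + H = i := fun i => by rw [add_assoc, h.HH, add_zero]
  have cc : ∀ s, s + cl H + cl H = s := fun s => by rw [add_assoc, ← map_add, h.HH, map_zero, add_zero]
  have : ∀ s, ∃ A ⊆ ({i | cl i = s ∧ i ∉ Z ∧ i + H ∉ Z} : Finset (ZMod N)), #A = a s := fun s => by
    refine exists_subset_card_eq ?_
    have e1 := card_filter_add_card_filter_not (s := ({i | cl i = s} : Finset (ZMod N))) fun i => i ∉ Z ∧ i + H ∉ Z
    have e2 : #{i ∈ ({i | cl i = s} : Finset (ZMod N)) | ¬ (i ∉ Z ∧ i + H ∉ Z)} ≤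
        #{z ∈ Z | cl z = s ∨ cl z = s + cl H} := by
      refine card_le_card_of_injOn (fun i => if i ∈ Z then i else i + H) (fun i hi => ?_) fun i hi j hj e => ?_
      · simp only [coe_filter, mem_filter, mem_univ, true_and, Set.mem_ofPred_eq] at hi ⊢
        split_ifs with c
        · exact ⟨c, .inl hi.1⟩
        · exact ⟨by tauto, .inr (by rw [map_add, hi.1])⟩
      · simp only [coe_filter, mem_filter, mem_univ, true_and, Set.mem_ofPred_eq] at hi hj e
        have := h.clH
        split_ifs at e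
        · exact e
        · exact absurd (left_eq_add.1 (by rw [← map_add, ← e, hi.1, hj.1] : cl j = cl j + cl H)) this
        · exact absurd (left_eq_add.1 (by rw [← map_add, e, hi.1, hj.1] : cl i = cl i + cl H)) this
        · exact add_right_cancel e
    have := hZ s
    rw [h.fib, filter_filter] at e1
    omega
  choose A hA cA using this
  have mA : ∀ s i, i ∈ A s → cl i = s ∧ i ∉ Z ∧ i + H ∉ Z := fun s i hi => (mem_filter.1 (hA s hi)).2
  let μ : ZMod N →₀ ℕ := equivFunOnFinite.symm fun i =>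
    if (if (cl i).val < (cl i + cl H).val then i ∈ A (cl i) else i + H ∈ A (cl i + cl H)) then 1 else 0
  have hμ : ∀ i, μ i = if (if (cl i).val < (cl i + cl H).val then i ∈ A (cl i) else i + H ∈ A (cl i + cl H))
      then 1 else 0 := fun _ => rfl
  have per : Per H μ := ⟨fun i => by rw [hμ]; split_ifs <;> omega, fun i => by
    have := pa_val h.clH (cl i)
    simp only [hμ, map_add, cc, hh]
    split_ifs <;> first | rfl | omega⟩
  have e : ∀ s : ZMod f, s.val < (s + cl H).val → md cl μ s = a s := fun s l => by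
    rw [md_apply, sum_congr rfl (g := fun i => if i ∈ A s then 1 else 0) fun i hi => by
      simp only [hμ, (mem_filter.1 hi).2, if_pos l], sum_boole, ← cA, Nat.cast_id]
    congr 1
    ext i
    simpa using fun hi => (mA s i hi).1
  refine ⟨μ, per, funext fun s => ?_, fun z hz => ?_⟩
  · by_cases l : s.val < (s + cl H).val
    · exact e s l
    · have := pa_val h.clH s
      rw [← per.md, e _ (by rw [cc]; omega), ha]
  · rw [hμ, if_neg]
    split_ifs
    · exact fun c => (mA _ _ c).2.1 hz
    · exact fun c => (mA _ _ c).2.2 (by rwa [hh])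

end Iso

end Cfsg.Lib.US7
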