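import Cfsg.Agent.Lib.US7.PA

/-! # The action of an isometry on the sum of the periodic monomials -/

set_option autoImplicit false
set_option linter.unusedSectionVars false

namespace Cfsg.Lib.US7

open Finsupp MvPolynomial Finset Cfsg.Lib.CKS

variable {N f r : ℕ} [NeZero N] [NeZero f] {K : Type*} [Field K]

/-- `∏ (1 + U y j) = 1 + U ∑ y j` if `U² = 0` -/
theorem prod_one_add_sq {R ι : Type*} [CommRing R] {U : R} (hU : U * U = 0) (s : Finset ι)
    (y : ι → R) : ∏ j ∈ s, (1 + U * y j) = 1 + U * ∑ j ∈ s, y j := by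
  classical
  induction s using Finset.induction_on with
  | empty => simp
  | insert a s ha ih =>
    rw [prod_insert ha, sum_insert ha, ih]
    linear_combination (y a * ∑ j ∈ s, y j) * hU

/-- split a double sum into the diagonal and the two triangles -/
theorem pb_tri {M : Type*} [AddCommMonoid M] (g : ZMod N → ZMod N → M) :
    ∑ j, ∑ m, g j m = ∑ j, g j j + ∑ j, ∑ m with j.val < m.val, (g j m + g m j) := by
  have e : ∀ j m : ZMod N, g j m = (if j = m then g j m else 0) + ((if j.val < m.val then g j m else 0) +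
      (if m.val < j.val then g j m else 0)) := by
    intro j m
    rcases lt_trichotomy j.val m.val with h | h | h
    · have : j ≠ m := fun e => by rw [e] at h; exact lt_irrefl _ h
      simp [h, this, h.not_gt]
    · obtain rfl := ZMod.val_injective N h
      simp
    · have : j ≠ m := fun e => by rw [e] at h; exact lt_irrefl _ h
      simp [h, this, h.not_gt]
  have e2 : ∑ j : ZMod N, ∑ m : ZMod N, (if m.val < j.val then g j m else 0) =
      ∑ j : ZMod N, ∑ m : ZMod N, (if j.val < m.val then g m j else 0) := Finset.sum_comm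
  conv_lhs => enter [2, j, 2, m]; rw [e j m]
  simp only [sum_add_distrib, sum_filter, e2, Finset.sum_ite_eq, mem_univ, if_true]

/-- the product over a transversal of `i ↦ i + H` does not depend on the transversal -/
theorem pb_trans {M : Type*} [CommMonoid M] {H : ZMod N} (hH : H + H = 0) (g : ZMod N → M)
    (hg : ∀ i, g (i + H) = g i) (T T' : ZMod N → Prop) [DecidablePred T] [DecidablePred T']
    (hT : ∀ i, T (i + H) ↔ ¬T i) (hT' : ∀ i, T' (i + H) ↔ ¬T' i) :
    ∏ i with T i, g i = ∏ i with T' i, g i := by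
  have hh : ∀ i : ZMod N, i + H + H = i := fun i => by rw [add_assoc, hH, add_zero]
  refine Finset.prod_nbij' (fun i => if T' i then i else i + H) (fun i => if T i then i else i + H)
    ?_ ?_ ?_ ?_ ?_
  · intro i _
    by_cases k : T' i <;> simp [k, hT']
  · intro i _
    by_cases k : T i <;> simp [k, hT]
  · intro i hi
    have hi' : T i := (mem_filter.1 hi).2
    by_cases k : T' i <;> simp [k, hT, hi', hh]
  · intro i hi
    have hi' : T' i := (mem_filter.1 hi).2
    by_cases k : T i <;> simp [k, hT', hi', hh]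
  · intro i _
    by_cases k : T' i <;> simp [k, hg]

theorem pb_lt {n : ℕ} [NeZero n] {H : ZMod n} (h0 : H ≠ 0) (hH : H + H = 0) (i : ZMod n) :
    (i + H).val < (i + H + H).val ↔ ¬i.val < (i + H).val := by
  have : i.val ≠ (i + H).val := fun e => h0 (by simpa using ZMod.val_injective n e)
  rw [add_assoc, hH, add_zero]
  omega

/-- Hasse derivative: for the substitution `X l ↦ X l + T` the coefficient of `T²` of the image of
`X ^ u` is `choose (u l) 2 • X ^ (u - 2 e_l)`; `choose 2 2 = 1`, `choose 3 2 = 3 = 1`. -/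
theorem coeff_hasse [CharP K 2] (l : ZMod N) (S : MvPolynomial (ZMod N) K) {t : ZMod N →₀ ℕ}
    (ht : Red 2 t) : coeff (t + single l 2) S = coeff t (Polynomial.coeff (aeval (fun i =>
      Polynomial.C (X i : MvPolynomial (ZMod N) K) + if i = l then Polynomial.X else 0) S) 2) := by
  classical
  induction S using MvPolynomial.induction_on' with
  | add p q hp hq => simp only [map_add, Polynomial.coeff_add, coeff_add, hp, hq]
  | monomial u c =>
    have e : aeval (fun i => Polynomial.C (X i : MvPolynomial (ZMod N) K) + if i = l then Polynomial.X else 0)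
        (monomial (u.erase l) c) = Polynomial.C (monomial (u.erase l) c) := by
      rw [aeval_monomial, monomial_eq, map_mul, map_finsuppProd]
      refine congrArg₂ _ rfl (Finsupp.prod_congr fun i hi => ?_)
      rw [if_neg (ne_of_mem_erase (support_erase (f := u) ▸ hi)), add_zero, map_pow]
    conv_rhs => rw [← single_add_erase l u, monomial_single_add, map_mul, e, map_pow, aeval_X, if_pos rfl,
      Polynomial.coeff_mul_C, add_comm, Polynomial.coeff_X_add_C_pow, mul_right_comm, ← monomial_single_add,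
      ← map_natCast C, mul_comm, coeff_C_mul, coeff_monomial]
    rw [coeff_monomial]
    by_cases k : u = t + single l 2
    · have := ht l
      rw [if_pos k, if_pos (by rw [k, erase_add, erase_single, add_zero]; simp [single_add_erase]), k]
      have h3 : (3 : K) = 1 := by rw [show (3 : K) = 2 + 1 by norm_num, CharTwo.two_eq_zero, zero_add]
      obtain z | z : t l = 0 ∨ t l = 1 := by omega
      all_goals simp [z, h3]
    · rw [if_neg k]
      by_cases k2 : u l < 2
      · rw [Nat.choose_eq_zero_of_lt k2, Nat.cast_zero, zero_mul]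
      · rw [if_neg fun z => k (by
          rw [← z, add_right_comm, ← single_add, Nat.sub_add_cancel (not_lt.1 k2), single_add_erase]), mul_zero]

/-- the low coefficients of `∏ (1 + z b T)` -/
theorem hs_e2 {R ι : Type*} [CommRing R] {v : ι → ℕ} (hv : Function.Injective v) (z : ι → R) (s : Finset ι) :
    (∏ b ∈ s, (1 + Polynomial.C (z b) * Polynomial.X)).coeff 0 = 1 ∧
    (∏ b ∈ s, (1 + Polynomial.C (z b) * Polynomial.X)).coeff 1 = ∑ b ∈ s, z b ∧
    (∏ b ∈ s, (1 + Polynomial.C (z b) * Polynomial.X)).coeff 2 = ∑ b ∈ s, ∑ c ∈ s with v b < v c, z b * z c := by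
  classical
  induction s using Finset.induction_on with
  | empty => simp [Polynomial.coeff_one]
  | insert a s ha ih =>
    simp only [prod_insert ha, sum_insert ha, add_mul, one_mul, mul_assoc, Polynomial.coeff_add, Polynomial.coeff_C_mul,
      Polynomial.coeff_X_mul_zero, Polynomial.coeff_X_mul, ih, sum_filter, sum_add_distrib, lt_irrefl, if_false]
    refine ⟨by ring, by ring, ?_⟩
    rw [zero_add, ← add_assoc, ← sum_add_distrib, add_comm, Finset.mul_sum]
    refine congrArg₂ _ (sum_congr rfl fun c hc => ?_) rfl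
    have : v a ≠ v c := fun e => ha (hv e ▸ hc)
    split_ifs <;> first | omega | ring

namespace Iso

variable {cl : ZMod N →+* ZMod f} {H : ZMod N} {α : ZMod N → K} (h : Iso r cl H α) [CharP K 2]
include h

theorem pb_sum (T : ZMod f → Prop) [DecidablePred T] (j k : ZMod N) :
    ∑ b with T (cl b), bb 2 α b j * bb 2 α (b + H) (k + H) = if T (cl j) ∧ j = k then 1 else 0 := by
  by_cases t : T (cl j)
  · rw [sum_filter, if_congr (and_iff_right t) rfl rfl, ← h.orth j k]
    refine sum_congr rfl fun b _ => ?_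
    split_ifs with c
    · rfl
    · have : bb 2 α b j = 0 := by_contra fun e => c (h.bb_cl e ▸ t)
      rw [this, zero_mul]
  · rw [if_neg fun c => t c.1]
    refine sum_eq_zero fun b hb => ?_
    have : bb 2 α b j = 0 := by_contra fun e => t ((h.bb_cl e).symm ▸ (mem_filter.1 hb).2)
    rw [this, zero_mul]

theorem pb_inv (T : ZMod f → Prop) [DecidablePred T] (k : ZMod N) :
    ∑ b with T (cl b), bb 2 α (b + H) (k + H) • YY 2 α b = if T (cl k) then X k else 0 := by
  have e : ∀ b, bb 2 α (b + H) (k + H) • YY 2 α b =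
      ∑ j, (bb 2 α b j * bb 2 α (b + H) (k + H)) • (X j : MvPolynomial (ZMod N) K) := fun b => by
    rw [YY, Finset.smul_sum]
    exact sum_congr rfl fun j _ => by rw [smul_smul, mul_comm]
  simp_rw [e]
  rw [Finset.sum_comm]
  simp_rw [← sum_smul, h.pb_sum T]
  rw [Finset.sum_eq_single k]
  · by_cases t : T (cl k) <;> simp [t]
  · intro j _ hj; simp [hj]
  · simp

omit h [CharP K 2] in
theorem pb_YY (H : ZMod N) (α : ZMod N → K) (b : ZMod N) :
    YY 2 α b = ∑ j, bb 2 α b (j + H) • (X (j + H) : MvPolynomial (ZMod N) K) :=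
  (Equiv.sum_comp (Equiv.addRight H) fun j => bb 2 α b j • (X j : MvPolynomial (ZMod N) K)).symm

/-- `∑_(cl b = s) Y b Y (b + H) = ∑_(j, k) (∑_b bb b j bb (b+H) (k+H)) X j X (k + H)`; `orth`, `bb_cl` -/
theorem bind_Qs (s : ZMod f) : bind₁ (YY 2 α) (Qs K cl H s) = Qs K cl H s := by
  have e : ∀ b, YY 2 α b * YY 2 α (b + H) =
      ∑ k, (bb 2 α (b + H) (k + H) • YY 2 α b) * X (k + H) := fun b => by
    rw [pb_YY H α (b + H), Finset.mul_sum]
    exact sum_congr rfl fun k _ => by rw [mul_smul_comm, smul_mul_assoc]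
  simp only [Qs, map_sum, map_mul, bind₁_X_right, e]
  rw [Finset.sum_comm]
  simp_rw [← Finset.sum_mul, h.pb_inv (· = s)]
  rw [sum_filter]
  exact sum_congr rfl fun k _ => by split_ifs <;> simp

/-- In the quotient by `Sq`.  The product over a transversal of `i ↦ i + H` does not depend on the
transversal; take `T = {i | (cl i).val < (cl i + cl H).val}`, a union of classes.  For `b ∈ T`,
`1 + Y b Y (b+H) = ∏_j (1 + Y b (bb (b+H) (j+H) X (j+H)))` (`prod_one_add_sq`, `YY_sq_mem`); swap the
products; `∏_b (1 + X (j+H) (bb (b+H) (j+H) Y b)) = 1 + X (j+H) ∑_b … = 1 + X (j+H) X j` for `j ∈ T`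
(`X_sq_mem`, `orth`), and `1` for `j ∉ T` (`bb_cl`). -/
theorem bind_Gam : bind₁ (YY 2 α) (Gam K H) - Gam K H ∈ Sq N K := by
  have hh : ∀ i : ZMod N, i + H + H = i := fun i => by rw [add_assoc, h.HH, add_zero]
  have tr : ∀ Z : ZMod N → MvPolynomial (ZMod N) K,
      ∏ i with i.val < (i + H).val, (1 + Z i * Z (i + H)) =
        ∏ i with (cl i).val < (cl i + cl H).val, (1 + Z i * Z (i + H)) := fun Z =>
    pb_trans h.HH _ (fun i => by rw [hh, mul_comm]) _ _ (pb_lt h.H_ne h.HH) fun i => by
      rw [map_add]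
      exact pb_lt h.clH (by rw [← map_add, h.HH, map_zero]) _
  rw [← Ideal.Quotient.eq]
  have e0 : bind₁ (YY 2 α) (Gam K H) =
      ∏ i with i.val < (i + H).val, (1 + YY 2 α i * YY 2 α (i + H)) := by
    simp only [Gam, map_prod, map_add, map_one, map_mul, bind₁_X_right]
  rw [e0, Gam, tr (YY 2 α), tr X]
  set π := Ideal.Quotient.mk (Sq N K)
  have y2 : ∀ b, π (YY 2 α b) * π (YY 2 α b) = 0 := fun b => by
    rw [← map_mul]; exact Ideal.Quotient.eq_zero_iff_mem.2 (YY_sq_mem α b)
  have x2 : ∀ b, π (X b) * π (X b) = 0 := fun b => by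
    rw [← map_mul]; exact Ideal.Quotient.eq_zero_iff_mem.2 (X_sq_mem b)
  have e : ∀ b, π (1 + YY 2 α b * YY 2 α (b + H)) =
      ∏ j, (1 + π (X (j + H)) * π (bb 2 α (b + H) (j + H) • YY 2 α b)) := fun b => by
    rw [map_add, map_one, map_mul, pb_YY H α (b + H), map_sum, ← prod_one_add_sq (y2 b)]
    refine prod_congr rfl fun j _ => ?_
    rw [← map_mul, ← map_mul, mul_smul_comm, mul_smul_comm, mul_comm (X _)]
  rw [map_prod, map_prod]
  simp_rw [e]
  rw [Finset.prod_comm]
  simp_rw [prod_one_add_sq (x2 _), ← map_sum, h.pb_inv fun s => s.val < (s + cl H).val]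
  rw [prod_filter]
  refine prod_congr rfl fun j _ => ?_
  split_ifs
  · rw [map_add, map_one, map_mul, mul_comm]
  · simp

/-- coefficient of `X j X m`, `j ≠ m`: `∑_(b ≠ c) bb b l bb (b+H) j bb c l bb (c+H) m`, the full double
sum is `δ δ = 0` by `orth`, the diagonal is `ww`; the squares `X j X j` lie in `Sq` -/
theorem e2_mem (l : ZMod N) : ∑ b, ∑ c with b.val < c.val,
    (bb 2 α b l * bb 2 α c l) • (YY 2 α (b + H) * YY 2 α (c + H)) -
      ∑ j, ∑ m with j.val < m.val, ww H α l j m • (X j * X m) ∈ Sq N K := by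
  set a : ZMod N → ZMod N → K := fun b j => bb 2 α b l * bb 2 α (b + H) j with ha
  set g : ZMod N → ZMod N → K := fun j m => ∑ b, ∑ c with b.val < c.val, a b j * a c m with hg
  have e : ∀ b c, (bb 2 α b l * bb 2 α c l) • (YY 2 α (b + H) * YY 2 α (c + H)) =
      ∑ j, ∑ m, (a b j * a c m) • (X j * X m : MvPolynomial (ZMod N) K) := fun b c => by
    rw [YY, YY, sum_mul_sum, Finset.smul_sum]
    refine sum_congr rfl fun j _ => ?_
    rw [Finset.smul_sum]
    refine sum_congr rfl fun m _ => ?_
    rw [smul_mul_smul_comm, smul_smul]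
    congr 1
    simp only [ha]; ring
  have e1 : ∑ b, ∑ c with b.val < c.val,
      (bb 2 α b l * bb 2 α c l) • (YY 2 α (b + H) * YY 2 α (c + H)) =
      ∑ j, ∑ m, g j m • (X j * X m : MvPolynomial (ZMod N) K) := by
    simp only [e, hg, sum_smul]
    conv_lhs => enter [2, b]; rw [Finset.sum_comm]; enter [2, j]; rw [Finset.sum_comm]
    rw [Finset.sum_comm]
    exact sum_congr rfl fun j _ => Finset.sum_comm
  have sa : ∀ j, ∑ b, a b j = if l = j + H then 1 else 0 := fun j => by
    rw [← h.orth l (j + H), add_assoc, h.HH, add_zero]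
  have gw : ∀ j m, j ≠ m → g j m + g m j = ww H α l j m := fun j m jm => by
    have t := pb_tri fun b c => a b j * a c m
    rw [← sum_mul_sum, sa, sa] at t
    have z : (if l = j + H then (1 : K) else 0) * (if l = m + H then 1 else 0) = 0 := by
      split_ifs with p q
      · exact absurd (add_right_cancel (p.symm.trans q)) jm
      all_goals simp
    have w : ww H α l j m = ∑ b, a b j * a b m := sum_congr rfl fun b _ => by simp only [ha]; ring
    have u : g j m + g m j = ∑ b, ∑ c with b.val < c.val, (a b j * a c m + a c j * a b m) := by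
      simp only [hg, ← sum_add_distrib, mul_comm (a _ m)]
    rw [z] at t
    rw [w, u]
    linear_combination -t - (∑ b, a b j * a b m) * CharTwo.two_eq_zero (R := K)
  have e2 : ∑ j, ∑ m with j.val < m.val, (g j m • (X j * X m : MvPolynomial (ZMod N) K) + g m j • (X m * X j)) =
      ∑ j, ∑ m with j.val < m.val, ww H α l j m • (X j * X m) :=
    sum_congr rfl fun j _ => sum_congr rfl fun m hm => by
      rw [mul_comm (X m), ← add_smul, gw j m fun e => by simp [e] at hm]
  rw [e1, pb_tri, e2, add_sub_cancel_right]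
  refine Ideal.sum_mem _ fun j _ => ?_
  rw [smul_eq_C_mul]
  exact Ideal.mul_mem_left _ _ (X_sq_mem j)

/-- `coeff_hasse`; the substitution sends `Y i` to `Y i + bb i l T`, and modulo `Sq`
`1 + (Y i + a T)(Y (i+H) + a' T) = (1 + Y i Y (i+H)) (1 + a Y (i+H) T)(1 + a' Y i T)` as `a a' = 0`
(`bb_cl`, `clH`).  So the image of `bind Gam` is `bind Gam * ∏_b (1 + bb b l Y (b+H) T)` in
`(R / Sq)[T]`; the coefficient of `T²` is `bind Gam * e₂`; `bind_Gam`, `e2_mem`. -/
theorem hasse (l : ZMod N) {t : ZMod N →₀ ℕ} (ht : Red 2 t) :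
    coeff (t + single l 2) (bind₁ (YY 2 α) (Gam K H)) = coeff t (Wp H (ww H α l)) := by
  classical
  let π := Ideal.Quotient.mkₐ K (Sq N K)
  let φ : MvPolynomial (ZMod N) K →ₐ[K] _ := aeval fun i =>
    Polynomial.C (X i : MvPolynomial (ZMod N) K) + if i = l then Polynomial.X else 0
  let Φ := (Polynomial.mapAlgHom π).comp φ
  have hY : ∀ i, Φ (YY 2 α i) = Polynomial.C (π (YY 2 α i)) + bb 2 α i l • Polynomial.X := fun i => by
    simp [Φ, φ, YY, Finset.sum_add_distrib, apply_ite (Polynomial.map _), Polynomial.smul_C]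
  have hH : ∀ i, i + H + H = i := fun i => by rw [add_assoc, h.HH, add_zero]
  have sq : ∀ i, Polynomial.C (π (YY 2 α i)) * Polynomial.C (π (YY 2 α i)) = 0 := fun i => by
    rw [← map_mul, ← map_mul, show π _ = 0 from Ideal.Quotient.eq_zero_iff_mem.2 (YY_sq_mem α i), map_zero]
  let z := fun b => bb 2 α b l • π (YY 2 α (b + H))
  have key : Φ (bind₁ (YY 2 α) (Gam K H)) =
      Polynomial.C (π (bind₁ (YY 2 α) (Gam K H))) * ∏ b, (1 + Polynomial.C (z b) * Polynomial.X) := by
    rw [← prod_filter_mul_prod_filter_not univ fun i => i.val < (i + H).val,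
      prod_nbij' (s := {i | ¬ i.val < (i + H).val}) (t := {i | i.val < (i + H).val})
        (g := fun i => 1 + Polynomial.C (z (i + H)) * Polynomial.X) (· + H) (· + H) ?_ ?_ (fun i _ => hH i)
        (fun i _ => hH i) fun i _ => by rw [hH]]
    · simp only [Gam, map_prod, map_add, map_one, map_mul, bind₁_X_right, hY, ← prod_mul_distrib]
      refine prod_congr rfl fun i _ => ?_
      have a0 : bb 2 α i l * bb 2 α (i + H) l = 0 := by
        by_contra e
        exact h.clH (by simpa using (h.bb_cl (right_ne_zero_of_mul e)).symm.trans (h.bb_cl (left_ne_zero_of_mul e)))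
      replace a0 := congrArg (algebraMap K (Polynomial (MvPolynomial (ZMod N) K ⧸ Sq N K))) a0
      simp only [z, hH, ← Polynomial.smul_C, Algebra.smul_def, map_mul, map_zero] at a0 ⊢
      have s1 := sq i
      have s2 := sq (i + H)
      generalize Polynomial.C (π (YY 2 α i)) = y, Polynomial.C (π (YY 2 α (i + H))) = y',
        algebraMap K (Polynomial (_ ⧸ Sq N K)) (bb 2 α i l) = a,
        algebraMap K (Polynomial (_ ⧸ Sq N K)) (bb 2 α (i + H) l) = a',
        (Polynomial.X : Polynomial (_ ⧸ Sq N K)) = T at s1 s2 a0 ⊢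
      linear_combination (T ^ 2 - (1 + y * y') * y * y' * T ^ 2) * a0 - a' * y' * T * s1 - a * y * T * s2
    · intro i hi
      have : i.val ≠ (i + H).val := fun e => h.H_ne (by simpa using ZMod.val_injective N e)
      simp only [mem_filter, mem_univ, true_and, hH] at hi ⊢
      omega
    · intro i hi
      simp only [mem_filter, mem_univ, true_and, hH] at hi ⊢
      omega
  rw [coeff_hasse l _ ht, ← sub_eq_zero, ← coeff_sub]
  refine mem_Sq.1 (Ideal.Quotient.eq.1 ?_) t ht
  refine (Polynomial.coeff_map _ _).symm.trans (?_ : (Φ (bind₁ (YY 2 α) (Gam K H))).coeff 2 = π _)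
  rw [key,
    Polynomial.coeff_C_mul, (hs_e2 (ZMod.val_injective N) z univ).2.2, Wp, map_mul,
    show π _ = π _ from Ideal.Quotient.eq.2 h.bind_Gam, ← show π _ = π _ from Ideal.Quotient.eq.2 (h.e2_mem l)]
  simp only [z, map_sum, map_smul, map_mul, smul_mul_smul_comm]

end Iso

end Cfsg.Lib.US7
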