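import Cfsg.Agent.Lib.US7.PA

/-! # The top coefficients depend only on the multidegree -/

set_option autoImplicit false
set_option linter.unusedSectionVars false

namespace Cfsg.Lib.US7

open Finsupp MvPolynomial Finset Cfsg.Lib.CKS

variable {N f r : ℕ} [NeZero N] [NeZero f] {K : Type*} [Field K]

theorem Per.pc_add {H : ZMod N} (h0 : H ≠ 0) (hH : H + H = 0) {μ : ZMod N →₀ ℕ} (hμ : Per H μ) {j : ZMod N}
    (hj : μ j = 0) : Per H (μ + single j 1 + single (j + H) 1) := by
  have a1 : ∀ i, j = i + H ↔ j + H = i := fun i =>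
    ⟨fun e => by rw [e, add_assoc, hH, add_zero], fun e => by rw [← e, add_assoc, hH, add_zero]⟩
  refine ⟨fun i => ?_, fun i => ?_⟩
  · have a2 := hμ.1 i
    have a3 := hμ.2 j
    have a4 : j ≠ j + H := by simpa using h0
    simp only [Finsupp.coe_add, Pi.add_apply, Finsupp.single_apply]
    split_ifs <;> grind
  · simp only [Finsupp.coe_add, Pi.add_apply, Finsupp.single_apply, hμ.2, a1, add_left_inj]
    ring

theorem Per.pc_split {H : ZMod N} (h0 : H ≠ 0) (hH : H + H = 0) {m : ZMod N →₀ ℕ} (hm : Per H m) {j : ZMod N}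
    (hj : m j ≠ 0) : ∃ μ, Per H μ ∧ μ j = 0 ∧ m = μ + single j 1 + single (j + H) 1 := by
  have a1 : ∀ i, j = i + H ↔ j + H = i := fun i =>
    ⟨fun e => by rw [e, add_assoc, hH, add_zero], fun e => by rw [← e, add_assoc, hH, add_zero]⟩
  have a4 : j ≠ j + H := by simpa using h0
  refine ⟨m - single j 1 - single (j + H) 1, ⟨fun i => lt_of_le_of_lt (by simp; omega) (hm.1 i), fun i => ?_⟩,
    by have := hm.1 j; simp; omega, Finsupp.ext fun i => ?_⟩
  · simp only [Finsupp.coe_tsub, Pi.sub_apply, Finsupp.single_apply, hm.2, a1, add_left_inj]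
    omega
  · have a3 := hm.2 j
    simp only [Finsupp.coe_add, Pi.add_apply, Finsupp.coe_tsub, Pi.sub_apply, Finsupp.single_apply]
    split_ifs <;> grind

theorem pc_bind (α : ZMod N → K) (P : MvPolynomial (ZMod N) K) (u : ZMod N →₀ ℕ) {s : Finset (ZMod N →₀ ℕ)}
    (hs : P.support ⊆ s) : coeff u (bind₁ (YY 2 α) P) = ∑ m ∈ s, coeff m P * coeff u (Yp 2 α m) := by
  rw [coeff_bind]
  exact sum_subset hs fun m _ hm => by rw [MvPolynomial.notMem_support_iff.1 hm, zero_mul]

/-- A function on exponents invariant under moving one pair along `δ` depends only on the multidegree: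
the pairs `(j, k)` of one class such that `c` is invariant under the double swap
`(j k) (j+H k+H)` form an equivalence relation (`swap j k = swap j l * swap l k * swap j l`) containing
`(j, j + δ)`, so all pairs (`Iso.ker`); then induct on the number of `i` with `m i ≠ m' i`. -/
theorem Iso.const {cl : ZMod N →+* ZMod f} {H : ZMod N} {α : ZMod N → K} (h : Iso r cl H α)
    {δ : ZMod N} (h0 : δ ≠ 0) (hδ : cl δ = 0) {A : Type*} (c : (ZMod N →₀ ℕ) → A) (D : ℕ)
    (hc : ∀ μ j, Per H μ → μ j = 0 → μ (j + δ) = 0 → degree μ + 2 = D →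
      c (μ + single j 1 + single (j + H) 1) = c (μ + single (j + δ) 1 + single (j + δ + H) 1))
    {m m' : ZMod N →₀ ℕ} (hm : Per H m) (hm' : Per H m') (hD : degree m = D)
    (e : md cl m = md cl m') : c m = c m' := by
  classical
  have H0 := h.H_ne
  have ne : ∀ {j k}, cl j = cl k → j + H ≠ k := fun {j k} e e' => h.clH (by
    rw [← e', map_add] at e; simpa using e)
  let M : ZMod N → ZMod N → Prop := fun j k => ∀ μ, Per H μ → μ j = 0 → μ k = 0 → degree μ + 2 = D →
    c (μ + single j 1 + single (j + H) 1) = c (μ + single k 1 + single (k + H) 1)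
  have tr : ∀ j l k, cl j = cl l → cl l = cl k → M j l → M l k → M j k := by
    intro j l k e1 e2 h1 h2 μ hμ hj hk hd
    by_cases hl : μ l = 0
    · exact (h1 μ hμ hj hl hd).trans (h2 μ hμ hl hk hd)
    rcases eq_or_ne j k with rfl | jk
    · rfl
    obtain ⟨ν, hν, hl', rfl⟩ := hμ.pc_split H0 h.HH hl
    simp only [Finsupp.coe_add, Pi.add_apply, Nat.add_eq_zero_iff, Finsupp.single_apply, ite_eq_right_iff,
      one_ne_zero, imp_false] at hj hk
    have a1 := h2 _ (hν.pc_add H0 h.HH hj.1.1) (by
      simp [hl', Ne.symm hj.1.2, ne e1]) (by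
      simp [hk.1.1, jk, ne (e1.trans e2)]) (by simpa using hd)
    have a2 := h1 _ (hν.pc_add H0 h.HH hk.1.1) (by
      simp [hj.1.1, jk.symm, ne (e1.trans e2).symm]) (by
      simp [hl', Ne.symm hk.1.2, ne e2.symm]) (by simpa using hd)
    refine (congrArg c (by abel)).trans (a1.trans ((congrArg c (by abel)).trans (a2.trans (congrArg c (by abel)))))
  have all : ∀ j k, cl j = cl k → M j k := fun j k e => by
    obtain ⟨n, rfl⟩ := (h.ker h0 hδ).2 j k e
    clear e
    induction n with
    | zero => intro μ _ _ _ _; simp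
    | succ n ih =>
      rw [succ_nsmul, ← add_assoc]
      exact tr _ _ _ (by simp [hδ]) (by simp [hδ]) ih fun μ => hc μ _
  induction hn : #{i | m i ≠ m' i} using Nat.strong_induction_on generalizing m with
  | _ n ih =>
  by_cases e0 : m = m'
  · rw [e0]
  obtain ⟨i, hi⟩ := DFunLike.ne_iff.1 e0
  have e1 := congrFun e (cl i)
  rw [md_apply, md_apply] at e1
  have ex : ∀ a b : ZMod N →₀ ℕ, a i ≠ b i → ∑ j with cl j = cl i, a j = ∑ j with cl j = cl i, b j →
      ∃ j, cl j = cl i ∧ a j < b j := fun a b h1 h2 => by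
    by_contra! k
    exact h1 ((sum_eq_sum_iff_of_le fun j hj => k j (mem_filter.1 hj).2).1 h2.symm i (by simp)).symm
  obtain ⟨k, k1, k2⟩ := ex m m' hi e1
  obtain ⟨j, j1, j2⟩ := ex m' m hi.symm e1.symm
  have k3 := hm'.1 k
  have k4 := hm'.2 k
  have j3 := hm.1 j
  have j4 := hm'.2 j
  obtain ⟨μ, hμ, hj, rfl⟩ := hm.pc_split H0 h.HH (j := j) (by omega)
  have hk : μ k = 0 := by simp only [Finsupp.coe_add, Pi.add_apply] at k2; omega
  refine (all j k (j1.trans k1.symm) μ hμ hj hk (by simpa using hD)).trans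
    (ih _ ?_ (hμ.pc_add H0 h.HH hk) (by simpa using hD) ?_ rfl)
  · have a1 := hμ.2 j
    have a2 := hμ.2 k
    have a3 := ne (j1.trans k1.symm)
    have a4 := ne (k1.trans j1.symm)
    have a5 := ne (j := j) rfl
    have a6 := ne (j := k) rfl
    rw [← hn]
    refine card_lt_card ⟨fun x => ?_, fun hs => ?_⟩
    · simp only [Finsupp.coe_add, Pi.add_apply, Finsupp.single_apply, mem_filter, mem_univ, true_and] at j2 k2 ⊢
      clear all tr hc ih ex e e1 hn hi e0 ne hm
      grind
    · have := hs (mem_filter.2 ⟨mem_univ j, j2.ne'⟩)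
      simp only [Finsupp.coe_add, Pi.add_apply, Finsupp.single_apply, mem_filter, mem_univ, true_and] at j2 k2 this
      clear all tr hc ih ex e e1 hn hi e0 ne hm hs
      grind
  · rw [← e]
    ext s
    simp [md_single, j1, k1]

namespace Iso

variable {cl : ZMod N →+* ZMod f} {H : ZMod N} {α : ZMod N → K} (h : Iso r cl H α) [CharP K 2]
include h

/-- The derivation with `X j ↦ bb (b+H) (j+H) • Y b + bb b (j+H) • Y (b+H)` (`mkDerivation`) sends
`Y c` to `(δ_(c,b) + δ_(c,b+H)) Y c` (`orth'`), so it kills `Yp m` for periodic `m`, hence `bind Q`;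
by `deriv_mem` it sends `Q` into `Sq`.  Take the coefficient of `μ + e_k + e_(j+H)`. -/
theorem move {Q : MvPolynomial (ZMod N) K} (hQ : ∀ m, coeff m Q ≠ 0 → Per H m)
    (hS : bind₁ (YY 2 α) Q - Q ∈ Sq N K) {μ : ZMod N →₀ ℕ} (hμ : Per H μ) {j k : ZMod N}
    (jk : j ≠ k) (hj : μ j = 0) (hk : μ k = 0) (b : ZMod N) :
    bb 2 α b k * bb 2 α (b + H) (j + H) * (coeff (μ + single j 1 + single (j + H) 1) Q +
      coeff (μ + single k 1 + single (k + H) 1) Q) = 0 := by
  classical
  by_cases h0 : bb 2 α b k * bb 2 α (b + H) (j + H) = 0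
  · rw [h0, zero_mul]
  have c1 := h.bb_cl (left_ne_zero_of_mul h0)
  have c2 : cl j = cl b := by simpa using h.bb_cl (right_ne_zero_of_mul h0)
  have c3 : ∀ {x}, cl x = cl b → bb 2 α b (x + H) = 0 := fun e => not_not.1 fun k => h.clH (by
    simpa [e] using h.bb_cl k)
  have HH : ∀ x, x + H + H = x := fun x => by rw [add_assoc, h.HH, add_zero]
  let Z : ZMod N → MvPolynomial (ZMod N) K := fun i =>
    bb 2 α (b + H) (i + H) • YY 2 α b + bb 2 α b (i + H) • YY 2 α (b + H)
  let L : MvPolynomial (ZMod N) K → MvPolynomial (ZMod N) K := fun S => ∑ i, Z i * pderiv i S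
  have l1 : ∀ c, L (YY 2 α c) =
      ((if c = b then 1 else 0 : K) + if c = b + H then 1 else 0) • YY 2 α c := fun c => by
    have a1 : ∀ i, pderiv i (YY 2 α c) = C (bb 2 α c i) := fun i => by
      simp [YY, Pi.single_apply, smul_eq_C_mul, apply_ite]
    have a2 := h.orth' c (b + H)
    simp only [L, Z, a1, mul_comm _ (C _), ← smul_eq_C_mul, smul_add, smul_smul, sum_add_distrib, ← Finset.sum_smul,
      h.orth', add_smul]
    rw [HH] at a2
    rw [a2]
    congr 1 <;> split_ifs with e <;> simp [e]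
  have l2 : ∀ m, L (Yp 2 α m) = ((m b : K) + m (b + H)) • Yp 2 α m := fun m => by
    induction m using Finsupp.induction_linear with
    | zero => simp [L, Yp]
    | add u v hu hv =>
      have : L (Yp 2 α u * Yp 2 α v) = L (Yp 2 α u) * Yp 2 α v + Yp 2 α u * L (Yp 2 α v) := by
        simp only [L, pderiv_mul, Finset.sum_mul, Finset.mul_sum, ← sum_add_distrib]
        exact sum_congr rfl fun i _ => by ring
      simp only [Yp_add, this, hu, hv, smul_mul_assoc, mul_smul_comm, Finsupp.coe_add, Pi.add_apply, Nat.cast_add]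
      module
    | single c n =>
      have : L (YY 2 α c ^ n) = n * YY 2 α c ^ (n - 1) * L (YY 2 α c) := by
        simp only [L, pderiv_pow, Finset.mul_sum]
        exact sum_congr rfl fun i _ => by ring
      rw [Yp_single, this, l1]
      rcases n with _ | n
      · simp
      · rw [mul_smul_comm, Nat.add_sub_cancel, mul_assoc, ← pow_succ, ← nsmul_eq_mul, ← Nat.cast_smul_eq_nsmul K,
          smul_smul]
        simp only [Finsupp.single_apply]
        congr 1
        split_ifs <;> ring
  have l3 : L (bind₁ (YY 2 α) Q) = 0 := by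
    have : bind₁ (YY 2 α) Q = ∑ m ∈ Q.support, coeff m Q • Yp 2 α m := by
      ext u; simp [coeff_bind, coeff_sum]
    have a : L (∑ m ∈ Q.support, coeff m Q • Yp 2 α m) = ∑ m ∈ Q.support, coeff m Q • L (Yp 2 α m) := by
      simp only [L, map_sum, Derivation.map_smul, Finset.mul_sum, Finset.smul_sum, mul_smul_comm]
      exact sum_comm
    rw [this, a]
    refine sum_eq_zero fun m hm => ?_
    rw [l2, (hQ m (MvPolynomial.mem_support_iff.1 hm)).2, CharTwo.add_self_eq_zero, zero_smul, smul_zero]
  have l4 : L Q ∈ Sq N K := by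
    have : L (bind₁ (YY 2 α) Q - Q) ∈ Sq N K :=
      Ideal.sum_mem _ fun i _ => Ideal.mul_mem_left _ _ (pderiv_mem hS i)
    simp only [L, map_sub, mul_sub, sum_sub_distrib] at this l3
    rwa [l3, zero_sub, neg_mem_iff] at this
  have n1 : ∀ {x y}, cl x = cl b → cl y = cl b → x + H ≠ y := fun e1 e2 e => h.clH (by
    rw [← e, map_add, e1] at e2; simpa using e2)
  have n2 := n1 c1 c1
  have n3 := n1 c2 c2
  have n4 := n1 c1 c2
  have n5 := n1 c2 c1
  have n6 : j + H ≠ k + H := by simpa using jk
  have p1 := hμ.2 j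
  have p2 := hμ.2 k
  have l5 := l4 (μ + single k 1 + single (j + H) 1) fun i => by
    have := hμ.1 i
    simp only [Finsupp.coe_add, Pi.add_apply, Finsupp.single_apply]
    split_ifs <;> grind
  simp only [L, Z, YY, Finset.smul_sum, ← sum_add_distrib, smul_smul, ← add_smul, Finset.sum_mul, smul_mul_assoc,
    coeff_sum, coeff_smul, coeff_X_mul', coeff_pderiv] at l5
  rw [← Fintype.sum_prod_type', Fintype.sum_eq_add (j, k) (k + H, j + H) (by simp [n4.symm])] at l5
  · rw [if_pos (by simp), if_pos (by simp), add_tsub_cancel_right, add_right_comm μ, add_tsub_cancel_right,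
      add_right_comm μ] at l5
    simp only [HH, c3 c2, zero_mul, mul_zero, add_zero, zero_add, Finsupp.coe_add, Pi.add_apply, Finsupp.single_apply,
      hj, p2, hk, if_neg n3, if_neg n2.symm, Nat.cast_zero, mul_one, smul_eq_mul] at l5
    linear_combination l5
  · rintro ⟨i, l⟩ hx
    split_ifs with hl
    swap
    · exact smul_zero _
    refine smul_eq_zero_of_right _ (mul_eq_zero_of_left (not_not.1 fun k0 => ?_) _)
    have q := (hQ _ k0).2
    have q1 := q j
    have q2 := q k
    rw [Finsupp.mem_support_iff] at hl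
    simp only [Finsupp.coe_add, Pi.add_apply, Finsupp.coe_tsub, Pi.sub_apply, Finsupp.single_apply, ne_eq,
      Prod.mk.injEq] at q1 q2 hl hx
    clear l1 l2 l3 l4 l5 q k0 n1 c3 HH hQ hS h0
    grind

variable [Fintype K] (hK : Fintype.card K = 2 ^ N) {P : MvPolynomial (ZMod N) K} (I : Inv H α P)
  {D : ℕ} (top : ∀ m, coeff m P ≠ 0 → degree m ≤ D)
include hK I top

/-- as `PM.top_coeff`: a reduced `t` of degree `D` is alone in its residue class (`carry`,
`red_unique`); in the other degrees both sides vanish (`hom`, `degree_eq_md`) -/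
theorem top_mem : bind₁ (YY 2 α) (homogeneousComponent D P) - homogeneousComponent D P ∈ Sq N K := by
  intro t ht
  rw [coeff_sub, pc_bind α _ t (s := P.support) fun m hm => by
    simp only [MvPolynomial.mem_support_iff, coeff_homogeneousComponent] at hm ⊢
    exact fun e => hm (by simp [e])]
  have dg : ∀ m u, coeff u (Yp 2 α m) ≠ 0 → degree u = degree m := fun m u hu => by
    rw [degree_eq_md cl, degree_eq_md cl, h.hom m u hu]
  simp only [coeff_homogeneousComponent]
  split_ifs with e
  · rw [sum_congr rfl (g := fun m => coeff m P * coeff t (Yp 2 α m)) fun m _ => by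
      split_ifs with e1
      · rfl
      · rw [not_not.1 fun k => e1 ((dg m t k).symm.trans e), mul_zero, mul_zero], ← coeff_bind, ← coeff_sub]
    refine coeff_eq_zero_of_alone hK _ I.inv t fun m hm hw => ?_
    obtain ⟨m', h1, h2⟩ : ∃ m', coeff m' P ≠ 0 ∧ degree m = degree m' := by
      by_cases h1 : coeff m P = 0
      · rw [coeff_sub, h1, sub_zero, coeff_bind] at hm
        obtain ⟨m', -, hm'⟩ := exists_ne_zero_of_sum_ne_zero hm
        exact ⟨m', left_ne_zero_of_mul hm', dg _ _ (right_ne_zero_of_mul hm')⟩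
      · exact ⟨m, h1, rfl⟩
    obtain ⟨t', k, c1, c2, c3, c4, c5, -⟩ := carry le_rfl m
    have h3 := (degree_eq_zero_iff m').not.2 (I.ne m' h1)
    have h4 := top m' h1
    have h5 := red_unique two_pos c1 ht (c4 ((degree_eq_zero_iff m).not.1 (by omega)))
      ((degree_eq_zero_iff t).not.1 (by omega)) (c2.trans hw)
    rw [c5 (by rw [h5] at c3; omega), h5]
  · rw [sub_zero]
    refine sum_eq_zero fun m _ => ?_
    split_ifs with e1
    · rw [not_not.1 fun k => e ((dg m t k).trans e1), mul_zero]
    · exact zero_mul _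

variable {κ ι : ZMod N} (hκ : α κ ≠ 0) (hι : α ι ≠ 0) (ne : κ ≠ ι)
include hκ hι ne

/-- `const` with `δ = κ - ι`; `move` with `b = j - ι`, `k = j + δ` -/
theorem top_const {m m' : ZMod N →₀ ℕ} (hm : Per H m) (hm' : Per H m') (hD : degree m = D)
    (e : md cl m = md cl m') : coeff m P = coeff m' P := by
  refine h.const (δ := κ - ι) (sub_ne_zero.2 ne) (by rw [map_sub, h.cls _ hκ, h.cls _ hι, sub_zero])
    (fun m => coeff m P) D (fun μ j hμ hj hk hd => ?_) hm hm' hD e
  have := h.move (Q := homogeneousComponent D P) (fun m hm => I.per m fun e => hm (by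
    simp [coeff_homogeneousComponent, e])) (h.top_mem hK I top) hμ (k := j + (κ - ι))
    (by simpa using sub_ne_zero.2 ne) hj hk (j - ι)
  rw [coeff_homogeneousComponent, coeff_homogeneousComponent, if_pos (by simpa using hd),
    if_pos (by simpa using hd), bb, bb, show j + (κ - ι) - (j - ι) = κ by ring,
    show j + H - (j - ι + H) = ι by ring] at this
  exact CharTwo.add_eq_zero.1 ((mul_eq_zero.1 this).resolve_left
    (mul_ne_zero (pow_ne_zero _ hκ) (pow_ne_zero _ hι)))

/-- `coeff_bind` for `P` and for `Gam`, `hom`, `coeff_Gam`, `top_const` -/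
theorem coeff_bind_top {m u : ZMod N →₀ ℕ} (hm : Per H m) (hD : degree m = D)
    (e : md cl u = md cl m) :
    coeff u (bind₁ (YY 2 α) P) = coeff m P * coeff u (bind₁ (YY 2 α) (Gam K H)) := by
  classical
  rw [pc_bind α P u (s := P.support ∪ (Gam K H).support) subset_union_left,
    pc_bind α _ u (s := P.support ∪ (Gam K H).support) subset_union_right, Finset.mul_sum]
  refine sum_congr rfl fun m' _ => ?_
  by_cases h0 : coeff u (Yp 2 α m') = 0
  · simp [h0]
  rw [coeff_Gam h.H_ne h.HH]
  split_ifs with hp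
  · rw [one_mul, h.top_const hK I top hκ hι ne hm hp hD (e.symm.trans (h.hom _ _ h0))]
  · rw [not_not.1 fun k => hp (I.per m' k), zero_mul, mul_zero]

end Iso

end Cfsg.Lib.US7
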