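import Cfsg.Agent.Lib.US7.PA

/-! # Vanishing carry coefficients force a monomial map -/

set_option autoImplicit false
set_option linter.unusedSectionVars false

namespace Cfsg.Lib.US7

open Finsupp MvPolynomial Finset Cfsg.Lib.CKS

variable {N f r : ℕ} [NeZero N] [NeZero f] {K : Type*} [Field K]

theorem pd_minor (x y z x' y' z' : Fin 4 → K) (M : Matrix (Fin 4) (Fin 4) K)
    (hM : ∀ i j, M i j = x i * x' j + y i * z' j + z i * y' j) : M.det = 0 := by
  have e : M = (Matrix.of fun i => ![x i, y i, z i, 0]) * Matrix.of ![x', z', y', 0] := by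
    ext i j
    simp [hM, Matrix.mul_apply, Fin.sum_univ_succ, add_assoc]
  rw [e, Matrix.det_mul, Matrix.det_eq_zero_of_column_eq_zero (3 : Fin 4) (fun i => by simp),
    zero_mul]

theorem pd_key (η x y z : ZMod 7 → K)
    (h : ∀ a b, (if a = b then η (a + 1) else 0) + (if a = b + 1 then η b else 0) +
      (if b = a + 1 then η a else 0) = x a * x b + y a * z b + z a * y b) :
    η 0 * η 3 = 0 ∧ (η 3 = 0 → η 0 * η 2 = 0) ∧ (η 6 = 0 → η 2 = 0 → η 3 = 0 → η 0 * η 1 = 0) := by
  have key : ∀ (u v : Fin 4 → ZMod 7) (M : Matrix (Fin 4) (Fin 4) K),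
      (∀ i j, M i j = (if u i = v j then η (u i + 1) else 0) + (if u i = v j + 1 then η (v j) else 0) +
      (if v j = u i + 1 then η (u i) else 0)) → M.det = 0 := fun u v M hM =>
    pd_minor (x ∘ u) (y ∘ u) (z ∘ u) (x ∘ v) (y ∘ v) (z ∘ v) M fun i j => (hM i j).trans (h _ _)
  have e0 : (0 : ZMod 7) + 1 = 1 := rfl
  have e1 : (1 : ZMod 7) + 1 = 2 := rfl
  have e2 : (2 : ZMod 7) + 1 = 3 := rfl
  have e3 : (3 : ZMod 7) + 1 = 4 := rfl
  have e6 : (6 : ZMod 7) + 1 = 0 := rfl
  refine ⟨?_, fun h3 => ?_, fun h6 h2 h3 => ?_⟩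
  · have := key ![0, 2, 3, 6] ![1, 2, 4, 6]
      !![η 0, 0, 0, η 6; η 1, η 3, 0, 0; 0, η 2, η 3, 0; 0, 0, 0, η 0] (by
        intro i j
        fin_cases i <;> fin_cases j <;> simp +decide [e0, e1, e2, e3, e6])
    simp [Matrix.det_succ_row_zero, Fin.sum_univ_succ, Fin.succAbove] at this
    rw [mul_eq_zero]; tauto
  · have := key ![0, 2, 3, 6] ![1, 2, 3, 6]
      !![η 0, 0, 0, η 6; η 1, η 3, η 2, 0; 0, η 2, η 4, 0; 0, 0, 0, η 0] (by
        intro i j
        fin_cases i <;> fin_cases j <;> simp +decide [e0, e1, e2, e3, e6])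
    simp [h3, Matrix.det_succ_row_zero, Fin.sum_univ_succ, Fin.succAbove] at this
    rw [mul_eq_zero]; tauto
  · have := key ![0, 1, 2, 6] ![0, 1, 2, 6]
      !![η 1, η 0, 0, η 6; η 0, η 2, η 1, 0; 0, η 1, η 3, 0; η 6, 0, 0, η 0] (by
        intro i j
        fin_cases i <;> fin_cases j <;> simp +decide [e0, e1, e2, e3, e6])
    simp [h2, h3, h6, Matrix.det_succ_row_zero, Fin.sum_univ_succ, Fin.succAbove] at this
    rw [mul_eq_zero]; tauto

/-- The cyclic tridiagonal matrix `M a a = η (a+1)`, `M a (a+1) = M (a+1) a = η a` has rank `≤ 3`, so all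
`4 × 4` minors vanish (product of a `4 × 3` and a `3 × 4` matrix; or check by `ring` /
`linear_combination` with `2 = 0`).  Rows `0 2 3 6`, columns `1 2 4 6` give `η 0² η 3² = 0`, so
`η a η (a+3) = 0`; for each remaining support with two elements some minor is a single monomial
(checked in python over all supports). -/
theorem rank3 [CharP K 2] (η x y z : ZMod 7 → K)
    (h : ∀ a b, (if a = b then η (a + 1) else 0) + (if a = b + 1 then η b else 0) +
      (if b = a + 1 then η a else 0) = x a * x b + y a * z b + z a * y b) {a b : ZMod 7}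
    (ha : η a ≠ 0) (hb : η b ≠ 0) : a = b := by
  have sh : ∀ s : ZMod 7, η (0 + s) * η (3 + s) = 0 ∧ (η (3 + s) = 0 → η (0 + s) * η (2 + s) = 0) ∧
      (η (6 + s) = 0 → η (2 + s) = 0 → η (3 + s) = 0 → η (0 + s) * η (1 + s) = 0) := fun s =>
    pd_key (fun a => η (a + s)) (fun a => x (a + s)) (fun a => y (a + s)) (fun a => z (a + s))
      fun a b => by
        have := h (a + s) (b + s)
        simp only [add_right_comm _ s 1, add_left_inj] at this
        exact this
  simp only [zero_add] at sh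
  have k3 : ∀ s, η s ≠ 0 → η (3 + s) = 0 := fun s hs => (mul_eq_zero.1 (sh s).1).resolve_left hs
  have k2 : ∀ s, η s ≠ 0 → η (2 + s) = 0 := fun s hs =>
    (mul_eq_zero.1 ((sh s).2.1 (k3 s hs))).resolve_left hs
  have k1 : ∀ s, η s ≠ 0 → η (1 + s) = 0 := fun s hs => by
    by_contra h1
    have h6 : η (6 + s) = 0 := by
      by_contra h6
      have := k2 _ h6
      rw [← add_assoc] at this
      exact h1 this
    exact h1 ((mul_eq_zero.1 ((sh s).2.2 h6 (k2 s hs) (k3 s hs))).resolve_left hs)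
  have : ∀ a b : ZMod 7, a = b ∨ b = 1 + a ∨ b = 2 + a ∨ b = 3 + a ∨ a = 1 + b ∨ a = 2 + b ∨
      a = 3 + b := by decide
  rcases this a b with e | e | e | e | e | e | e
  · exact e
  · exact absurd (e ▸ k1 a ha) hb
  · exact absurd (e ▸ k2 a ha) hb
  · exact absurd (e ▸ k3 a ha) hb
  · exact absurd (e ▸ k1 b hb) ha
  · exact absurd (e ▸ k2 b hb) ha
  · exact absurd (e ▸ k3 b hb) ha

/-- reindex by `a ↦ c + a.val • δ` -/
theorem rank3' [CharP K 2] {A : Type*} [AddCommGroup A] [DecidableEq A] {δ : A}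
    (hδ : addOrderOf δ = 7) (η x y z : A → K)
    (h : ∀ a b, (if a = b then η (a + δ) else 0) + (if a = b + δ then η b else 0) +
      (if b = a + δ then η a else 0) = x a * x b + y a * z b + z a * y b) {c : A} {k : ℕ}
    (ha : η c ≠ 0) (hb : η (c + k • δ) ≠ 0) : k • δ = 0 := by
  let ψ : ZMod 7 →+ A := ZMod.lift 7 ⟨zmultiplesHom A δ, by
    simp only [zmultiplesHom_apply, natCast_zsmul]
    rw [← hδ]; exact addOrderOf_nsmul_eq_zero δ⟩
  have hk : ∀ n : ℕ, ψ n = n • δ := fun n => by
    have := ZMod.lift_coe 7 ⟨zmultiplesHom A δ, by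
      simp only [zmultiplesHom_apply, natCast_zsmul]
      rw [← hδ]; exact addOrderOf_nsmul_eq_zero δ⟩ (n : ℤ)
    simpa using this
  have h1 : ψ 1 = δ := by simpa using hk 1
  have hinj : Function.Injective ψ := by
    rw [injective_iff_map_eq_zero]
    intro a ha
    rw [← ZMod.natCast_zmod_val a] at ha ⊢
    rw [hk, ← addOrderOf_dvd_iff_nsmul_eq_zero, hδ] at ha
    exact (ZMod.natCast_eq_zero_iff _ _).2 ha
  have := rank3 (fun a => η (c + ψ a)) (fun a => x (c + ψ a)) (fun a => y (c + ψ a))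
    (fun a => z (c + ψ a)) (fun a b => by
      have := h (c + ψ a) (c + ψ b)
      simp only [add_assoc c, add_right_inj, ← h1, ← map_add, hinj.eq_iff] at this
      exact this) (a := 0) (b := k) (by simpa using ha) (by simpa [hk] using hb)
  rw [← hk, ← this, map_zero]

namespace Iso

variable {cl : ZMod N →+* ZMod f} {H : ZMod N} {α : ZMod N → K} [CharP K 2]

theorem pd_exists (h : Iso r cl H α) (s : ZMod f) : ∃ c, cl c = s := by
  have : 0 < #{i | cl i = s} := by rw [h.fib]; exact h.prime.pos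
  obtain ⟨c, hc⟩ := card_pos.1 this
  exact ⟨c, by simpa using hc⟩

theorem pd_delta (h : Iso r cl H α) (h1 : cl H = 1) : (1 + H) ≠ 0 ∧ cl (1 + H) = 0 := by
  refine ⟨fun e => ?_, by rw [map_add, map_one, ← h1, ← map_add, h.HH, map_zero]⟩
  have e2 : ((2 : ℕ) : ZMod N) = 0 := by
    have := h.HH
    rw [eq_neg_of_add_eq_zero_right e] at this
    push_cast
    linear_combination -this
  have h2 := Nat.le_of_dvd two_pos ((ZMod.natCast_eq_zero_iff _ _).1 e2)
  have h3 : r ≤ N := by
    rw [← h.fib 0]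
    exact (card_le_univ _).trans (ZMod.card N).le
  have := h.seven
  omega

/-- Multiply by `bb (c+H) (l+H) ^ 2` and sum over `l` (`orth'` squared; terms with `cl l ≠ s` vanish
for `cl c = s`): `bb (c+H) j * bb (c+H) m = 0`; take `j = c + H + κ`, `m = c + H + ι`. -/
theorem mono_of_ww (h : Iso r cl H α) (s : ZMod f)
    (hw : ∀ l j m, cl l = s → cl j = s + cl H → cl m = s + cl H → j ≠ m → ww H α l j m = 0)
    {κ ι : ZMod N} (hκ : α κ ≠ 0) (hι : α ι ≠ 0) : κ = ι := by
  by_contra hne
  obtain ⟨c, hc⟩ := h.pd_exists s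
  have hsq : ∀ b, ∑ l, bb 2 α b l ^ 2 * bb 2 α (c + H) (l + H) ^ 2 = if b = c then 1 else 0 := by
    intro b
    have := congrArg (· ^ 2) (h.orth' b c)
    simp only [sum_pow_char, mul_pow] at this
    rw [this]; split_ifs <;> simp
  have key : ∀ j m, cl j = s + cl H → cl m = s + cl H → j ≠ m →
      bb 2 α (c + H) j * bb 2 α (c + H) m = 0 := by
    intro j m hj hm jm
    have e1 : ∑ l, ww H α l j m * bb 2 α (c + H) (l + H) ^ 2 = 0 := by
      refine sum_eq_zero fun l _ => ?_
      by_cases hl : cl l = s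
      · rw [hw l j m hl hj hm jm, zero_mul]
      · have : bb 2 α (c + H) (l + H) = 0 := by
          by_contra h0
          have := h.bb_cl h0
          rw [map_add, map_add, add_left_inj, hc] at this
          exact hl this
        simp [this]
    have e2 : ∑ l, ww H α l j m * bb 2 α (c + H) (l + H) ^ 2 =
        ∑ b, (∑ l, bb 2 α b l ^ 2 * bb 2 α (c + H) (l + H) ^ 2) *
          (bb 2 α (b + H) j * bb 2 α (b + H) m) := by
      simp only [ww, Finset.sum_mul]
      rw [Finset.sum_comm]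
      exact sum_congr rfl fun b _ => sum_congr rfl fun l _ => by ring
    rw [e2] at e1
    simpa [hsq] using e1
  have := key (c + H + κ) (c + H + ι) (by simp [hc, h.cls κ hκ]) (by simp [hc, h.cls ι hι])
    (by simpa using hne)
  simp [bb, hκ, hι] at this

variable [Fintype K] (hK : Fintype.card K = 2 ^ N)
include hK

/-- `x ^ 2 ^ N = x`, `pow_val_succ` -/
theorem bb_sq (α : ZMod N → K) (b l : ZMod N) : bb 2 α b l ^ 2 = bb 2 α (b + 1) (l + 1) := by
  simp only [bb, add_sub_add_right_eq_sub]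
  by_cases h0 : α (l - b) = 0
  · simp [h0]
  · rw [← pow_mul, mul_comm]
    have h1 := FiniteField.pow_card_sub_one_eq_one _ h0
    rw [hK] at h1
    exact (pow_eq_pow_of_modEq (pow_val_succ two_pos b) h1).symm

/-- `δ = 1 + H`.  `ww (i-1) j m = ∑_c bb (c+δ) i bb c j bb c m` (`bb_sq`).  For distinct indices this is
`hw`; for `j = m` the last two sums cancel and the first is `∑ bb (c+δ) i bb (c+1) (j+1)`, evaluated by
`orth`; `δ ≠ 0`; outside the class `s` everything vanishes (`bb_cl`, `cl δ = 0`). -/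
theorem theta (h : Iso r cl H α) (h1 : cl H = 1) (s : ZMod f)
    (hw : ∀ i j m, cl i = s → cl j = s → cl m = s → i ≠ j → i ≠ m → j ≠ m →
      ww H α (i - 1) j m + ww H α (j - 1) i m + ww H α (m - 1) i j = 0)
    {i : ZMod N} (hi : cl i = s) (j m : ZMod N) :
    ∑ c, (bb 2 α (c + (1 + H)) i * bb 2 α c j * bb 2 α c m +
      bb 2 α c i * bb 2 α (c + (1 + H)) j * bb 2 α c m +
      bb 2 α c i * bb 2 α c j * bb 2 α (c + (1 + H)) m) =
    (if i = j + (1 + H) ∧ j = m then 1 else 0) + (if j = i + (1 + H) ∧ i = m then 1 else 0) +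
      (if m = i + (1 + H) ∧ i = j then 1 else 0) := by
  obtain ⟨d0, dcl⟩ := h.pd_delta h1
  have two : (2 : K) = 0 := CharTwo.two_eq_zero
  have hT : ∀ i j m, ∑ c, bb 2 α (c + (1 + H)) i * bb 2 α c j * bb 2 α c m = ww H α (i - 1) j m := by
    intro i j m
    rw [ww, ← Equiv.sum_comp (Equiv.addRight H)]
    refine sum_congr rfl fun c _ => ?_
    rw [bb_sq hK, sub_add_cancel, Equiv.coe_addRight]
    congr 3
    linear_combination h.HH
  have hS : ∀ i j, ∑ c, bb 2 α (c + (1 + H)) i * bb 2 α c j * bb 2 α c j =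
      if i = j + (1 + H) then 1 else 0 := by
    intro i j
    have := h.orth (j + 1) (i + H)
    rw [← Equiv.sum_comp (Equiv.addRight 1)] at this
    have e : (j + 1 = i + H) ↔ (i = j + (1 + H)) :=
      ⟨fun e => by linear_combination -e - h.HH, fun e => by linear_combination -e - h.HH⟩
    simp only [e, Equiv.coe_addRight, add_assoc i, h.HH, add_zero] at this
    rw [← this]
    refine sum_congr rfl fun c _ => ?_
    rw [← bb_sq hK, add_assoc]; ring
  have ne : ∀ a : ZMod N, ¬ a = a + (1 + H) := fun a e => d0 (by linear_combination -e)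
  by_cases jm : j = m
  · subst jm
    have : ¬ (j = i + (1 + H) ∧ i = j) := fun ⟨a, b⟩ => ne j (b ▸ a)
    simp only [this, and_true, if_false, add_zero]
    rw [← hS]
    exact sum_congr rfl fun c _ => by
      linear_combination (bb 2 α c i * bb 2 α (c + (1 + H)) j * bb 2 α c j) * two
  by_cases im : i = m
  · subst im
    have ij : ¬ i = j := Ne.symm jm
    simp only [jm, ij, and_true, and_false, if_false, add_zero, zero_add]
    rw [← hS]
    exact sum_congr rfl fun c _ => by
      linear_combination (bb 2 α c i * bb 2 α (c + (1 + H)) i * bb 2 α c j) * two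
  by_cases ij : i = j
  · subst ij
    simp only [jm, and_true, and_false, if_false, add_zero, zero_add]
    rw [← hS]
    exact sum_congr rfl fun c _ => by
      linear_combination (bb 2 α c i * bb 2 α (c + (1 + H)) i * bb 2 α c m) * two
  simp only [jm, im, ij, and_false, if_false, add_zero]
  by_cases hc : cl j = s ∧ cl m = s
  · rw [← hw i j m hi hc.1 hc.2 ij im jm, ← hT, ← hT, ← hT, ← sum_add_distrib, ← sum_add_distrib]
    exact sum_congr rfl fun c _ => by ring
  · have z : ∀ a b c : ZMod N, cl a = cl b → cl a = cl c →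
        bb 2 α a i * bb 2 α b j * bb 2 α c m = 0 := by
      intro a b c ab ac
      by_contra h0
      have h1 := h.bb_cl (left_ne_zero_of_mul (left_ne_zero_of_mul h0))
      have h2 := h.bb_cl (right_ne_zero_of_mul (left_ne_zero_of_mul h0))
      have h3 := h.bb_cl (right_ne_zero_of_mul h0)
      exact hc ⟨by rw [h2, ← ab, ← h1, hi], by rw [h3, ← ac, ← h1, hi]⟩
    refine sum_eq_zero fun c _ => ?_
    have e : cl (c + (1 + H)) = cl c := by rw [map_add, dcl, add_zero]
    rw [z _ _ _ e e, z _ _ _ e.symm rfl, z _ _ _ rfl e.symm, add_zero, add_zero]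

/-- Multiply `theta` by `bb (a+H) (j+H) bb (b+H) (m+H)`, sum over `j m` (`orth'`): `rank3'` with
`η c = bb c i`, `x a = bb (a+H) (i - δ + H)`, `y a = bb (a+H) (i+H)`, `z a = bb (a+H) (i+δ+H)`;
`η (i - κ) ≠ 0 ≠ η (i - ι)`; `ker`. -/
theorem mono_of_cubic (h : Iso 7 cl H α) (h1 : cl H = 1) (s : ZMod f)
    (hw : ∀ i j m, cl i = s → cl j = s → cl m = s → i ≠ j → i ≠ m → j ≠ m →
      ww H α (i - 1) j m + ww H α (j - 1) i m + ww H α (m - 1) i j = 0)
    {κ ι : ZMod N} (hκ : α κ ≠ 0) (hι : α ι ≠ 0) : κ = ι := by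
  obtain ⟨d0, dcl⟩ := h.pd_delta h1
  obtain ⟨i, hi⟩ := h.pd_exists s
  obtain ⟨ho, hk⟩ := h.ker d0 dcl
  obtain ⟨k, hk⟩ := hk (i - κ) (i - ι) (by rw [map_sub, map_sub, h.cls κ hκ, h.cls ι hι])
  have key : k • (1 + H) = 0 := by
    refine rank3' ho (fun c => bb 2 α c i) (fun a => bb 2 α (a + H) (i - (1 + H) + H))
      (fun a => bb 2 α (a + H) (i + H)) (fun a => bb 2 α (a + H) (i + (1 + H) + H))
      (fun a b => ?_) (c := i - κ) (by simp [bb, hκ]) (by rw [← hk]; simp [bb, hι])
    have P : ∀ (u v : ZMod N) (t : K), ∑ j, ∑ m, t * bb 2 α u j * bb 2 α v m *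
        (bb 2 α (a + H) (j + H) * bb 2 α (b + H) (m + H)) =
        t * (if u = a then 1 else 0) * (if v = b then 1 else 0) := by
      intro u v t
      rw [← h.orth', ← h.orth', mul_assoc, sum_mul_sum, Finset.mul_sum]
      refine sum_congr rfl fun j _ => ?_
      rw [Finset.mul_sum]
      exact sum_congr rfl fun m _ => by ring
    have E : ∑ j, ∑ m, (∑ c, (bb 2 α (c + (1 + H)) i * bb 2 α c j * bb 2 α c m +
        bb 2 α c i * bb 2 α (c + (1 + H)) j * bb 2 α c m +
        bb 2 α c i * bb 2 α c j * bb 2 α (c + (1 + H)) m)) *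
        (bb 2 α (a + H) (j + H) * bb 2 α (b + H) (m + H)) =
        ∑ c, (bb 2 α (c + (1 + H)) i * (if c = a then 1 else 0) * (if c = b then 1 else 0) +
        bb 2 α c i * (if c + (1 + H) = a then 1 else 0) * (if c = b then 1 else 0) +
        bb 2 α c i * (if c = a then 1 else 0) * (if c + (1 + H) = b then 1 else 0)) := by
      simp only [← P, Finset.sum_mul, add_mul, ← sum_add_distrib]
      rw [sum_congr rfl fun j _ => Finset.sum_comm, Finset.sum_comm]
    simp only [theta hK h h1 s hw hi] at E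
    have e1 : ∀ j m : ZMod N, (i = j + (1 + H) ∧ j = m) ↔ (j = i - (1 + H) ∧ m = i - (1 + H)) :=
      fun j m => ⟨fun ⟨a, b⟩ => ⟨by rw [a]; ring, by rw [a, b]; ring⟩,
        fun ⟨a, b⟩ => ⟨by rw [a]; ring, by rw [a, b]⟩⟩
    have e2 : ∀ j m : ZMod N, (j = i + (1 + H) ∧ i = m) ↔ (j = i + (1 + H) ∧ m = i) :=
      fun j m => by rw [eq_comm (a := i)]
    have e3 : ∀ j m : ZMod N, (m = i + (1 + H) ∧ i = j) ↔ (j = i ∧ m = i + (1 + H)) :=
      fun j m => by rw [eq_comm (a := i), and_comm]
    simp only [e1, e2, e3] at E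
    simp only [add_mul, sum_add_distrib, ite_and, ite_mul, one_mul, zero_mul,
      sum_ite_irrel, Finset.sum_ite_eq', mem_univ, if_true, sum_const_zero, mul_ite, mul_one,
      mul_zero] at E
    have s3 : ∑ x, (if x + (1 + H) = b then if x = a then bb 2 α x i else 0 else 0) =
        if b = a + (1 + H) then bb 2 α a i else 0 := by
      rw [Finset.sum_eq_single a (fun x _ hx => by simp [hx]) (by simp)]
      simp only [if_true, eq_comm (a := b)]
    have s1 : (if b = a then bb 2 α (b + (1 + H)) i else 0) =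
        if a = b then bb 2 α (a + (1 + H)) i else 0 := by
      by_cases e : a = b
      · simp [e]
      · simp [e, Ne.symm e]
    rw [s1, s3] at E
    simp only [eq_comm (b := a)] at E
    linear_combination -E
  rw [key, add_zero, sub_right_inj] at hk
  exact hk.symm

end Iso

end Cfsg.Lib.US7
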