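import Cfsg.Agent.Lib.US7.PB
import Cfsg.Agent.Lib.US7.PC

/-! # Invariant functions are functions of the hermitian norm (second half of `US7/PE`) -/

set_option autoImplicit false
set_option linter.unusedSectionVars false

namespace Cfsg.Lib.US7

open Finsupp MvPolynomial Finset Cfsg.Lib.CKS

variable {N f r : ℕ} [NeZero N] [NeZero f] {K : Type*} [Field K]

theorem Qs_hom (cl : ZMod N →+* ZMod f) (H : ZMod N) (s : ZMod f) :
    IsWeightedHomogeneous (fun i => (Pi.single (cl i) 1 : ZMod f → ℕ)) (Qs K cl H s)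
      (Pi.single s 1 + Pi.single (s + cl H) 1) := by
  refine IsWeightedHomogeneous.sum _ _ _ fun j hj => ?_
  have hj' : cl j = s := by simpa using hj
  have := (isWeightedHomogeneous_X K (fun i => (Pi.single (cl i) 1 : ZMod f → ℕ)) j).mul
    (isWeightedHomogeneous_X K (fun i => (Pi.single (cl i) 1 : ZMod f → ℕ)) (j + H))
  rwa [map_add, hj'] at this

theorem Qs_per {cl : ZMod N →+* ZMod f} {H : ZMod N} (hH : H + H = 0) (s : ZMod f)
    (m : ZMod N →₀ ℕ) (hm : coeff m (Qs K cl H s) ≠ 0) (i : ZMod N) : m (i + H) = m i := by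
  classical
  rw [Qs, coeff_sum] at hm
  obtain ⟨j, -, hj⟩ := Finset.exists_ne_zero_of_sum_ne_zero hm
  rw [X, X, monomial_mul, coeff_monomial] at hj
  have e : single j 1 + single (j + H) 1 = m := by by_contra h; exact hj (if_neg h)
  subst e
  have h1 : (j = i + H) ↔ (j + H = i) := by
    constructor
    · rintro rfl; rw [add_assoc, hH, add_zero]
    · rintro rfl; rw [add_assoc, hH, add_zero]
  simp only [Finsupp.coe_add, Pi.add_apply, Finsupp.single_apply, h1, add_left_inj]
  exact add_comm _ _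

theorem Qs_ne {cl : ZMod N →+* ZMod f} {H : ZMod N} {α : ZMod N → K} (h : Iso r cl H α)
    (s : ZMod f) : Qs K cl H s ≠ 0 := by
  classical
  obtain ⟨j, hj⟩ : (univ.filter fun i => cl i = s).Nonempty := by
    rw [← Finset.card_pos, h.fib]; have := h.seven; omega
  intro h0
  have h1 := congrArg (eval fun i => if i = j ∨ i = j + H then (1 : K) else 0) h0
  rw [Qs, map_sum, map_zero, Finset.sum_eq_single j] at h1
  · simp at h1
  · intro j' hj' hne
    have a1 : cl j = s := by simpa using hj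
    have a2 : cl j' = s := by simpa using hj'
    have a3 : j' ≠ j + H := fun e => h.clH (by
      rw [e, map_add, a1] at a2
      simpa using a2)
    simp [hne, a3]
  · intro h2; exact absurd hj h2

namespace Iso

variable {cl : ZMod N →+* ZMod f} {H : ZMod N} {α : ZMod N → K} [CharP K 2] [Fintype K]
  (hK : Fintype.card K = 2 ^ N)
include hK

theorem pow_shift {x : K} (hx : x ≠ 0) (j : ZMod N) (k : ℕ) :
    x ^ 2 ^ (j + (k : ZMod N)).val = (x ^ 2 ^ j.val) ^ 2 ^ k := by
  have h5 : x ^ (2 ^ N - 1) = 1 := by rw [← hK]; exact FiniteField.pow_card_sub_one_eq_one x hx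
  have h1 : 2 ^ (j + (k : ZMod N)).val ≡ 2 ^ j.val * 2 ^ k [MOD 2 ^ N - 1] := by
    refine (pow_val_add two_pos j k).trans (Nat.ModEq.mul_left _ ?_)
    rw [ZMod.val_natCast]
    exact (pow_modEq two_pos k).symm
  rw [← pow_mul, pow_eq_pow_mod _ h5, h1, ← pow_eq_pow_mod _ h5]

theorem ev_Qs' (H : ZMod N) (s : ZMod f) {x : K} (hx : x ≠ 0) :
    ev 2 N x (Qs K cl H s) = ev 2 N x (Qs K cl H 0) ^ 2 ^ s.val := by
  haveI : Fact (Nat.Prime 2) := ⟨Nat.prime_two⟩
  rw [Qs, Qs, map_sum, map_sum, sum_pow_char_pow]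
  symm
  refine Finset.sum_bij' (fun j _ => j + (s.val : ZMod N)) (fun j _ => j - (s.val : ZMod N))
    (fun j hj => ?_) (fun j hj => ?_) (fun j _ => by simp) (fun j _ => by simp) fun j _ => ?_
  · have : cl j = 0 := by simpa using hj
    simp only [Finset.mem_filter, Finset.mem_univ, true_and]
    rw [map_add, this, map_natCast, ZMod.natCast_zmod_val, zero_add]
  · have : cl j = s := by simpa using hj
    simp only [Finset.mem_filter, Finset.mem_univ, true_and]
    rw [map_sub, this, map_natCast, ZMod.natCast_zmod_val, sub_self]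
  · simp only [map_mul, ev, aeval_X]
    rw [add_right_comm j _ H, pow_shift hK hx, pow_shift hK hx, mul_pow]

theorem exists_R' (h : Iso r cl H α) {a : ZMod f → ℕ} (a0 : a ≠ 0) (ha : ∀ s, a (s + cl H) = a s)
    (a1 : ∀ s, a s ≤ 1) : ∃ (R : MvPolynomial (ZMod N) K) (k : ℕ), R ≠ 0 ∧ Inv H α R ∧
      (∀ m, coeff m R ≠ 0 → md cl m = a) ∧ ∀ x, x ≠ 0 → ev 2 N x R = ev 2 N x (Qs K cl H 0) ^ k := by
  classical
  set T := univ.filter fun s : ZMod f => s.val < (s + cl H).val ∧ a s = 1 with hT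
  have hη : cl H + cl H = 0 := by rw [← map_add, h.HH, map_zero]
  have hw : ∑ s ∈ T, ((Pi.single s 1 : ZMod f → ℕ) + Pi.single (s + cl H) 1) = a := by
    funext t
    have e1 : ∀ s : ZMod f, (t = s + cl H) ↔ (t + cl H = s) := fun s => by
      constructor
      · rintro rfl; rw [add_assoc, hη, add_zero]
      · rintro rfl; rw [add_assoc, hη, add_zero]
    simp only [Finset.sum_apply, Pi.add_apply, Pi.single_apply, Finset.sum_add_distrib, e1,
      Finset.sum_ite_eq, hT, Finset.mem_filter, Finset.mem_univ, true_and, ha, add_assoc, hη,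
      add_zero]
    have e2 : t.val ≠ (t + cl H).val := fun e => h.clH (by
      have := ZMod.val_injective _ e
      simpa using this)
    have e3 := a1 t
    split_ifs <;> omega
  have hm : ∀ m, coeff m (∏ s ∈ T, Qs K cl H s) ≠ 0 → md cl m = a := fun m hm => by
    have h2 := IsWeightedHomogeneous.prod T _ _ fun s _ => Qs_hom (K := K) cl H s
    rw [md, h2 hm, hw]
  refine ⟨∏ s ∈ T, Qs K cl H s, ∑ s ∈ T, 2 ^ s.val,
    Finset.prod_ne_zero_iff.2 fun s _ => Qs_ne h s, ⟨fun m h1 => ⟨fun i => ?_, ?_⟩,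
      fun m h1 h2 => a0 ?_, fun x _ => ?_⟩, hm, fun x hx => ?_⟩
  · have := le_md cl m i
    rw [hm m h1] at this
    have := a1 (cl i)
    omega
  · revert m
    refine Finset.prod_induction _ (fun Q : MvPolynomial (ZMod N) K =>
      ∀ m, coeff m Q ≠ 0 → ∀ i, m (i + H) = m i) (fun A B hA hB m h1 i => ?_) (fun m h1 i => ?_)
      fun s _ => Qs_per h.HH s
    · rw [coeff_mul] at h1
      obtain ⟨u, hu, h2⟩ := Finset.exists_ne_zero_of_sum_ne_zero h1
      have hu' : u.1 + u.2 = m := by simpa using hu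
      rw [← hu', Finsupp.add_apply, Finsupp.add_apply, hA _ (left_ne_zero_of_mul h2),
        hB _ (right_ne_zero_of_mul h2)]
    · rw [coeff_one] at h1
      have : 0 = m := by by_contra h2; exact h1 (if_neg h2)
      subst this; rfl
  · rw [← hm m h1, h2, map_zero]
  · rw [map_prod, Finset.prod_congr rfl fun s _ => h.bind_Qs s, sub_self, map_zero]
  · rw [map_prod, Finset.prod_congr rfl fun s _ => ev_Qs' hK H s hx, Finset.prod_pow_eq_pow_sum]

theorem fun_of_norm' (h : Iso r cl H α) (hg : ∀ x : K, x ≠ 0 → ∑ l, α l * x ^ 2 ^ l.val ≠ 0)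
    {κ ι : ZMod N} (hκ : α κ ≠ 0) (hι : α ι ≠ 0) (ne : κ ≠ ι)
    (htc : ∀ P : MvPolynomial (ZMod N) K, Inv H α P → ∀ m₀ : ZMod N →₀ ℕ, coeff m₀ P ≠ 0 →
      (∀ m, coeff m P ≠ 0 → degree m ≤ degree m₀) → (∀ s, md cl m₀ s ≤ 1) ∨ ∀ i, m₀ i = 1)
    {P : MvPolynomial (ZMod N) K}
    (I : Inv H α P) : ∃ φ : K → K, ∀ x, x ≠ 0 → ev 2 N x P = φ (ev 2 N x (Qs K cl H 0)) := by
  classical
  haveI : Fact (Nat.Prime 2) := ⟨Nat.prime_two⟩
  induction hn : P.support.card using Nat.strong_induction_on generalizing P with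
  | _ n ih =>
  by_cases P0 : P = 0
  · exact ⟨fun _ => 0, fun x _ => by rw [P0, map_zero]⟩
  obtain ⟨m₀, b1, b2⟩ := Finset.exists_max_image P.support (fun m => degree m)
    (MvPolynomial.support_nonempty.2 P0)
  simp only [MvPolynomial.mem_support_iff] at b1 b2
  have key : ∀ (S : MvPolynomial (ZMod N) K) (ψ : K → K),
      (∀ m, coeff m (P - S) ≠ 0 → coeff m P ≠ 0 ∧ m ≠ m₀) →
      (∀ x : K, x ≠ 0 → ev 2 N x (bind₁ (YY 2 α) S - S) = 0) →
      (∀ x : K, x ≠ 0 → ev 2 N x S = ψ (ev 2 N x (Qs K cl H 0))) →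
      ∃ φ : K → K, ∀ x, x ≠ 0 → ev 2 N x P = φ (ev 2 N x (Qs K cl H 0)) := by
    intro S ψ s1 s2 s3
    have I' : Inv H α (P - S) := ⟨fun m hm => I.per m (s1 m hm).1, fun m hm => I.ne m (s1 m hm).1,
      fun x hx => by
        have e1 := I.inv x hx
        have e2 := s2 x hx
        simp only [map_sub] at e1 e2 ⊢
        linear_combination e1 - e2⟩
    have hlt : (P - S).support.card < n := by
      rw [← hn]
      refine Finset.card_lt_card ⟨fun m hm => ?_, fun hle => ?_⟩
      · exact MvPolynomial.mem_support_iff.2 (s1 m (MvPolynomial.mem_support_iff.1 hm)).1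
      · exact (s1 m₀ (MvPolynomial.mem_support_iff.1 (hle (MvPolynomial.mem_support_iff.2 b1)))).2 rfl
    obtain ⟨φ, hφ⟩ := ih _ hlt I' rfl
    refine ⟨fun y => φ y + ψ y, fun x hx => ?_⟩
    have e1 := hφ x hx
    rw [map_sub] at e1
    simp only [← e1, ← s3 x hx, sub_add_cancel]
  rcases htc P I m₀ b1 b2 with h1 | h1
  · have a0 : md cl m₀ ≠ 0 := fun h0 => I.ne m₀ b1 (by
      rw [← degree_eq_zero_iff, degree_eq_md cl, h0]; simp)
    obtain ⟨R, k, R0, IR, mR, eR⟩ := exists_R' hK h a0 (I.per m₀ b1).md h1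
    have dR : ∀ m, coeff m R ≠ 0 → degree m = degree m₀ := fun m hm => by
      rw [degree_eq_md cl, degree_eq_md cl, mR m hm]
    have cR : ∀ m, coeff m R ≠ 0 → coeff m R = coeff m₀ R ∧ coeff m P = coeff m₀ P := fun m hm =>
      ⟨h.top_const hK IR (fun m hm => (dR m hm).le) hκ hι ne (IR.per m hm) (I.per m₀ b1)
        (dR m hm) (mR m hm),
       h.top_const hK I b2 hκ hι ne (IR.per m hm) (I.per m₀ b1) (dR m hm) (mR m hm)⟩
    have ρ0 : coeff m₀ R ≠ 0 := by
      obtain ⟨m, hm⟩ := MvPolynomial.support_nonempty.2 R0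
      rw [MvPolynomial.mem_support_iff] at hm
      rwa [← (cR m hm).1]
    refine key ((coeff m₀ P / coeff m₀ R) • R) (fun y => (coeff m₀ P / coeff m₀ R) * y ^ k)
      (fun m hm => ?_) (fun x hx => ?_) fun x hx => ?_
    · rw [coeff_sub, coeff_smul, smul_eq_mul] at hm
      by_cases h2 : coeff m R = 0
      · rw [h2, mul_zero, sub_zero] at hm
        exact ⟨hm, fun e => ρ0 (e ▸ h2)⟩
      · exfalso
        rw [(cR m h2).1, (cR m h2).2, div_mul_cancel₀ _ ρ0, sub_self] at hm
        exact hm rfl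
    · rw [map_smul, ← smul_sub, map_smul, IR.inv x hx, smul_zero]
    · rw [map_smul, eR x hx, smul_eq_mul]
  · have e0 : m₀ = Finsupp.equivFunOnFinite.symm fun _ : ZMod N => 2 - 1 := by
      ext i; simp [h1 i]
    have e1 : ∀ x : K, x ≠ 0 → ev 2 N x (monomial m₀ (coeff m₀ P)) = coeff m₀ P := fun x hx => by
      rw [ev_monomial]
      conv_lhs => rw [e0, wt_top two_pos, ← hK, FiniteField.pow_card_sub_one_eq_one x hx, mul_one,
        ← e0]
    refine key (monomial m₀ (coeff m₀ P)) (fun _ => coeff m₀ P) (fun m hm => ?_) (fun x hx => ?_) e1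
    · rw [coeff_sub, coeff_monomial] at hm
      by_cases e : m₀ = m
      · subst e; simp at hm
      · rw [if_neg e, sub_zero] at hm; exact ⟨hm, Ne.symm e⟩
    · rw [map_sub, ev_bind hK α hx, e1 _ hx, e1 _ (hg x hx), sub_self]

end Iso

end Cfsg.Lib.US7
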