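import Cfsg.Agent.Lib.US7.PB
import Cfsg.Agent.Lib.US7.PC
import Cfsg.Agent.Lib.US7.PD
import Cfsg.Agent.Lib.US7.PEb

/-! # The carry identity; invariant functions are functions of the hermitian norm -/

set_option autoImplicit false
set_option linter.unusedSectionVars false

namespace Cfsg.Lib.US7

open Finsupp MvPolynomial Finset Cfsg.Lib.CKS

variable {N f r : ℕ} [NeZero N] [NeZero f] {K : Type*} [Field K]

/-- if `s ≠ s'` the difference `a - a'` is `≥ 2` at `s` and `≤ 1` at `s + η` -/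
theorem md_rigid {η : ZMod f} (hη : η ≠ 0) {a a' b : ZMod f → ℕ} (ha : ∀ s, a (s + η) = a s)
    (ha' : ∀ s, a' (s + η) = a' s) {s s' : ZMod f}
    (e : b + Pi.single s 2 = a + Pi.single (s + 1) 1) (e' : b + Pi.single s' 2 = a' + Pi.single (s' + 1) 1) :
    s = s' ∧ a = a' := by
  have h1 : (1 : ZMod f) ≠ 0 := fun h => hη (by rw [← mul_one η, h, mul_zero])
  obtain rfl : s = s' := by
    by_contra n
    have a1 := congrFun e s
    have a2 := congrFun e' s
    have a3 := congrFun e (s + η)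
    have a4 := congrFun e' (s + η)
    simp only [Pi.add_apply, Pi.single_apply, ha, ha', if_neg n, left_eq_add, h1, add_eq_left, hη, if_true,
      if_false] at a1 a2 a3 a4
    split_ifs at * <;> omega
  exact ⟨rfl, add_right_cancel (e.symm.trans e')⟩

theorem pe_md (cl : ZMod N →+* ZMod f) (i : ZMod N) (k : ℕ) : md cl (single i k) = Pi.single (cl i) k :=
  funext fun s => by simp only [md_single, Pi.single_apply, eq_comm]

theorem Iso.pe_one {cl : ZMod N →+* ZMod f} {H : ZMod N} {α : ZMod N → K} (h : Iso r cl H α) :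
    (1 : ZMod f) ≠ 0 := fun e => h.clH (by rw [← mul_one (cl H), e, mul_zero])

theorem Iso.pe_lt {cl : ZMod N →+* ZMod f} {H : ZMod N} {α : ZMod N → K} (h : Iso r cl H α)
    {m : ZMod N →₀ ℕ} (hm : Red 2 m) (s : ZMod f) :
    md cl m s ≤ r ∧ ∀ i, cl i = s → m i ≠ 1 → md cl m s < r := by
  have : ∀ j ∈ ({j | cl j = s} : Finset (ZMod N)), m j ≤ 1 := fun j _ => Nat.le_of_lt_succ (hm j)
  rw [md_apply, ← h.fib s, card_eq_sum_ones]
  exact ⟨sum_le_sum this, fun i hi h1 => sum_lt_sum this ⟨i, by simpa using hi, by have := hm i; omega⟩⟩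

namespace Iso

variable {cl : ZMod N →+* ZMod f} {H : ZMod N} {α : ZMod N → K} [CharP K 2] [Fintype K]
  (hK : Fintype.card K = 2 ^ N)
include hK

section top

variable (h : Iso r cl H α) {P : MvPolynomial (ZMod N) K} (I : Inv H α P)
  {D : ℕ} (top : ∀ m, coeff m P ≠ 0 → degree m ≤ D)
  {κ ι : ZMod N} (hκ : α κ ≠ 0) (hι : α ι ≠ 0) (ne : κ ≠ ι)
  {m₀ : ZMod N →₀ ℕ} (h0 : coeff m₀ P ≠ 0) (hD : degree m₀ = D)
include h I top hκ hι ne h0 hD

/-- `extract` for `S = bind P - P` at `wt t`; `degree t + 1 = D`.  A monomial `u` of `S` has the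
multidegree of a monomial of `P` (`hom`), so even degree `≤ D`, `u ≠ 0`; `carry` and `red_unique` give
`k = 1`, `u + e_(l+1) = t + 2 e_l`; `md_rigid` gives `cl l = s`, `md u = md m₀`; `l ↦ u` is injective;
`coeff u P = 0` (not reduced), `coeff_bind_top`, `hasse`. -/
theorem one_carry {s : ZMod f} {t : ZMod N →₀ ℕ} (ht : Red 2 t)
    (e : md cl t + Pi.single s 2 = md cl m₀ + Pi.single (s + 1) 1) :
    ∑ l with cl l = s ∧ t (l + 1) = 1, coeff (t - single (l + 1) 1) (Wp H (ww H α l)) = 0 := by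
  classical
  have p0 := I.per m₀ h0
  have ev0 := hD ▸ p0.even h.H_ne h.HH
  have dt : degree t + 1 = D := by
    have := congrArg (fun a => ∑ x, a x) e
    simp only [Pi.add_apply, sum_add_distrib, ← degree_eq_md, Finset.sum_pi_single', mem_univ, if_true] at this
    omega
  have t0 : t ≠ 0 := by
    rintro rfl
    rw [← dt, map_zero] at ev0
    exact absurd ev0 (by decide)
  have sp : ∀ l, t (l + 1) = 1 → t - single (l + 1) 1 + single (l + 1) 1 = t := fun l hl =>
    tsub_add_cancel_of_le (Finsupp.single_le_iff.2 hl.ge)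
  have rd : ∀ l, Red 2 (t - single (l + 1) 1) := fun l i => lt_of_le_of_lt (by simp) (ht i)
  have key : ∀ l, cl l = s → t (l + 1) = 1 → coeff m₀ P * coeff (t - single (l + 1) 1) (Wp H (ww H α l)) =
      coeff (t - single (l + 1) 1 + single l 2) (bind₁ (YY 2 α) P - P) := fun l h1 h2 => by
    rw [coeff_sub, h.coeff_bind_top hK I top hκ hι ne p0 hD, h.hasse l (rd l), eq_comm, sub_eq_self]
    · by_contra n
      have := (I.per _ n).1 l
      simp at this
    · refine add_right_cancel (b := Pi.single (s + 1) 1) ?_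
      rw [← e, ← sp l h2, add_tsub_cancel_right, map_add, map_add, pe_md, pe_md, map_add, map_one, h1,
        add_right_comm]
  refine mul_left_cancel₀ h0 ?_
  rw [mul_zero, Finset.mul_sum, ← extract hK (bind₁ (YY 2 α) P - P).support (fun m => coeff m (bind₁ (YY 2 α) P - P))
    (fun x hx => by rw [← ev_eq, I.inv x hx]) (wt 2 t)]
  refine Finset.sum_bij_ne_zero (fun l _ _ => t - single (l + 1) 1 + single l 2) (fun l hl n => ?_)
    (fun l _ _ l' _ _ e' => ?_) (fun u hu n => ?_) fun l hl _ => ?_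
  · obtain ⟨-, h1, h2⟩ := mem_filter.1 hl
    refine mem_filter.2 ⟨MvPolynomial.mem_support_iff.2 (key l h1 h2 ▸ n), ?_⟩
    conv_rhs => rw [← sp l h2]
    rw [wt_add, wt_add, wt_single, wt_single, one_mul]
    exact ((pow_val_succ two_pos l).add_left _).symm
  · by_contra n
    have a1 := DFunLike.congr_fun e' l
    have a2 := rd l' l
    simp only [Finsupp.add_apply, single_eq_same, single_eq_of_ne n] at a1
    omega
  · obtain ⟨m', a1, a2⟩ : ∃ m, coeff m P ≠ 0 ∧ md cl u = md cl m := by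
      by_cases h1 : coeff u P = 0
      · rw [coeff_sub, h1, sub_zero, coeff_bind] at n
        obtain ⟨m, -, hm⟩ := Finset.exists_ne_zero_of_sum_ne_zero n
        exact ⟨m, left_ne_zero_of_mul hm, h.hom _ _ (right_ne_zero_of_mul hm)⟩
      · exact ⟨u, h1, rfl⟩
    have du : degree u = degree m' := by rw [degree_eq_md cl, a2, ← degree_eq_md]
    obtain ⟨t', k, c1, c2, c3, c4, -, c6⟩ := carry le_rfl u
    obtain rfl : t' = t := red_unique two_pos c1 ht (c4 fun u0 => I.ne m' a1 (by
      rw [← degree_eq_zero_iff, ← du, u0, map_zero])) t0 (c2.trans (mem_filter.1 hu).2)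
    have a3 := top m' a1
    obtain ⟨x, hx⟩ := (I.per m' a1).even h.H_ne h.HH
    obtain ⟨y, hy⟩ := ev0
    obtain ⟨l, hl⟩ := c6 (by omega)
    have a4 := congrArg (md cl) hl
    rw [map_add, map_add, pe_md, pe_md, map_add, map_one, a2] at a4
    have a5 := (md_rigid h.clH p0.md (I.per m' a1).md e a4.symm).1
    have a6 : t' (l + 1) = 1 := by
      have := DFunLike.congr_fun hl (l + 1)
      have n1 : l + 1 ≠ l := fun e => h.pe_one (by simpa using congrArg cl e)
      simp only [Finsupp.add_apply, single_eq_same, single_eq_of_ne n1] at this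
      have := c1 (l + 1)
      omega
    have a7 : t' - single (l + 1) 1 + single l 2 = u :=
      add_right_cancel (b := single (l + 1) 1) (by rw [add_right_comm, sp l a6, hl])
    exact ⟨l, mem_filter.2 ⟨mem_univ _, a5.symm, a6⟩, by rwa [key l a5.symm a6, a7], a7⟩
  · exact key l (mem_filter.1 hl).2.1 (mem_filter.1 hl).2.2

/-- `exists_per` with `a = md m₀ - 2 e_s - 2 e_(s + cl H)`, `Z = {i, j, m}`; `one_carry` for
`t = μ + e_i + e_j + e_m`; the terms with `l + 1 ∉ Z` vanish (`Wp_zero`), the others by `Wp_eq` -/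
theorem carry3 {s : ZMod f} (h2 : 2 ≤ md cl m₀ s) (h1 : md cl m₀ (s + 1) < r) {i j m : ZMod N}
    (hi : cl i = s + 1) (hj : cl j = s + cl H) (hm : cl m = s + cl H) (ij : i ≠ j) (im : i ≠ m)
    (jm : j ≠ m) : ww H α (i - 1) j m +
      (if cl H = 1 then ww H α (j - 1) i m + ww H α (m - 1) i j else 0) = 0 := by
  classical
  have p0 := I.per m₀ h0
  have n1 := h.pe_one
  have nH := h.clH
  have HH : cl H + cl H = 0 := by rw [← map_add, h.HH, map_zero]
  have sH : ∀ x y, x + cl H = y ↔ x = y + cl H := fun x y =>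
    ⟨fun e => by rw [← e, add_assoc, HH, add_zero], fun e => by rw [e, add_assoc, HH, add_zero]⟩
  have hs := p0.md (cl := cl) s
  have hx : ∀ x, (if x = s then 2 else 0) + (if x = s + cl H then 2 else 0) ≤ md cl m₀ x := fun x => by
    split_ifs with c c'
    · exact absurd (left_eq_add.1 (c.symm.trans c')) nH
    · rwa [c]
    · rwa [‹x = _›, hs]
    · exact Nat.zero_le _
  obtain ⟨μ, pμ, mμ, zμ⟩ := h.exists_per (a := md cl m₀ - Pi.single s 2 - Pi.single (s + cl H) 2) (fun x => by
    simp only [Pi.sub_apply, Pi.single_apply, p0.md, add_left_inj, sH x s]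
    omega) {i, j, m} fun x => by
      rw [card_filter, sum_insert (by simp [ij, im]), sum_pair jm, hi, hj, hm]
      simp only [Pi.sub_apply, Pi.single_apply, add_left_inj]
      have a2 : md cl m₀ x + (if s + 1 = x ∨ s + 1 = x + cl H then 1 else 0) ≤ r := by
        split_ifs with e
        · rcases e with e | e
          · rwa [← e]
          · rwa [← p0.md x, ← e]
        · exact (h.pe_lt p0.1 x).1
      have a3 := hx x
      have a4 : (if x = s then 2 else 0) + (if x = s + cl H then 2 else 0) =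
          2 * if s + cl H = x ∨ s = x then 1 else 0 := by
        by_cases c : x = s
        · simp [c, nH]
        · simp [c, Ne.symm c, eq_comm (a := x)]
      omega
  have zi := zμ i (by simp)
  have zj := zμ j (by simp)
  have zm := zμ m (by simp)
  have ne' : ∀ {x y : ZMod N}, cl x + cl H ≠ cl y → x + H ≠ y := fun n e => n (by rw [← map_add, e])
  have b1 : s + 1 + cl H ≠ s + cl H := by simpa
  have b2 : s + cl H + cl H ≠ s + cl H := by simpa
  have b3 : s + cl H + cl H ≠ s + 1 := by simpa [add_assoc, HH] using n1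
  have b4 : s + 1 + cl H ≠ s + 1 := by simpa
  have ii : i + H ≠ i := ne' (by rwa [hi])
  have ij' : i + H ≠ j := ne' (by rwa [hi, hj])
  have im' : i + H ≠ m := ne' (by rwa [hi, hm])
  have ji : j + H ≠ i := ne' (by rwa [hi, hj])
  have jj : j + H ≠ j := ne' (by rwa [hj])
  have jm' : j + H ≠ m := ne' (by rwa [hj, hm])
  have mi : m + H ≠ i := ne' (by rwa [hi, hm])
  have mj : m + H ≠ j := ne' (by rwa [hj, hm])
  have mm : m + H ≠ m := ne' (by rwa [hm])
  have sy : ∀ l j m, ww H α l j m = ww H α l m j := fun l j m =>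
    Finset.sum_congr rfl fun b _ => mul_right_comm _ _ _
  have := one_carry hK h I top hκ hι ne h0 hD (s := s) (t := μ + single i 1 + single j 1 + single m 1) (fun x => by
    have := pμ.1 x
    simp only [Finsupp.add_apply, Finsupp.single_apply]
    split_ifs <;> simp_all) (funext fun x => by
      have := hx x
      simp only [map_add (md cl), pe_md, mμ, hi, hj, hm, Pi.add_apply, Pi.sub_apply, Pi.single_apply]
      split_ifs at * <;> omega)
  rw [sum_filter, ← (Equiv.subRight 1).sum_comp, ← Finset.sum_subset (subset_univ {i, j, m}),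
    sum_insert (by simp [ij, im]), sum_pair jm] at this
  · simp only [Equiv.subRight_apply, sub_add_cancel, map_sub, map_one, hi, hj, hm, add_sub_cancel_right,
      Finsupp.add_apply, Finsupp.single_apply, zi, zj, zm, ij, im, jm, ij.symm, im.symm, jm.symm, if_true, if_false,
      zero_add, add_zero, and_true, sub_eq_iff_eq_add, add_right_inj] at this
    rw [add_tsub_cancel_right, Wp_eq h.H_ne h.HH (sy _) pμ ij ij', add_right_comm _ (single j 1),
      add_tsub_cancel_right, Wp_eq h.H_ne h.HH (sy _) pμ im im', add_right_comm μ,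
      add_right_comm _ (single i 1), add_tsub_cancel_right, Wp_eq h.H_ne h.HH (sy _) pμ jm.symm mj, sy _ m] at this
    split_ifs at this ⊢ <;> simpa using this
  · intro x _ hx
    simp only [mem_insert, mem_singleton, not_or] at hx
    rw [Equiv.subRight_apply, sub_add_cancel, Wp_zero h.H_ne h.HH _ ij im jm, ite_self] <;>
      simp [Finsupp.single_apply, pμ.2, *, Ne.symm, hx.1, hx.2.1, hx.2.2]

end top

/-- If `md m₀ s ≥ 2` and `md m₀ (s+1) < 7`: `carry3` and `mono_of_ww` (`cl H ≠ 1`) or `mono_of_cubic`.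
So either all `md m₀ s ≤ 1`, or one, hence every, `md m₀ s = 7`, and `m₀ i = 1` (`fib`, reduced). -/
theorem top_cases (h : Iso 7 cl H α) {P : MvPolynomial (ZMod N) K} (I : Inv H α P)
    {κ ι : ZMod N} (hκ : α κ ≠ 0) (hι : α ι ≠ 0) (ne : κ ≠ ι) {m₀ : ZMod N →₀ ℕ}
    (h0 : coeff m₀ P ≠ 0) (top : ∀ m, coeff m P ≠ 0 → degree m ≤ degree m₀) :
    (∀ s, md cl m₀ s ≤ 1) ∨ ∀ i, m₀ i = 1 := by
  rw [or_iff_not_imp_left]
  intro h1
  push Not at h1
  obtain ⟨s, hs⟩ := h1
  have st : ∀ s, 2 ≤ md cl m₀ s → 7 ≤ md cl m₀ (s + 1) := fun s h2 => not_lt.1 fun h1 => ne <| by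
    have c := @carry3 _ _ _ _ _ _ _ _ _ _ _ _ hK h _ I _ top _ _ hκ hι ne _ h0 rfl s h2 h1
    by_cases e : cl H = 1
    · simp only [e, if_true, ← add_assoc] at c
      exact mono_of_cubic hK h e (s + 1) (fun i j m => @c i j m) hκ hι
    · have n : ∀ {l j : ZMod N}, cl l = s → cl j = s + cl H → l + 1 ≠ j := fun hl hj e' =>
        e (by rw [← e', map_add, map_one, hl] at hj; exact (add_left_cancel hj).symm)
      refine mono_of_ww h s (fun l j m hl hj hm jm => ?_) hκ hι
      simpa [e] using c (by rw [map_add, map_one, hl]) hj hm (n hl hj) (n hl hm) jm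
  have al : ∀ k : ℕ, 7 ≤ md cl m₀ (s + 1 + k) := fun k => by
    induction k with
    | zero => simpa using st s hs
    | succ k ih => rw [Nat.cast_succ, ← add_assoc]; exact st _ (by omega)
  intro i
  by_contra n
  have := al (cl i - (s + 1)).val
  rw [ZMod.natCast_zmod_val, add_sub_cancel] at this
  exact this.not_gt ((h.pe_lt (I.per m₀ h0).1 _).2 i rfl n)

/-- shift the index by `(s.val : ZMod N)`; `pow_val_add`, `sum_pow_char_pow` -/
theorem ev_Qs (H : ZMod N) (s : ZMod f) {x : K} (hx : x ≠ 0) :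
    ev 2 N x (Qs K cl H s) = ev 2 N x (Qs K cl H 0) ^ 2 ^ s.val :=
  ev_Qs' hK H s hx

/-- `R = ∏ Qs s` over `s` with `s.val < (s + cl H).val`, `a s = 1`: non-zero (domain), weighted
homogeneous of weight `a ≠ 0`, so reduced (`le_md`), periodic, fixed by `bind` (`bind_Qs`); `ev_Qs` -/
theorem exists_R (h : Iso r cl H α) {a : ZMod f → ℕ} (a0 : a ≠ 0) (ha : ∀ s, a (s + cl H) = a s)
    (a1 : ∀ s, a s ≤ 1) : ∃ (R : MvPolynomial (ZMod N) K) (k : ℕ), R ≠ 0 ∧ Inv H α R ∧
      (∀ m, coeff m R ≠ 0 → md cl m = a) ∧ ∀ x, x ≠ 0 → ev 2 N x R = ev 2 N x (Qs K cl H 0) ^ k :=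
  exists_R' hK h a0 ha a1

/-- Induction on the size of the support.  Take `m₀` of top degree, `top_cases`.  Subtract `c • R`
(`exists_R`; by `top_const` for `P` and for `R` this removes exactly the monomials of multidegree
`md m₀`), or the monomial `m₀`, whose value at `x ≠ 0` is `1` (`wt_top`, `ev_bind`, `hg`). -/
theorem fun_of_norm (h : Iso 7 cl H α) (hg : ∀ x : K, x ≠ 0 → ∑ l, α l * x ^ 2 ^ l.val ≠ 0)
    {κ ι : ZMod N} (hκ : α κ ≠ 0) (hι : α ι ≠ 0) (ne : κ ≠ ι) {P : MvPolynomial (ZMod N) K}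
    (I : Inv H α P) : ∃ φ : K → K, ∀ x, x ≠ 0 → ev 2 N x P = φ (ev 2 N x (Qs K cl H 0)) :=
  fun_of_norm' hK h hg hκ hι ne (fun _ I _ h0 top => top_cases hK h I hκ hι ne h0 top) I

end Iso

end Cfsg.Lib.US7
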