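import Cfsg.Agent.Lib.US7.PE
import Cfsg.Agent.Lib.US7.Md
import Cfsg.Agent.Lib.US7.CA

/-! # Overgroups of the Singer normaliser in `GU₇(q)` have the orbits of `GU₇(q)` -/

set_option autoImplicit false
set_option linter.unusedSectionVars false

namespace Cfsg.Lib.US7

open Finsupp MvPolynomial Finset Module Cfsg.Lib.Unitary Cfsg.Lib.CKS

section poly

variable {N : ℕ} [NeZero N] {K : Type*} [Field K] [Fintype K] [CharP K 2]
  (hK : Fintype.card K = 2 ^ N)
include hK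

/-- `coeff_eq_zero_of_alone` / `extract` with `red_unique` for the monomials `single j 1` -/
theorem lin_eq_zero (c : ZMod N → K) (h : ∀ x : K, ∑ j, c j * x ^ 2 ^ j.val = 0) (j : ZMod N) :
    c j = 0 := by
  classical
  have red : ∀ k : ZMod N, Red 2 (single k 1) := fun k i => by rw [single_apply]; split_ifs <;> omega
  have := coeff_eq_zero_of_alone hK (∑ j, monomial (single j 1) (c j)) (fun x _ => by
    simpa only [map_sum, ev_monomial, wt_single, one_mul] using h x) (single j 1) fun m hm e => by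
      rw [coeff_sum] at hm
      obtain ⟨k, -, hk⟩ := exists_ne_zero_of_sum_ne_zero hm
      rw [coeff_monomial] at hk
      obtain rfl : single k 1 = m := by_contra fun n => hk (if_neg n)
      exact red_unique two_pos (red k) (red j) (by simp) (by simp) e
  simpa [coeff_sum, coeff_monomial, single_left_inj] using this

/-- expand by `ev_YY`, apply `lin_eq_zero` twice -/
theorem orth_of (H : ZMod N) (α : ZMod N → K)
    (h : ∀ x y : K, ∑ b : ZMod N, (∑ l, α l * y ^ 2 ^ l.val) ^ 2 ^ b.val *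
      (∑ l, α l * x ^ 2 ^ l.val) ^ 2 ^ (b + H).val = ∑ b : ZMod N, y ^ 2 ^ b.val * x ^ 2 ^ (b + H).val)
    (j k : ZMod N) : ∑ b, bb 2 α b j * bb 2 α (b + H) (k + H) = if j = k then 1 else 0 := by
  classical
  have key : ∀ (y : K) (b : ZMod N), (∑ l, α l * y ^ 2 ^ l.val) ^ 2 ^ b.val =
      ∑ j, bb 2 α b j * y ^ 2 ^ j.val := fun y b => by
    by_cases hy : y = 0
    · simp [hy]
    · rw [← ev_YY hK α hy]
      simp [YY, ev]
  simp only [key] at h
  have h1 := fun x : K => lin_eq_zero hK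
    (fun j => ∑ b, bb 2 α b j * ∑ k, bb 2 α (b + H) k * x ^ 2 ^ k.val - x ^ 2 ^ (j + H).val) (fun y => by
      simp only [sub_mul, sum_sub_distrib, sub_eq_zero]
      refine Eq.trans ?_ ((h x y).trans (sum_congr rfl fun _ _ => mul_comm _ _))
      simp only [Finset.sum_mul]
      rw [Finset.sum_comm]
      exact sum_congr rfl fun _ _ => sum_congr rfl fun _ _ => mul_right_comm _ _ _) j
  have h2 := lin_eq_zero hK
    (fun k => ∑ b, bb 2 α b j * bb 2 α (b + H) k - if j + H = k then 1 else 0) (fun x => by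
      refine Eq.trans ?_ (h1 x)
      simp only [sub_mul, sum_sub_distrib, ite_mul, one_mul, zero_mul, Finset.sum_ite_eq, mem_univ, if_true, Finset.sum_mul,
        Finset.mul_sum, mul_assoc]
      rw [Finset.sum_comm]) (k + H)
  simpa only [sub_eq_zero, add_left_inj] using h2

/-- as `s1 s2 s3` in `CKS.pm`: `z ^ wt m = 1` for a generator `z` of the `(2^a + 1)`-th roots of unity, so
`2^a + 1 ∣ wt m`, `2^a wt m ≡ wt m mod 2^N - 1`, `shift_eq` -/
theorem per_of_inv {a : ℕ} (hN : N = 2 * a) {P : MvPolynomial (ZMod N) K}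
    (hP : ∀ m, coeff m P ≠ 0 → Red 2 m ∧ m ≠ 0)
    (h : ∀ z x : K, z ^ (2 ^ a + 1) = 1 → x ≠ 0 → ev 2 N (z * x) P = ev 2 N x P) (m : ZMod N →₀ ℕ)
    (hm : coeff m P ≠ 0) : Per (a : ZMod N) m := by
  classical
  have s1 : ∀ z : Kˣ, (z : K) ^ (2 ^ a * wt 2 m) = z ^ wt 2 m := fun z => by
    have hz : ((z : K) ^ 2 ^ a / z) ^ (2 ^ a + 1) = 1 := by
      rw [div_pow, pow_succ, pow_succ, ← pow_mul _ (2 ^ a), ← pow_add 2, ← two_mul, ← hN, ← hK, FiniteField.pow_card, mul_comm,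
        div_self (mul_ne_zero (pow_ne_zero _ z.ne_zero) z.ne_zero)]
    have e1 := extract hK P.support (fun u => coeff u P * (((z : K) ^ 2 ^ a / z) ^ wt 2 u - 1)) (fun x hx => by
      have := h _ x hz hx
      rw [ev_eq, ev_eq, ← sub_eq_zero, ← sum_sub_distrib] at this
      rw [← this]
      exact sum_congr rfl fun u _ => by rw [mul_pow]; ring) (wt 2 m)
    rw [Finset.sum_eq_single m] at e1
    · have := sub_eq_zero.1 ((mul_eq_zero.1 e1).resolve_left hm)
      rwa [div_pow, div_eq_one_iff_eq (pow_ne_zero _ z.ne_zero), ← pow_mul] at this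
    · intro u hu hne
      rw [mem_filter, MvPolynomial.mem_support_iff] at hu
      exact absurd (red_unique two_pos (hP u hu.1).1 (hP m hm).1 (hP u hu.1).2 (hP m hm).2 hu.2) hne
    · intro hu
      exact absurd (mem_filter.2 ⟨MvPolynomial.mem_support_iff.2 hm, Nat.ModEq.refl _⟩) hu
  refine ⟨(hP m hm).1, shift_eq two_pos (hP m hm).1 (hP m hm).2 ?_⟩
  obtain ⟨z, hz⟩ := IsCyclic.exists_ofOrder_eq_natCard (α := Kˣ)
  rw [← hK, ← Fintype.card_units, ← Nat.card_eq_fintype_card, ← hz, ← pow_eq_pow_iff_modEq]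
  exact Units.ext (by simpa using s1 z)

theorem pf_pow_add (u : K) (i j : ZMod N) : u ^ 2 ^ (i + j).val = (u ^ 2 ^ j.val) ^ 2 ^ i.val := by
  by_cases hu : u = 0
  · simp [hu]
  have h5 : u ^ (2 ^ N - 1) = 1 := by rw [← hK]; exact FiniteField.pow_card_sub_one_eq_one u hu
  rw [← pow_mul, pow_eq_pow_mod _ h5, pow_val_add two_pos, ← pow_eq_pow_mod _ h5, mul_comm]

omit hK in
theorem pf_sum (f : ℕ → K) : ∑ b : ZMod N, f b.val = ∑ i ∈ range N, f i := by
  obtain ⟨k, rfl⟩ : ∃ k, N = k + 1 := ⟨N - 1, by have := NeZero.pos N; omega⟩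
  exact Fin.sum_univ_eq_sum_range f _

end poly

variable {F K : Type*} [Field F] [Fintype F] [Field K] [Fintype K] [Algebra F K] {σ : F →+* F}
  {q n d τ : ℕ} {s : K →+* K} {B : K →ₛₗ[σ] K →ₗ[F] F}

namespace Md

theorem pf_char (M : Md q n d τ s B) {e : ℕ} (hq : q = 2 ^ e) [NeZero (2 * e)] :
    CharP F 2 ∧ CharP K 2 ∧ Fintype.card K = 2 ^ (2 * e * n) := by
  have h2 : ((2 : ℕ) : F) = 0 := by
    have := FiniteField.cast_card_eq_zero F
    rw [M.cardF, hq, ← pow_mul, Nat.cast_pow] at this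
    exact pow_eq_zero_iff (mul_comm 2 e ▸ NeZero.ne (2 * e)) |>.1 this
  haveI := (CharP.charP_iff_prime_eq_zero (R := F) Nat.prime_two).2 h2
  exact ⟨this, charP_of_injective_algebraMap (algebraMap F K).injective 2, by
    rw [M.cardK, hq, ← pow_mul, mul_left_comm, mul_assoc]⟩

theorem pf_s (M : Md q n d τ s B) {e : ℕ} (hq : q = 2 ^ e) [NeZero (2 * e)] [NeZero (2 * e * n)] (u : K)
    (b : ZMod (2 * e * n)) : u ^ 2 ^ (b + ((e * n : ℕ) : ZMod (2 * e * n))).val = s u ^ 2 ^ b.val := by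
  obtain ⟨-, cK, hK⟩ := M.pf_char hq
  have := NeZero.pos (2 * e * n)
  rw [pf_pow_add hK, M.barK.eq, hq, ← pow_mul 2, ZMod.val_natCast,
    Nat.mod_eq_of_lt (by rw [mul_assoc] at this ⊢; omega)]

/-- As in `CKS.pm`, with `f = 2 e`, `N = f n`, `H = e n`, `cl = castHom`.  `orth_of`: apply the trace
to the prime field to `B (g x) (g y) = B x y` (`Algebra.trace_trace`,
`FiniteField.algebraMap_trace_eq_sum_pow`), `s x = x ^ 2 ^ (e n)`. -/
theorem exists_iso (M : Md q n d τ s B) {e : ℕ} (hq : q = 2 ^ e) [NeZero (2 * e)] [NeZero (2 * e * n)]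
    {g : K ≃ₗ[F] K} (hg : g ∈ UG B) : ∃ α : ZMod (2 * e * n) → K,
      Iso n (ZMod.castHom (dvd_mul_right (2 * e) n) (ZMod (2 * e))) ((e * n : ℕ) : ZMod (2 * e * n)) α ∧
      (∀ x, ∑ l, α l * x ^ 2 ^ l.val = g x) ∧
      ((∀ κ ι, α κ ≠ 0 → α ι ≠ 0 → κ = ι) → g ∈ Nn F K) := by
  classical
  obtain ⟨cF, cK, hK⟩ := M.pf_char hq
  haveI : Fact (Nat.Prime 2) := ⟨Nat.prime_two⟩
  have f0 := NeZero.pos (2 * e)
  have hf : Fintype.card F = 2 ^ (2 * e) := by rw [M.cardF, hq, ← pow_mul, mul_comm]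
  obtain ⟨a, ha⟩ := exists_linearised g.toLinearMap
  have hr := M.rank
  subst hr
  have hv : ∀ j : Fin (finrank F K), ((2 * e * j.1 : ℕ) : ZMod (2 * e * finrank F K)).val = 2 * e * j.1 :=
    fun j => by rw [ZMod.val_natCast, Nat.mod_eq_of_lt (Nat.mul_lt_mul_of_pos_left j.2 f0)]
  have hi : ∀ j k : Fin (finrank F K),
      ((2 * e * j.1 : ℕ) : ZMod (2 * e * finrank F K)) = (2 * e * k.1 : ℕ) → j = k := fun j k e => by
    have := congrArg ZMod.val e
    rw [hv, hv] at this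
    exact Fin.ext (Nat.eq_of_mul_eq_mul_left f0 this)
  let α : ZMod (2 * e * finrank F K) → K := fun l => ∑ j : Fin (finrank F K),
    if ((2 * e * j.1 : ℕ) : ZMod (2 * e * finrank F K)) = l then a j else 0
  have hα : ∀ j : Fin (finrank F K), α (2 * e * j.1 : ℕ) = a j := fun j => by
    simp only [α]
    rw [Finset.sum_eq_single j, if_pos rfl]
    · exact fun k _ hk => if_neg fun e => hk (hi _ _ e)
    · simp
  have hg' : ∀ x, ∑ l, α l * x ^ 2 ^ l.val = g x := fun x => by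
    simp only [α, Finset.sum_mul, ite_mul, zero_mul]
    rw [Finset.sum_comm]
    refine (sum_congr rfl fun j _ => ?_).trans (ha x).symm
    rw [Finset.sum_ite_eq, if_pos (mem_univ _), hv, hf, ← pow_mul]
  refine ⟨α, ⟨M.prime, M.seven, card_fib, ?_, ?_, fun l hl => ?_, orth_of hK _ α fun x y => ?_⟩, hg', fun hu => ?_⟩
  · rw [← Nat.cast_add, ← two_mul, ← mul_assoc, ZMod.natCast_self]
  · rw [map_natCast, Ne, ZMod.natCast_eq_zero_iff, mul_comm 2, Nat.mul_dvd_mul_iff_left (by omega),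
      ← even_iff_two_dvd, Nat.not_even_iff_odd]
    exact M.toNm.odd
  · obtain ⟨j, -, hj⟩ := exists_ne_zero_of_sum_ne_zero hl
    have : ((2 * e * j.1 : ℕ) : ZMod (2 * e * finrank F K)) = l := by_contra fun h => hj (if_neg h)
    rw [← this, map_natCast, Nat.cast_mul, ZMod.natCast_self, zero_mul]
  · letI := ZMod.algebra F 2
    letI := ZMod.algebra K 2
    haveI : IsScalarTower (ZMod 2) F K := .of_algebraMap_eq' (Subsingleton.elim _ _)
    have hn : finrank (ZMod 2) K = 2 * e * finrank F K := Nat.pow_right_injective le_rfl (by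
      simpa only [ZMod.card] using (Module.card_eq_pow_finrank (K := ZMod 2) (V := K)).symm.trans hK)
    have key : ∀ u v : K, ∑ b : ZMod (2 * e * finrank F K), v ^ 2 ^ b.val *
        u ^ 2 ^ (b + ((e * finrank F K : ℕ) : ZMod (2 * e * finrank F K))).val =
        algebraMap (ZMod 2) K (Algebra.trace (ZMod 2) F (B u v)) := fun u v => by
      rw [M.form, Algebra.trace_trace, FiniteField.algebraMap_trace_eq_sum_pow, hn, Nat.card_zmod,
        ← pf_sum fun i => (s u * v) ^ 2 ^ i]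
      exact sum_congr rfl fun b _ => by rw [M.pf_s hq, mul_pow, mul_comm]
    simp only [hg', key, hg x y]
  · rw [M.mem_Nn, ← M.cardF]
    by_cases h0 : ∃ j, a j ≠ 0
    · obtain ⟨j, hj⟩ := h0
      refine ⟨a j, j, fun x => (ha x).trans (Finset.sum_eq_single j (fun k _ hk => ?_) (by simp))⟩
      rw [show a k = 0 from by_contra fun h => hk (hi _ _ (hu _ _ (by rwa [hα]) (by rwa [hα]))), zero_mul]
    · push Not at h0
      exact ⟨0, 0, fun x => (ha x).trans (by simp [h0])⟩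

/-- both sides are `∑_(i < n) (x ^ (q^n + 1)) ^ (q²) ^ i` -/
theorem ev_Qs_zero (M : Md q n d τ s B) {e : ℕ} (hq : q = 2 ^ e) [NeZero (2 * e)] [NeZero (2 * e * n)]
    {x : K} (hx : x ≠ 0) : ev 2 (2 * e * n) x (Qs K (ZMod.castHom (dvd_mul_right (2 * e) n) (ZMod (2 * e)))
      ((e * n : ℕ) : ZMod (2 * e * n)) 0) = algebraMap F K (B x x) := by
  have f0 := NeZero.pos (2 * e)
  have hv : ∀ j < n, ((2 * e * j : ℕ) : ZMod (2 * e * n)).val = 2 * e * j :=
    fun j hj => by rw [ZMod.val_natCast, Nat.mod_eq_of_lt (Nat.mul_lt_mul_of_pos_left hj f0)]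
  rw [M.form, FiniteField.algebraMap_trace_eq_sum_pow, M.rank, M.bar.card, Qs, map_sum, eq_comm]
  refine sum_nbij (fun j => ((2 * e * j : ℕ) : ZMod (2 * e * n))) (fun j _ => ?_) (fun j hj k hk h => ?_)
    (fun j hj => ?_) fun j hj => ?_
  · exact mem_filter.2 ⟨mem_univ _, by rw [map_natCast, Nat.cast_mul, ZMod.natCast_self, zero_mul]⟩
  · have := congrArg ZMod.val h
    simp only [hv j (mem_range.1 hj), hv k (mem_range.1 hk)] at this
    exact Nat.eq_of_mul_eq_mul_left f0 this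
  · obtain ⟨k, hk⟩ : 2 * e ∣ j.val := by
      rw [← ZMod.natCast_eq_zero_iff, ← map_natCast (ZMod.castHom (dvd_mul_right (2 * e) n) (ZMod (2 * e))),
        ZMod.natCast_zmod_val]
      exact (mem_filter.1 hj).2
    exact ⟨k, mem_range.2 (Nat.lt_of_mul_lt_mul_left (hk ▸ j.val_lt)), by
      simp only [← hk, ZMod.natCast_zmod_val]⟩
  · rw [map_mul, ev, aeval_X, aeval_X, M.pf_s hq, hv j (mem_range.1 hj), mul_pow, mul_comm, hq, ← pow_mul 2 e,
      ← pow_mul 2, mul_comm e 2]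

/-- `q = 2 ^ e`, `7 ∤ 2 ^ e + 1`, so `d = 1` and `Sc (q^7 + 1) ≤ G`.  Take `g ∈ G` outside `Nn`, `ψ` the
indicator of the `G`-orbit of `x`, `exists_reduced`, `per_of_inv`, `ev_bind`, `fun_of_norm`. -/
theorem tr_even (M : Md q 7 d τ s B) (h2 : (2 : F) = 0) {G : Subgroup (K ≃ₗ[F] K)} (O : Ov q τ B G) :
    Tr B G := by
  classical
  obtain ⟨p, e, hp, hc, he, hq⟩ := exists_prime_pow_of_card M.cardF
  obtain rfl : p = 2 := (Nat.prime_dvd_prime_iff_eq hp Nat.prime_two).1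
    ((CharP.cast_eq_zero_iff F p 2).1 (by exact_mod_cast h2))
  haveI : NeZero (2 * e) := ⟨by omega⟩
  haveI : NeZero (2 * e * 7) := ⟨by omega⟩
  haveI : Fact (Nat.Prime 2) := ⟨Nat.prime_two⟩
  obtain ⟨-, cK, hK⟩ := M.pf_char hq
  obtain rfl : d = 1 := M.toNm.d_cases.resolve_right fun ⟨_, h⟩ => by
    have : ∀ e, 2 ^ e % 7 = 1 ∨ 2 ^ e % 7 = 2 ∨ 2 ^ e % 7 = 4 := fun e => by
      induction e with
      | zero => simp
      | succ e ih => omega
    have := this e
    omega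
  have hT : τ * (q + 1) = 2 ^ (e * 7) + 1 := by rw [pow_mul, ← hq, ← M.mul, one_mul, mul_comm]
  obtain ⟨g, hg, hn⟩ := SetLike.not_le_iff_exists.1 O.ne
  obtain ⟨α, I, hα, h1⟩ := M.exists_iso hq (O.le hg)
  obtain ⟨κ, ι, hκ, hι, ne⟩ : ∃ κ ι, α κ ≠ 0 ∧ α ι ≠ 0 ∧ κ ≠ ι := by
    by_contra! h
    exact hn (h1 h)
  intro x y hx hy hB
  obtain ⟨P, p1, p2⟩ := exists_reduced le_rfl hK fun z : K => if ∃ k ∈ G, k x = z then 1 else 0
  have g0 : ∀ (k : K ≃ₗ[F] K) (v : K), v ≠ 0 → k v ≠ 0 := fun k v hv => by simpa using hv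
  have inv : ∀ k ∈ G, ∀ v, v ≠ 0 → ev 2 (2 * e * 7) (k v) P = ev 2 (2 * e * 7) v P := fun k hk v hv => by
    rw [p2 _ hv, p2 _ (g0 k v hv)]
    exact if_congr ⟨fun ⟨l, hl, e⟩ => ⟨k⁻¹ * l, mul_mem (inv_mem hk) hl, k.injective (by simpa using e)⟩,
      fun ⟨l, hl, e⟩ => ⟨k * l, mul_mem hk hl, congrArg k e⟩⟩ rfl rfl
  obtain ⟨φ, hφ⟩ := Iso.fun_of_norm hK I (fun v hv => hα v ▸ g0 g v hv) hκ hι ne (P := P)
    ⟨per_of_inv hK (mul_assoc 2 e 7) p1 fun z v hz hv => inv (mu F K (Units.mk0 z fun h => by simp [h] at hz))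
      (O.sc (mu_mem_Sc.2 (Units.ext (by rw [hT]; exact hz)))) v hv, fun m hm => (p1 m hm).2,
      fun v hv => by rw [map_sub, ev_bind hK α hv, hα, inv g hg v hv, sub_self]⟩
  have := (hφ y hy).trans (by rw [M.ev_Qs_zero hq hy, ← hB, ← M.ev_Qs_zero hq hx, ← hφ x hx])
  rw [p2 _ hx, p2 _ hy, if_pos (c := ∃ k ∈ G, k x = x) ⟨1, one_mem G, rfl⟩] at this
  exact by_contra fun n => zero_ne_one ((if_neg n).symm.trans this)

theorem tr (M : Md q 7 d τ s B) {G : Subgroup (K ≃ₗ[F] K)} (O : Ov q τ B G) : Tr B G := by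
  by_cases h2 : (2 : F) = 0
  · exact M.tr_even h2 O
  · exact M.tr_odd h2 O

end Md

end Cfsg.Lib.US7
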